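import Cfsg.Agent.Lib.Helper50.InvRing

set_option autoImplicit false

/-! Finite rings with an anti-involution: solving `τ c * c = f * a` on the corner where `A - τ A` is invertible. -/

namespace Cfsg.Agent.Lib.Helper50.InvCorner

open Cfsg.Agent.Lib.Helper50

universe u

/-- every element of a finite monoid has an idempotent positive power -/
theorem exists_idem_pow {M : Type*} [Monoid M] [Finite M] (x : M) :
    ∃ j : ℕ, x ^ (j + 1) * x ^ (j + 1) = x ^ (j + 1) := by
  obtain ⟨i, k, hik, hx⟩ : ∃ i k : ℕ, i < k ∧ x ^ i = x ^ k := by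
    obtain ⟨a, b, hab, h⟩ := Finite.exists_ne_map_eq_of_infinite (fun n : ℕ => x ^ n)
    rcases lt_or_gt_of_ne hab with h1 | h1
    · exact ⟨a, b, h1, h⟩
    · exact ⟨b, a, h1, h.symm⟩
  obtain ⟨d, rfl⟩ : ∃ d, k = i + (d + 1) := ⟨k - i - 1, by omega⟩
  have per : ∀ m, i ≤ m → x ^ (m + (d + 1)) = x ^ m := by
    intro m hm
    obtain ⟨r, rfl⟩ : ∃ r, m = r + i := ⟨m - i, by omega⟩
    rw [add_assoc, pow_add x r, ← hx, ← pow_add]
  have per2 : ∀ t m, i ≤ m → x ^ (m + t * (d + 1)) = x ^ m := by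
    intro t
    induction t with
    | zero => intro m _; simp
    | succ t ih =>
      intro m hm
      rw [Nat.succ_mul, ← add_assoc, per _ (by omega), ih m hm]
  refine ⟨(i + 1) * (d + 1) - 1, ?_⟩
  have h1 : (i + 1) * (d + 1) - 1 + 1 = (i + 1) * (d + 1) := by
    have : 0 < (i + 1) * (d + 1) := by positivity
    omega
  rw [h1, ← pow_add]
  apply per2
  nlinarith

/-- norm surjectivity on the corner cut out by a fixed idempotent on which `θ - σ θ` is invertible -/
theorem norm_corner {R : Type u} [CommRing R] [Finite R] (σ : R →+* R) (hσ : ∀ x, σ (σ x) = x) (θ b f : R)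
    (hff : f * f = f) (hf : σ f = f) (hθ : (θ - σ θ) * b = f) (a : R) (ha : IsUnit a) (haσ : σ a = a) :
    ∃ y : R, f * (y * σ y) = f * a := by
  set I : Ideal R := Ideal.span {1 - f} with hI
  have : Finite (R ⧸ I) := Finite.of_surjective _ Ideal.Quotient.mk_surjective
  have hle : I ≤ I.comap σ := by
    rw [hI, Ideal.span_le]
    rintro _ rfl
    show σ (1 - f) ∈ Ideal.span {1 - f}
    rw [map_sub, map_one, hf]
    exact Ideal.mem_span_singleton_self _
  have h1 : Ideal.Quotient.mk I f = 1 := by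
    rw [← map_one (Ideal.Quotient.mk I), eq_comm, Ideal.Quotient.eq]
    exact Ideal.mem_span_singleton_self _
  obtain ⟨y, hy⟩ := InvRing.norm_surj (Ideal.quotientMap I σ hle)
    (by
      intro x
      obtain ⟨x, rfl⟩ := Ideal.Quotient.mk_surjective x
      rw [Ideal.quotientMap_mk, Ideal.quotientMap_mk, hσ])
    (Ideal.Quotient.mk I θ)
    (by
      rw [Ideal.quotientMap_mk, ← map_sub]
      exact IsUnit.of_mul_eq_one (Ideal.Quotient.mk I b) (by rw [← map_mul, hθ, h1]))
    (Ideal.Quotient.mk I a) (ha.map _)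
    (by rw [Ideal.quotientMap_mk, haσ])
  obtain ⟨y, rfl⟩ := Ideal.Quotient.mk_surjective y
  rw [Ideal.quotientMap_mk, ← map_mul, Ideal.Quotient.eq] at hy
  obtain ⟨c, hc⟩ := Ideal.mem_span_singleton'.1 hy
  refine ⟨y, ?_⟩
  linear_combination (-f) * hc - c * hff

theorem norm_corner' {R : Type u} [Ring R] [Finite R] (hc : ∀ x y : R, x * y = y * x) (σ : R →+* R)
    (hσ : ∀ x, σ (σ x) = x) (θ b f : R)
    (hff : f * f = f) (hf : σ f = f) (hθ : (θ - σ θ) * b = f) (a : R) (ha : IsUnit a) (haσ : σ a = a) :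
    ∃ y : R, f * (y * σ y) = f * a := by
  letI : CommRing R := { ‹Ring R› with mul_comm := hc }
  exact norm_corner σ hσ θ b f hff hf hθ a ha haσ

section sub

variable {M : Type u} [Ring M] [Finite M]
variable (τ : M → M) (hadd : ∀ x y, τ (x + y) = τ x + τ y) (hmul : ∀ x y, τ (x * y) = τ y * τ x)
  (hone : τ 1 = 1) (hττ : ∀ x, τ (τ x) = x)

include hadd hmul hone hττ in
/-- `A` unitary for `τ`, `a` a symmetric unit commuting with `A`: on the corner `f = (A - τ A)^(j+1)`
the equation `τ c * c = f * a` is solvable in the centraliser of `A`. -/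
theorem exists_corner (A a : M) (hA : τ A * A = 1) (hA' : A * τ A = 1) (ha : IsUnit a) (haτ : τ a = a)
    (haA : a * A = A * a) :
    ∃ (j : ℕ) (f c : M), f = (A - τ A) ^ (j + 1) ∧ f * f = f ∧ τ f = f ∧ f * A = A * f ∧ f * a = a * f ∧
      c * A = A * c ∧ f * c = c ∧ c * f = c ∧ τ c * c = f * a := by
  set S : Set M := {A, τ A, a} with hSdef
  have haA' : a * τ A = τ A * a := by
    calc a * τ A = τ A * (A * a) * τ A := by rw [← mul_assoc, hA, one_mul]
      _ = τ A * (a * A) * τ A := by rw [haA]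
      _ = τ A * a := by rw [mul_assoc, mul_assoc, hA', mul_one]
  have hS : ∀ x ∈ S, ∀ y ∈ S, x * y = y * x := by
    rintro x (rfl | rfl | rfl) y (rfl | rfl | rfl)
    · rfl
    · rw [hA, hA']
    · exact haA.symm
    · rw [hA, hA']
    · rfl
    · exact haA'.symm
    · exact haA
    · exact haA'
    · rfl
  have hτS : ∀ x ∈ S, τ x ∈ S := by
    rintro x (rfl | rfl | rfl)
    · simp [hSdef]
    · rw [hττ]; simp [hSdef]
    · rw [haτ]; simp [hSdef]
  have hAS : A ∈ Subring.closure S := Subring.subset_closure (by simp [hSdef])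
  have hAS' : τ A ∈ Subring.closure S := Subring.subset_closure (by simp [hSdef])
  have haS : a ∈ Subring.closure S := Subring.subset_closure (by simp [hSdef])
  obtain ⟨j, hj⟩ := exists_idem_pow (A - τ A)
  set x := A - τ A with hx
  have hxS : x ∈ Subring.closure S := sub_mem hAS hAS'
  have hτx : τ x = -x := by
    rw [hx, sub_eq_add_neg, hadd, InvRing.tau_neg τ hadd, hττ]
    abel
  have hτpow : ∀ (z : M) (n : ℕ), τ (z ^ n) = τ z ^ n := by
    intro z n
    induction n with
    | zero => simpa using hone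
    | succ n ih => rw [pow_succ, hmul, ih, pow_succ']
  set f := x ^ (j + 1) with hf
  have hfS : f ∈ Subring.closure S := pow_mem hxS _
  have hτf : τ f = f := by
    have h1 : τ f = (-x) ^ (j + 1) := by rw [hf, hτpow, hτx]
    rcases Nat.even_or_odd (j + 1) with he | ho
    · rw [h1, he.neg_pow]
    · have h2 : τ f = -f := by rw [h1, ho.neg_pow]
      have h3 : τ f * τ f = τ f := by rw [← hmul, hj]
      rw [h2] at h3
      rw [h2]
      have h4 : f = -f := by
        calc f = f * f := hj.symm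
          _ = -f * -f := by rw [neg_mul_neg]
          _ = -f := h3
      exact h4.symm
  obtain ⟨y, hy⟩ := norm_corner' (R := Subring.closure S)
    (fun x y => Subtype.ext (InvRing.closure_comm S hS x.2 y.2)) (InvRing.sig τ hadd hmul hone S hS hτS)
    (fun x => Subtype.ext (hττ x)) ⟨A, hAS⟩ ⟨x ^ j, pow_mem hxS _⟩ ⟨f, hfS⟩ (Subtype.ext hj) (Subtype.ext hτf)
    (Subtype.ext (by
      show (A - τ A) * x ^ j = f
      rw [hf, pow_succ'])) ⟨a, haS⟩ (InvRing.isUnit_sub _ _ ha) (Subtype.ext haτ)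
  have hy' : f * ((y : M) * τ y) = f * a := congrArg Subtype.val hy
  have cm : ∀ {u v : M}, u ∈ Subring.closure S → v ∈ Subring.closure S → u * v = v * u :=
    fun hu hv => InvRing.closure_comm S hS hu hv
  have hτy : τ (y : M) ∈ Subring.closure S := InvRing.tau_mem τ hadd hmul hone S hτS y.2
  refine ⟨j, f, f * y, rfl, hj, hτf, cm hfS hAS, cm hfS haS, cm (mul_mem hfS y.2) hAS, ?_, ?_, ?_⟩
  · rw [← mul_assoc, hj]
  · rw [cm hfS y.2, mul_assoc, hj]
  · rw [hmul, hτf]
    calc τ (y : M) * f * (f * y) = τ (y : M) * (f * f) * y := by simp only [mul_assoc]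
      _ = τ (y : M) * f * y := by rw [hj]
      _ = f * (y * τ (y : M)) := by
        rw [cm hτy hfS, mul_assoc, cm hτy y.2]
      _ = f * a := hy'

end sub

end Cfsg.Agent.Lib.Helper50.InvCorner
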