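import Cfsg.Agent.Lib.Helper50.SUDet1
import Cfsg.Agent.Lib.Helper50.GUConj
import Cfsg.Agent.Lib.Helper50.InvCorner

set_option autoImplicit false
open Matrix

/-! The determinant maps the centraliser in `GU_n(q)` of a semisimple element onto the norm-one group. -/

namespace Cfsg.Agent.Lib.Helper50.SUDet

open Cfsg.Agent.Lib.Helper50 Cfsg.Agent.Lib.Helper50.Herm Cfsg.Agent.Lib.Helper50.GUConj Polynomial

variable {K : Type*} [Field K] [Fintype K] {q n : ℕ}

theorem dag_pow (hK : Fintype.card K = q ^ 2) (x : Matrix (Fin n) (Fin n) K) (i : ℕ) :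
    dag hK (x ^ i) = dag hK x ^ i := by
  induction i with
  | zero => simp [dag_one]
  | succ i ih => rw [pow_succ, dag_mul, ih, pow_succ']

theorem dag_zero (hK : Fintype.card K = q ^ 2) : dag hK (0 : Matrix (Fin n) (Fin n) K) = 0 :=
  InvRing.tau_zero _ (dag_add hK)

theorem dag_neg (hK : Fintype.card K = q ^ 2) (x : Matrix (Fin n) (Fin n) K) : dag hK (-x) = -dag hK x :=
  InvRing.tau_neg _ (dag_add hK) x

theorem dag_sub (hK : Fintype.card K = q ^ 2) (x y : Matrix (Fin n) (Fin n) K) :
    dag hK (x - y) = dag hK x - dag hK y := by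
  rw [sub_eq_add_neg, dag_add, dag_neg, sub_eq_add_neg]

theorem dag_sum (hK : Fintype.card K = q ^ 2) {ι : Type*} (s : Finset ι) (f : ι → Matrix (Fin n) (Fin n) K) :
    dag hK (∑ i ∈ s, f i) = ∑ i ∈ s, dag hK (f i) := by
  classical
  induction s using Finset.induction_on with
  | empty => simp [dag_zero]
  | insert a s ha ih => rw [Finset.sum_insert ha, Finset.sum_insert ha, dag_add, ih]

theorem dag_smul (hK : Fintype.card K = q ^ 2) (c : K) (x : Matrix (Fin n) (Fin n) K) :
    dag hK (c • x) = c ^ q • dag hK x := by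
  ext i j
  simp only [dag_apply, Matrix.smul_apply, smul_eq_mul, mul_pow]

theorem det_dag (hK : Fintype.card K = q ^ 2) (x : Matrix (Fin n) (Fin n) K) : (dag hK x).det = x.det ^ q := by
  rw [dag, Matrix.det_transpose, ← frobQ_apply hK, RingHom.map_det]
  rfl

/-- Hilbert 90 for `K / F_q` -/
theorem h90_field (hK : Fintype.card K = q ^ 2) (δ : K) (hδ : δ ^ (q + 1) = 1) :
    ∃ d : K, d ≠ 0 ∧ δ = d * (d ^ q)⁻¹ := by
  obtain ⟨θ, hθ⟩ := exists_theta hK
  obtain ⟨c, hc, hcu⟩ := InvRing.h90 (frobQ hK) (fun x => pow_q_sq hK x) θ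
    (sub_ne_zero.2 (Ne.symm hθ)).isUnit δ (by rw [frobQ_apply, ← pow_succ', hδ])
  rw [frobQ_apply] at hcu
  have hc0 : c ≠ 0 := hc.ne_zero
  refine ⟨c, hc0, ?_⟩
  rw [eq_mul_inv_iff_mul_eq₀ (pow_ne_zero _ hc0)]
  exact hcu.symm

/-- a normal invertible element of the centraliser gives a unitary one -/
theorem exists_unitary_of_normal (hK : Fintype.card K = q ^ 2) (g z : Matrix (Fin n) (Fin n) K) (hz : IsUnit z)
    (hn : z * dag hK z = dag hK z * z) (hzg : z * g = g * z) (hzg' : z * dag hK g = dag hK g * z) :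
    ∃ c, dag hK c * c = 1 ∧ c * g = g * c ∧ c.det = z.det * (z.det ^ q)⁻¹ := by
  obtain ⟨zu, rfl⟩ := hz
  obtain ⟨w, hw⟩ : ∃ w : Matrix (Fin n) (Fin n) K, w = ↑zu⁻¹ := ⟨_, rfl⟩
  have h1 : (zu : Matrix (Fin n) (Fin n) K) * w = 1 := by rw [hw, Units.mul_inv]
  have h2 : w * (zu : Matrix (Fin n) (Fin n) K) = 1 := by rw [hw, Units.inv_mul]
  have h3 : dag hK (zu : Matrix (Fin n) (Fin n) K) * dag hK w = 1 := by rw [← dag_mul, h2, dag_one]
  have hwg' : w * dag hK g = dag hK g * w := by
    calc w * dag hK g = w * (dag hK g * zu) * w := by rw [mul_assoc, mul_assoc, h1, mul_one]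
      _ = w * (zu * dag hK g) * w := by rw [hzg']
      _ = dag hK g * w := by rw [← mul_assoc, h2, one_mul]
  have hdw : dag hK w * g = g * dag hK w := by
    have := congrArg (dag hK) hwg'
    rw [dag_mul, dag_mul, dag_dag] at this
    exact this.symm
  refine ⟨zu * dag hK w, ?_, ?_, ?_⟩
  · rw [dag_mul, dag_dag]
    calc w * dag hK (zu : Matrix (Fin n) (Fin n) K) * (zu * dag hK w)
        = w * (dag hK (zu : Matrix (Fin n) (Fin n) K) * zu) * dag hK w := by simp only [mul_assoc]
      _ = (w * zu) * (dag hK (zu : Matrix (Fin n) (Fin n) K) * dag hK w) := by rw [← hn]; simp only [mul_assoc]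
      _ = 1 := by rw [h2, h3, one_mul]
  · rw [mul_assoc, hdw, ← mul_assoc, hzg, mul_assoc]
  · rw [det_mul, det_dag]
    have h4 : (zu : Matrix (Fin n) (Fin n) K).det * w.det = 1 := by rw [← det_mul, h1, det_one]
    have h5 : w.det = ((zu : Matrix (Fin n) (Fin n) K).det)⁻¹ := eq_inv_of_mul_eq_one_right h4
    rw [h5, inv_pow]

theorem aeval_mem_closure (S : Set (Matrix (Fin n) (Fin n) K)) (g : Matrix (Fin n) (Fin n) K) (hg : g ∈ S)
    (f : K[X]) : aeval g f ∈ Subring.closure (withScalars S) := by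
  induction f using Polynomial.induction_on' with
  | add a b ha hb => rw [map_add]; exact add_mem ha hb
  | monomial k a =>
    rw [aeval_monomial]
    have h1 : g ∈ Subring.closure (withScalars S) := Subring.subset_closure (Or.inl hg)
    have h2 : algebraMap K (Matrix (Fin n) (Fin n) K) a ∈ Subring.closure (withScalars S) :=
      Subring.subset_closure (Or.inr ⟨a, rfl⟩)
    exact mul_mem h2 (pow_mem h1 _)

theorem aeval_commute (g t : Matrix (Fin n) (Fin n) K) (h : g * t = t * g) (f : K[X]) :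
    aeval g f * t = t * aeval g f := by
  apply InvRing.closure_commute (withScalars {g}) _ (aeval_mem_closure {g} g rfl f)
  rintro x (rfl | ⟨c, rfl⟩)
  · exact h
  · exact scalar_comm' c t

/-- from a normal idempotent-like element `p` of the centraliser with arbitrary determinants -/
theorem exists_unitary_det (hK : Fintype.card K = q ^ 2) (g p : Matrix (Fin n) (Fin n) K)
    (hg : dag hK g * g = 1) (hpg : p * g = g * p) (hpn : p * dag hK p = dag hK p * p)
    (hD : ∀ d : K, ∃ f : K[X], (1 + (aeval g f - 1) * p).det = d) (δ : K) (hδ : δ ^ (q + 1) = 1) :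
    ∃ c, dag hK c * c = 1 ∧ c * g = g * c ∧ c.det = δ := by
  obtain ⟨d, hd0, hd⟩ := h90_field hK δ hδ
  obtain ⟨f, hf⟩ := hD d
  have hg' : g * dag hK g = 1 := mul_eq_one_comm.1 hg
  have hpgi : p * dag hK g = dag hK g * p := by
    calc p * dag hK g = dag hK g * (g * p) * dag hK g := by rw [← mul_assoc, hg, one_mul]
      _ = dag hK g * (p * g) * dag hK g := by rw [hpg]
      _ = dag hK g * p := by rw [mul_assoc, mul_assoc, hg', mul_one]
  have hdpg : dag hK p * g = g * dag hK p := by
    have := congrArg (dag hK) hpgi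
    rw [dag_mul, dag_mul, dag_dag] at this
    exact this.symm
  have hdpgi : dag hK p * dag hK g = dag hK g * dag hK p := by
    rw [← dag_mul, ← dag_mul, hpg]
  set S : Set (Matrix (Fin n) (Fin n) K) := {g, dag hK g, p, dag hK p} with hSdef
  have hS0 : ∀ x ∈ S, ∀ y ∈ S, x * y = y * x := by
    rintro x (rfl | rfl | rfl | rfl) y (rfl | rfl | rfl | rfl)
    · rfl
    · rw [hg, hg']
    · exact hpg.symm
    · exact hdpg.symm
    · rw [hg, hg']
    · rfl
    · exact hpgi.symm
    · exact hdpgi.symm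
    · exact hpg
    · exact hpgi
    · rfl
    · exact hpn
    · exact hdpg
    · exact hdpgi
    · exact hpn.symm
    · rfl
  have hS := withScalars_comm hS0
  have hτS : ∀ x ∈ withScalars S, dag hK x ∈ withScalars S := by
    rintro x ((rfl | rfl | rfl | rfl) | ⟨c, rfl⟩)
    · exact Or.inl (by simp [hSdef])
    · rw [dag_dag]; exact Or.inl (by simp [hSdef])
    · exact Or.inl (by simp [hSdef])
    · rw [dag_dag]; exact Or.inl (by simp [hSdef])
    · rw [dag_scalar]; exact Or.inr ⟨_, rfl⟩
  have hgS : g ∈ Subring.closure (withScalars S) := Subring.subset_closure (Or.inl (by simp [hSdef]))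
  have hgiS : dag hK g ∈ Subring.closure (withScalars S) := Subring.subset_closure (Or.inl (by simp [hSdef]))
  have hpS : p ∈ Subring.closure (withScalars S) := Subring.subset_closure (Or.inl (by simp [hSdef]))
  have hzS : 1 + (aeval g f - 1) * p ∈ Subring.closure (withScalars S) :=
    add_mem (one_mem _) (mul_mem (sub_mem (aeval_mem_closure S g (by simp [hSdef]) f) (one_mem _)) hpS)
  have hdzS := InvRing.tau_mem (dag hK) (dag_add hK) (dag_mul hK) (dag_one hK) _ hτS hzS
  obtain ⟨c, h1, h2, h3⟩ := exists_unitary_of_normal hK g (1 + (aeval g f - 1) * p)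
    ((Matrix.isUnit_iff_isUnit_det _).2 (by rw [hf]; exact hd0.isUnit))
    (InvRing.closure_comm _ hS hzS hdzS) (InvRing.closure_comm _ hS hzS hgS)
    (InvRing.closure_comm _ hS hzS hgiS)
  exact ⟨c, h1, h2, by rw [h3, hf, hd]⟩

end Cfsg.Agent.Lib.Helper50.SUDet
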