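import Cfsg.Agent.Lib.Helper50.SUDet4

set_option autoImplicit false
open Matrix

/-! `p'`-elements of `SU_n(q)` with the same characteristic polynomial are conjugate in `SU_n(q)`. -/

namespace Cfsg.Agent.Lib.Helper50.SUDet

open Cfsg.Agent.Lib.Helper50 Cfsg.Agent.Lib.Helper50.Herm Cfsg.Agent.Lib.Helper50.GUConj Polynomial

variable {K : Type*} [Field K] [Fintype K] {q : ℕ}

theorem conj_SU (hK : Fintype.card K = q ^ 2) (p : ℕ) [hp : Fact p.Prime] [CharP K p] (n : ℕ)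
    (g h : ↥(Cfsg.SU n K q)) (hg : (orderOf g).Coprime p) (hh : (orderOf h).Coprime p)
    (hc : ((g : Matrix.SpecialLinearGroup (Fin n) K) : Matrix (Fin n) (Fin n) K).charpoly =
      ((h : Matrix.SpecialLinearGroup (Fin n) K) : Matrix (Fin n) (Fin n) K).charpoly) : IsConj g h := by
  rcases Nat.eq_zero_or_pos n with rfl | hn
  · have : g = h := by
      apply Subtype.ext
      ext i
      exact i.elim0
    rw [this]
  have hp1 : p ≠ 1 := hp.out.ne_one
  have hpow : ∀ x : ↥(Cfsg.SU n K q), (x.1.1 : Matrix (Fin n) (Fin n) K) ^ orderOf x = 1 := by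
    intro x
    have h1 : ((x ^ orderOf x : ↥(Cfsg.SU n K q)).1.1 : Matrix (Fin n) (Fin n) K) = 1 := by
      rw [pow_orderOf_eq_one x]; rfl
    rw [← h1, Subgroup.coe_pow]
    exact (Matrix.SpecialLinearGroup.coe_pow _ _).symm
  obtain ⟨x, hx⟩ := SemiConj.exists_conj_of_pow (g.1.1 : Matrix (Fin n) (Fin n) K) h.1.1 (orderOf g) (orderOf h)
    (SemiConj.cast_ne_zero_of_coprime p hg hp1) (SemiConj.cast_ne_zero_of_coprime p hh hp1) (hpow g) (hpow h) hc
  have hG : Matrix.SpecialLinearGroup.toGL g.1 ∈ Cfsg.GU n K q := fun u v => g.2 u v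
  have hH : Matrix.SpecialLinearGroup.toGL h.1 ∈ Cfsg.GU n K q := fun u v => h.2 u v
  obtain ⟨z, hz, hzG⟩ := conj_GU hK (Matrix.SpecialLinearGroup.toGL g.1) (Matrix.SpecialLinearGroup.toGL h.1) x hG hH
    (by rw [mul_inv_eq_iff_eq_mul]; exact Units.ext hx)
  have hzg : (z : Matrix (Fin n) (Fin n) K) * g.1.1 = h.1.1 * z := by
    rw [mul_inv_eq_iff_eq_mul] at hzG
    exact congrArg Units.val hzG
  have hzdet := GU_det_norm hK n z hz
  have hz0 : (z : Matrix (Fin n) (Fin n) K).det ≠ 0 := by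
    intro h0
    rw [h0, zero_pow (by omega)] at hzdet
    exact zero_ne_one hzdet
  obtain ⟨c, hc1, hc2, hc3⟩ := exists_centralizer_det hK hn (g.1.1 : Matrix (Fin n) (Fin n) K)
    ((mem_GU_iff_dag hK _).1 hG) (orderOf g) (SemiConj.cast_ne_zero_of_coprime p hg hp1) (hpow g)
    ((z : Matrix (Fin n) (Fin n) K).det)⁻¹ (by rw [inv_pow, hzdet, inv_one])
  have hdet : ((z : Matrix (Fin n) (Fin n) K) * c).det = 1 := by
    rw [det_mul, hc3, mul_inv_cancel₀ hz0]
  have hYGU : Matrix.SpecialLinearGroup.toGL (⟨(z : Matrix (Fin n) (Fin n) K) * c, hdet⟩ :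
      Matrix.SpecialLinearGroup (Fin n) K) ∈ Cfsg.GU n K q := by
    rw [mem_GU_iff_dag hK]
    show dag hK ((z : Matrix (Fin n) (Fin n) K) * c) * ((z : Matrix (Fin n) (Fin n) K) * c) = 1
    rw [dag_mul]
    calc dag hK c * dag hK (z : Matrix (Fin n) (Fin n) K) * ((z : Matrix (Fin n) (Fin n) K) * c)
        = dag hK c * (dag hK (z : Matrix (Fin n) (Fin n) K) * z) * c := by simp only [mul_assoc]
      _ = 1 := by rw [(mem_GU_iff_dag hK z).1 hz, mul_one, hc1]
  rw [isConj_iff]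
  refine ⟨⟨⟨(z : Matrix (Fin n) (Fin n) K) * c, hdet⟩, fun u v => hYGU u v⟩, ?_⟩
  rw [mul_inv_eq_iff_eq_mul]
  apply Subtype.ext
  apply Subtype.ext
  show (z : Matrix (Fin n) (Fin n) K) * c * g.1.1 = h.1.1 * ((z : Matrix (Fin n) (Fin n) K) * c)
  rw [mul_assoc, hc2, ← mul_assoc, hzg, mul_assoc]

end Cfsg.Agent.Lib.Helper50.SUDet
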