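import Cfsg.Prelude.Def_LieTypeDatum
import Cfsg.Agent.Lib.Helper17.UnitTransv2

set_option autoImplicit false
set_option linter.unusedSectionVars false

/-! Basic automorphisms of `PSU_n`: conjugation by `GU_n` and field automorphisms. -/

namespace Cfsg.Agent.Lib.Helper50.AutPSU

open Matrix MatrixGroups Cfsg.Agent.Lib.Helper17

variable {K : Type*} [Field K] {q n : ℕ}

/-- the projection `SU → PSU` -/
abbrev pm (x : ↥(Cfsg.SU n K q)) : Cfsg.PSU n K q := QuotientGroup.mk x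

theorem pm_mul (x y : ↥(Cfsg.SU n K q)) : pm (x * y) = pm x * pm y := rfl
theorem pm_inv (x : ↥(Cfsg.SU n K q)) : pm x⁻¹ = (pm x)⁻¹ := rfl
theorem pm_one : pm (1 : ↥(Cfsg.SU n K q)) = 1 := rfl

theorem pm_surjective : Function.Surjective (pm : ↥(Cfsg.SU n K q) → _) :=
  QuotientGroup.mk_surjective

/-- an automorphism of `SU` induces one of `PSU` -/
noncomputable def autQ (e : ↥(Cfsg.SU n K q) ≃* ↥(Cfsg.SU n K q)) : Cfsg.PSU n K q ≃* Cfsg.PSU n K q :=
  QuotientGroup.congr _ _ e (Subgroup.characteristic_iff_map_eq.1 inferInstance e)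

@[simp] theorem autQ_pm (e : ↥(Cfsg.SU n K q) ≃* ↥(Cfsg.SU n K q)) (x : ↥(Cfsg.SU n K q)) :
    autQ e (pm x) = pm (e x) := rfl

noncomputable def autQHom : MulAut ↥(Cfsg.SU n K q) →* MulAut (Cfsg.PSU n K q) where
  toFun := autQ
  map_one' := by
    ext x
    obtain ⟨x, rfl⟩ := pm_surjective x
    rfl
  map_mul' a b := by
    ext x
    obtain ⟨x, rfl⟩ := pm_surjective x
    rfl

/-- the matrix of an element of `GU` -/
abbrev guMat (g : ↥(Cfsg.GU n K q)) : Matrix (Fin n) (Fin n) K := g.1.1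

theorem guMat_mul (g h : ↥(Cfsg.GU n K q)) : guMat (g * h) = guMat g * guMat h := rfl
theorem guMat_one : guMat (1 : ↥(Cfsg.GU n K q)) = 1 := rfl
theorem guMat_mul_inv (g : ↥(Cfsg.GU n K q)) : guMat g * guMat g⁻¹ = 1 := by
  rw [← guMat_mul, mul_inv_cancel, guMat_one]
theorem guMat_inv_mul (g : ↥(Cfsg.GU n K q)) : guMat g⁻¹ * guMat g = 1 := by
  rw [← guMat_mul, inv_mul_cancel, guMat_one]
theorem guMat_injective {g h : ↥(Cfsg.GU n K q)} (e : guMat g = guMat h) : g = h :=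
  Subtype.ext (Units.ext e)

/-- `SU → GU` -/
def suToGU : ↥(Cfsg.SU n K q) →* ↥(Cfsg.GU n K q) where
  toFun x := ⟨Matrix.SpecialLinearGroup.toGL x.1, fun u v => x.2 u v⟩
  map_one' := by
    apply guMat_injective
    rfl
  map_mul' x y := by
    apply guMat_injective
    rfl

theorem guMat_suToGU (x : ↥(Cfsg.SU n K q)) : guMat (suToGU x) = suMat x := rfl

/-- an element of `GU` of determinant one -/
def guToSU (g : ↥(Cfsg.GU n K q)) (h : (guMat g).det = 1) : ↥(Cfsg.SU n K q) :=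
  ⟨⟨guMat g, h⟩, fun u v => g.2 u v⟩

theorem suMat_guToSU (g : ↥(Cfsg.GU n K q)) (h : (guMat g).det = 1) : suMat (guToSU g h) = guMat g := rfl

theorem det_conj (g : ↥(Cfsg.GU n K q)) (x : ↥(Cfsg.SU n K q)) :
    (guMat (g * suToGU x * g⁻¹)).det = 1 := by
  rw [guMat_mul, guMat_mul, det_mul, det_mul, guMat_suToGU, x.1.2, mul_one, ← det_mul, guMat_mul_inv, det_one]

/-- conjugation by an element of `GU` on `SU` -/
def conjS (g : ↥(Cfsg.GU n K q)) : ↥(Cfsg.SU n K q) ≃* ↥(Cfsg.SU n K q) where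
  toFun x := guToSU (g * suToGU x * g⁻¹) (det_conj g x)
  invFun x := guToSU (g⁻¹ * suToGU x * g⁻¹⁻¹) (det_conj g⁻¹ x)
  left_inv x := by
    apply suMat_injective
    show guMat g⁻¹ * (guMat g * suMat x * guMat g⁻¹) * guMat g⁻¹⁻¹ = suMat x
    rw [inv_inv, Matrix.mul_assoc, Matrix.mul_assoc, guMat_inv_mul, Matrix.mul_one, ← Matrix.mul_assoc,
      guMat_inv_mul, Matrix.one_mul]
  right_inv x := by
    apply suMat_injective
    show guMat g * (guMat g⁻¹ * suMat x * guMat g⁻¹⁻¹) * guMat g⁻¹ = suMat x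
    rw [inv_inv, Matrix.mul_assoc, Matrix.mul_assoc, guMat_mul_inv, Matrix.mul_one, ← Matrix.mul_assoc,
      guMat_mul_inv, Matrix.one_mul]
  map_mul' x y := by
    apply suMat_injective
    show guMat g * (suMat x * suMat y) * guMat g⁻¹ =
      (guMat g * suMat x * guMat g⁻¹) * (guMat g * suMat y * guMat g⁻¹)
    have : guMat g⁻¹ * (guMat g * suMat y * guMat g⁻¹) = suMat y * guMat g⁻¹ := by
      rw [← Matrix.mul_assoc, ← Matrix.mul_assoc, guMat_inv_mul, Matrix.one_mul]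
    rw [Matrix.mul_assoc (guMat g * suMat x), this]
    simp only [Matrix.mul_assoc]

theorem conjS_val (g : ↥(Cfsg.GU n K q)) (x : ↥(Cfsg.SU n K q)) :
    suMat (conjS g x) = guMat g * suMat x * guMat g⁻¹ := rfl

theorem conjS_mul (g : ↥(Cfsg.GU n K q)) (x : ↥(Cfsg.SU n K q)) :
    suMat (conjS g x) * guMat g = guMat g * suMat x := by
  rw [conjS_val, Matrix.mul_assoc, guMat_inv_mul, Matrix.mul_one]

theorem conjS_eq_of_mul {g : ↥(Cfsg.GU n K q)} {x y : ↥(Cfsg.SU n K q)}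
    (h : suMat y * guMat g = guMat g * suMat x) : conjS g x = y := by
  apply suMat_injective
  rw [conjS_val, ← h, Matrix.mul_assoc, guMat_mul_inv, Matrix.mul_one]

def conjSHom : ↥(Cfsg.GU n K q) →* MulAut ↥(Cfsg.SU n K q) where
  toFun := conjS
  map_one' := by
    ext x : 1
    apply conjS_eq_of_mul
    show suMat x * 1 = 1 * suMat x
    rw [Matrix.mul_one, Matrix.one_mul]
  map_mul' a b := by
    ext x : 1
    apply conjS_eq_of_mul
    show suMat (conjS a (conjS b x)) * (guMat a * guMat b) = (guMat a * guMat b) * suMat x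
    rw [← Matrix.mul_assoc, conjS_mul, Matrix.mul_assoc, conjS_mul, Matrix.mul_assoc]

/-- conjugation by `GU` on `PSU` -/
noncomputable def cG : ↥(Cfsg.GU n K q) →* MulAut (Cfsg.PSU n K q) :=
  autQHom.comp conjSHom

theorem cG_pm (g : ↥(Cfsg.GU n K q)) (x : ↥(Cfsg.SU n K q)) : cG g (pm x) = pm (conjS g x) := rfl

theorem conjS_suToGU (y x : ↥(Cfsg.SU n K q)) : conjS (suToGU y) x = y * x * y⁻¹ := by
  apply conjS_eq_of_mul
  show suMat (y * x * y⁻¹ * y) = suMat (y * x)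
  simp

theorem cG_suToGU (y : ↥(Cfsg.SU n K q)) : cG (suToGU y) = MulAut.conj (pm y) := by
  ext x
  obtain ⟨x, rfl⟩ := pm_surjective x
  rw [cG_pm, conjS_suToGU]
  rfl

/-! ### field automorphisms -/

theorem hermForm_map (σ : K ≃+* K) (u v : Fin n → K) :
    Cfsg.hermForm n K q (fun i => σ (u i)) (fun i => σ (v i)) = σ (Cfsg.hermForm n K q u v) := by
  simp only [Cfsg.hermForm, map_sum, map_mul, map_pow]

theorem map_mulVec (σ : K ≃+* K) (A : Matrix (Fin n) (Fin n) K) (u : Fin n → K) :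
    A.map σ *ᵥ (fun i => σ (u i)) = fun i => σ ((A *ᵥ u) i) := by
  funext i
  simp only [Matrix.mulVec, dotProduct, Matrix.map_apply, map_sum, map_mul]

theorem map_preserves (σ : K ≃+* K) (A : Matrix (Fin n) (Fin n) K)
    (hA : ∀ u v, Cfsg.hermForm n K q (A *ᵥ u) (A *ᵥ v) = Cfsg.hermForm n K q u v) (u v : Fin n → K) :
    Cfsg.hermForm n K q (A.map σ *ᵥ u) (A.map σ *ᵥ v) = Cfsg.hermForm n K q u v := by
  obtain ⟨u', rfl⟩ : ∃ u' : Fin n → K, u = fun i => σ (u' i) :=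
    ⟨fun i => σ.symm (u i), by funext i; simp⟩
  obtain ⟨v', rfl⟩ : ∃ v' : Fin n → K, v = fun i => σ (v' i) :=
    ⟨fun i => σ.symm (v i), by funext i; simp⟩
  rw [map_mulVec, map_mulVec, hermForm_map, hA, hermForm_map]

/-- a ring automorphism acting on `SU` -/
def fldS (σ : K ≃+* K) : ↥(Cfsg.SU n K q) ≃* ↥(Cfsg.SU n K q) where
  toFun x := ⟨SpecialLinearGroup.map (σ : K →+* K) x.1, fun u v => map_preserves σ (suMat x) x.2 u v⟩
  invFun x := ⟨SpecialLinearGroup.map (σ.symm : K →+* K) x.1, fun u v => map_preserves σ.symm (suMat x) x.2 u v⟩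
  left_inv A := by
    apply suMat_injective
    ext i j
    show σ.symm (σ (suMat A i j)) = suMat A i j
    simp
  right_inv A := by
    apply suMat_injective
    ext i j
    show σ (σ.symm (suMat A i j)) = suMat A i j
    simp
  map_mul' A B := by
    apply Subtype.ext
    exact map_mul _ A.1 B.1

theorem fldS_apply (σ : K ≃+* K) (x : ↥(Cfsg.SU n K q)) (i j : Fin n) :
    suMat (fldS σ x) i j = σ (suMat x i j) := rfl

theorem fldS_val (σ : K ≃+* K) (x : ↥(Cfsg.SU n K q)) : suMat (fldS σ x) = (suMat x).map σ := rfl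

/-- field automorphisms of `PSU` -/
noncomputable def fl : (K ≃+* K) →* MulAut (Cfsg.PSU n K q) where
  toFun σ := autQ (fldS σ)
  map_one' := by
    ext x
    obtain ⟨x, rfl⟩ := pm_surjective x
    rfl
  map_mul' σ τ := by
    ext x
    obtain ⟨x, rfl⟩ := pm_surjective x
    rfl

theorem fl_pm (σ : K ≃+* K) (x : ↥(Cfsg.SU n K q)) : fl σ (pm x) = pm (fldS σ x) := rfl

/-- a ring automorphism acting on `GU` -/
def fldG (σ : K ≃+* K) (g : ↥(Cfsg.GU n K q)) : ↥(Cfsg.GU n K q) :=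
  ⟨GeneralLinearGroup.map (σ : K →+* K) g.1, fun u v => map_preserves σ (guMat g) g.2 u v⟩

theorem guMat_fldG (σ : K ≃+* K) (g : ↥(Cfsg.GU n K q)) : guMat (fldG σ g) = (guMat g).map σ := rfl

theorem fl_mul_cG (σ : K ≃+* K) (g : ↥(Cfsg.GU n K q)) : fl σ * cG g = cG (fldG σ g) * fl σ := by
  ext x
  obtain ⟨x, rfl⟩ := pm_surjective x
  rw [MulAut.mul_apply, MulAut.mul_apply, cG_pm, fl_pm, fl_pm, cG_pm]
  congr 1
  symm
  apply conjS_eq_of_mul
  rw [fldS_val, fldS_val, guMat_fldG, ← Matrix.map_mul, ← Matrix.map_mul, conjS_mul]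

/-! ### the predicates of the statements -/

theorem isInnerDiagonal_cG (g : ↥(Cfsg.GU n K q)) : Cfsg.IsInnerDiagonalAutPSU (cG g) := by
  refine ⟨g.1, g.2, fun s s' h => ?_⟩
  show pm (conjS g s) = pm s'
  congr 1
  exact suMat_injective h.symm

theorem eq_cG_of_isInnerDiagonal {δ : MulAut (Cfsg.PSU n K q)} (h : Cfsg.IsInnerDiagonalAutPSU δ) :
    ∃ g : ↥(Cfsg.GU n K q), δ = cG g := by
  obtain ⟨g, hgU, hg⟩ := h
  refine ⟨⟨g, hgU⟩, ?_⟩
  ext x
  obtain ⟨x, rfl⟩ := pm_surjective x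
  exact hg x (conjS ⟨g, hgU⟩ x) rfl

theorem isFieldAut_fl (σ : K ≃+* K) : Cfsg.IsFieldAutPSUOf σ (fl σ : MulAut (Cfsg.PSU n K q)) := by
  intro s s' h
  show pm (fldS σ s) = pm s'
  congr 1
  exact suMat_injective h.symm

theorem eq_fl_of_isFieldAut {σ : K ≃+* K} {φ : MulAut (Cfsg.PSU n K q)} (h : Cfsg.IsFieldAutPSUOf σ φ) :
    φ = fl σ := by
  ext x
  obtain ⟨x, rfl⟩ := pm_surjective x
  exact h x (fldS σ x) rfl

theorem isSemilinear (g : ↥(Cfsg.GU n K q)) (σ : K ≃+* K) :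
    Cfsg.IsInducedBySemilinearPSU g.1 σ (cG g * fl σ) := by
  intro s s' h
  show pm (conjS g (fldS σ s)) = pm s'
  congr 1
  exact suMat_injective h.symm

theorem inndiag_eq : Cfsg.inndiagPSU n K q = (cG : ↥(Cfsg.GU n K q) →* _).range := by
  apply le_antisymm
  · rw [Cfsg.inndiagPSU, Cfsg.autSubgroupOf, Subgroup.closure_le]
    intro β hβ
    obtain ⟨g, rfl⟩ := eq_cG_of_isInnerDiagonal hβ
    exact ⟨g, rfl⟩
  · rintro _ ⟨g, rfl⟩
    exact Subgroup.subset_closure (isInnerDiagonal_cG g)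

end Cfsg.Agent.Lib.Helper50.AutPSU
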