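import Cfsg.Agent.Lib.Helper50.GUConj

set_option autoImplicit false
open Matrix

namespace Cfsg.Agent.Lib.Helper50.GUConj

open Cfsg.Agent.Lib.Helper50 Cfsg.Agent.Lib.Helper50.Herm

variable {K : Type*} [Field K] [Fintype K] {q n : ℕ}

/-- the sesquilinear form with Gram matrix `H` -/
noncomputable def sesq (hK : Fintype.card K = q ^ 2) (H : Matrix (Fin n) (Fin n) K) :
    (Fin n → K) →ₛₗ[frobQ hK] (Fin n → K) →ₗ[K] K :=
  Matrix.toLinearMapₛₗ₂' K (frobQ hK) (RingHom.id K) H

theorem sesq_apply (hK : Fintype.card K = q ^ 2) (H : Matrix (Fin n) (Fin n) K) (x y : Fin n → K) :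
    sesq hK H x y = ∑ i, ∑ j, (x i) ^ q * H i j * y j := by
  rw [sesq, Matrix.toLinearMapₛₗ₂'_apply]
  apply Finset.sum_congr rfl
  intro i _
  apply Finset.sum_congr rfl
  intro j _
  simp only [frobQ_apply, RingHom.id_apply, smul_eq_mul]
  ring

/-- every invertible hermitian matrix is congruent to the identity -/
theorem exists_dag_mul (hK : Fintype.card K = q ^ 2) (H : Matrix (Fin n) (Fin n) K) (hH : dag hK H = H)
    (hu : IsUnit H) : ∃ Z : Matrix (Fin n) (Fin n) K, IsUnit Z ∧ dag hK Z * H * Z = 1 := by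
  have h2 := two_le_q hK
  obtain ⟨θ, hθ⟩ := exists_theta hK
  have hσ : frobQ hK ≠ RingHom.id K := by
    intro h
    apply hθ
    have := congrArg (fun f : K →+* K => f θ) h
    simpa [frobQ_apply] using this
  have hsymm : (sesq hK H).IsSymm := by
    rw [LinearMap.isSymm_def]
    intro x y
    rw [sesq_apply, sesq_apply, frobQ_apply, sum_pow_q hK, Finset.sum_comm]
    apply Finset.sum_congr rfl
    intro j _
    rw [sum_pow_q hK]
    apply Finset.sum_congr rfl
    intro i _
    have : H i j = (H j i) ^ q := by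
      conv_lhs => rw [← hH]
      rfl
    rw [this, mul_pow, mul_pow, pow_q_sq hK]
    ring
  obtain ⟨H', hH1, hH2⟩ : ∃ H' : Matrix (Fin n) (Fin n) K, H * H' = 1 ∧ H' * H = 1 := by
    obtain ⟨Hu, rfl⟩ := hu
    exact ⟨((Hu⁻¹ : (Matrix (Fin n) (Fin n) K)ˣ) : Matrix (Fin n) (Fin n) K), Hu.mul_inv, Hu.inv_mul⟩
  have hform : ∀ x y : Fin n → K, sesq hK H x y = (fun i => (x i) ^ q) ⬝ᵥ (H *ᵥ y) := by
    intro x y
    rw [sesq_apply]
    simp only [dotProduct, mulVec, Finset.mul_sum, mul_assoc]
  have hnd : (sesq hK H).Nondegenerate := by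
    constructor
    · intro x hx
      have h1 : (fun i => (x i) ^ q) ᵥ* H = 0 := by
        ext j
        have := hx (Pi.single j 1)
        rw [hform, Matrix.dotProduct_mulVec, dotProduct_single, mul_one] at this
        exact this
      have h3 : (fun i => (x i) ^ q) = 0 := by
        have := congrArg (fun v => v ᵥ* H') h1
        simpa [Matrix.vecMul_vecMul, hH1] using this
      ext i
      have := congrFun h3 i
      exact pow_eq_zero_iff (by omega : q ≠ 0) |>.1 this
    · intro y hy
      have h1 : H *ᵥ y = 0 := by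
        ext i
        have := hy (Pi.single i 1)
        rw [hform] at this
        have e : (fun k => ((Pi.single i 1 : Fin n → K) k) ^ q) = Pi.single i 1 := by
          ext k
          by_cases hk : k = i
          · subst hk; simp
          · simp [hk]; omega
        rw [e, single_dotProduct, one_mul] at this
        exact this
      have := congrArg (fun v => H' *ᵥ v) h1
      simpa [Matrix.mulVec_mulVec, hH2] using this
  obtain ⟨b, hb⟩ := Cfsg.Agent.S0755.result (frobQ hK) hσ (fun a => pow_q_sq hK a) (sesq hK H) hsymm hnd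
  have hfr : Module.finrank K (Fin n → K) = n := by simp
  let e : Fin n ≃ Fin (Module.finrank K (Fin n → K)) := finCongr hfr.symm
  let Z : Matrix (Fin n) (Fin n) K := Matrix.of (fun r j => b (e j) r)
  have hZ : dag hK Z * H * Z = 1 := by
    ext i j
    have := hb (e i) (e j)
    rw [sesq_apply] at this
    rw [Matrix.mul_apply, Matrix.one_apply]
    simp only [Matrix.mul_apply, dag_apply, Z, Matrix.of_apply, Finset.sum_mul]
    rw [Finset.sum_comm, this]
    simp only [EmbeddingLike.apply_eq_iff_eq]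
  exact ⟨Z, IsUnit.of_mul_eq_one _ (mul_eq_one_comm.1 hZ), hZ⟩

/-- a matrix with an invariant nondegenerate sesquilinear form is similar to a unitary matrix -/
theorem exists_conj_mem_GU (hK : Fintype.card K = q ^ 2) (A x : Matrix.GeneralLinearGroup (Fin n) K)
    (hx : dag hK (A : Matrix (Fin n) (Fin n) K) * (x : Matrix (Fin n) (Fin n) K) * (A : Matrix (Fin n) (Fin n) K)
      = (x : Matrix (Fin n) (Fin n) K)) :
    ∃ z : Matrix.GeneralLinearGroup (Fin n) K, z * A * z⁻¹ ∈ Cfsg.GU n K q := by
  set Am : Matrix (Fin n) (Fin n) K := (A : Matrix (Fin n) (Fin n) K) with hAm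
  set xm : Matrix (Fin n) (Fin n) K := (x : Matrix (Fin n) (Fin n) K) with hxm
  set xi : Matrix (Fin n) (Fin n) K := ((x⁻¹ : Matrix.GeneralLinearGroup (Fin n) K) : Matrix (Fin n) (Fin n) K)
    with hxi
  have x1 : xm * xi = 1 := x.mul_inv
  have x2 : xi * xm = 1 := x.inv_mul
  have d1 : dag hK xi * dag hK xm = 1 := by rw [← dag_mul, x1, dag_one]
  have d2 : dag hK xm * dag hK xi = 1 := by rw [← dag_mul, x2, dag_one]
  have hx' : dag hK Am * dag hK xm * Am = dag hK xm := by
    have := congrArg (dag hK) hx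
    rw [dag_mul, dag_mul, dag_dag, ← mul_assoc] at this
    exact this
  set u := xi * dag hK xm with hu
  set u' := dag hK xi * xm with hu'
  have uu' : u * u' = 1 := by
    rw [hu, hu']
    calc xi * dag hK xm * (dag hK xi * xm) = xi * (dag hK xm * dag hK xi) * xm := by simp only [mul_assoc]
      _ = 1 := by rw [d2, mul_one, x2]
  have u'u : u' * u = 1 := mul_eq_one_comm.1 uu'
  -- `A` commutes with `u`
  have hAu : u * Am = Am * u := by
    have e1 : xm * (u * Am) = xm * (Am * u) := by
      have l : xm * (u * Am) = dag hK xm * Am := by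
        rw [hu, ← mul_assoc, ← mul_assoc, x1, one_mul]
      have r : dag hK Am * (xm * (Am * u)) = dag hK Am * (dag hK xm * Am) := by
        calc dag hK Am * (xm * (Am * u)) = (dag hK Am * xm * Am) * u := by simp only [mul_assoc]
          _ = xm * u := by rw [hx]
          _ = dag hK xm := by rw [hu, ← mul_assoc, x1, one_mul]
          _ = dag hK Am * (dag hK xm * Am) := by rw [← mul_assoc, hx']
      have hdA : IsUnit (dag hK Am) := by
        have : Am * ((A⁻¹ : Matrix.GeneralLinearGroup (Fin n) K) : Matrix (Fin n) (Fin n) K) = 1 := A.mul_inv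
        have h3 := congrArg (dag hK) this
        rw [dag_mul, dag_one] at h3
        exact IsUnit.of_mul_eq_one _ (mul_eq_one_comm.1 h3)
      rw [l]
      exact (hdA.mul_left_cancel r).symm
    exact x.isUnit.mul_left_cancel e1
  have hAu' : u' * Am = Am * u' := by
    calc u' * Am = u' * Am * (u * u') := by rw [uu', mul_one]
      _ = u' * (Am * u) * u' := by simp only [mul_assoc]
      _ = u' * (u * Am) * u' := by rw [hAu]
      _ = (u' * u) * Am * u' := by simp only [mul_assoc]
      _ = Am * u' := by rw [u'u, one_mul]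
  let τ : Matrix (Fin n) (Fin n) K → Matrix (Fin n) (Fin n) K := fun c => xi * dag hK c * xm
  have τadd : ∀ a b, τ (a + b) = τ a + τ b := by
    intro a b
    simp only [τ, dag_add, mul_add, add_mul]
  have τmul : ∀ a b, τ (a * b) = τ b * τ a := by
    intro a b
    simp only [τ, dag_mul]
    calc xi * (dag hK b * dag hK a) * xm = xi * dag hK b * 1 * dag hK a * xm := by
          simp only [mul_assoc, one_mul]
      _ = xi * dag hK b * xm * (xi * dag hK a * xm) := by rw [← x1]; simp only [mul_assoc]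
  have τone : τ 1 = 1 := by simp only [τ, dag_one, mul_one, x2]
  have τu : τ u = u' := by
    simp only [τ, hu, hu', dag_mul, dag_dag]
    rw [← mul_assoc, x2, one_mul]
  have τu' : τ u' = u := by
    simp only [τ, hu, hu', dag_mul, dag_dag]
    rw [mul_assoc, mul_assoc, x2, mul_one]
  have τs : ∀ c : K, τ (Matrix.scalar (Fin n) c) = Matrix.scalar (Fin n) (c ^ q) := by
    intro c
    simp only [τ, dag_scalar]
    rw [mul_assoc, scalar_comm', ← mul_assoc, x2, one_mul]
  obtain ⟨θ, hθ⟩ := exists_theta hK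
  have hS : ∀ a ∈ withScalars ({u, u'} : Set (Matrix (Fin n) (Fin n) K)), ∀ b ∈ withScalars {u, u'},
      a * b = b * a := by
    apply withScalars_comm
    rintro a (rfl | rfl) b (rfl | rfl)
    · rfl
    · rw [uu', u'u]
    · rw [uu', u'u]
    · rfl
  have hτS : ∀ a ∈ withScalars ({u, u'} : Set (Matrix (Fin n) (Fin n) K)), τ a ∈ withScalars {u, u'} := by
    rintro a ((rfl | rfl) | ⟨c, rfl⟩)
    · rw [τu]; exact Or.inl (Or.inr rfl)
    · rw [τu']; exact Or.inl (Or.inl rfl)
    · rw [τs]; exact Or.inr ⟨_, rfl⟩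
  have hττ : ∀ a ∈ withScalars ({u, u'} : Set (Matrix (Fin n) (Fin n) K)), τ (τ a) = a := by
    rintro a ((rfl | rfl) | ⟨c, rfl⟩)
    · rw [τu, τu']
    · rw [τu', τu]
    · rw [τs, τs, pow_q_sq hK]
  obtain ⟨c, hcS, hcu, hc⟩ := InvRing.closure_h90 τ τadd τmul τone (withScalars {u, u'}) hS hτS hττ
    (Matrix.scalar (Fin n) θ) (Subring.subset_closure (Or.inr ⟨θ, rfl⟩))
    (by rw [τs]; exact isUnit_theta hK hθ) u (Subring.subset_closure (Or.inl (Or.inl rfl)))
    (by rw [τu, uu'])
  have hcA : c * Am = Am * c := by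
    apply InvRing.closure_commute _ _ hcS
    rintro a ((rfl | rfl) | ⟨d, rfl⟩)
    · exact hAu
    · exact hAu'
    · exact scalar_comm' d Am
  have hc' : c = τ c * u := by
    refine hc.trans ?_
    exact InvRing.closure_comm _ hS (Subring.subset_closure (Or.inl (Or.inl rfl)))
      (InvRing.tau_mem τ τadd τmul τone _ hτS hcS)
  set H := xm * c with hH
  have hHd : dag hK H = H := by
    rw [hH, dag_mul]
    conv_rhs => rw [hc']
    simp only [τ, hu]
    calc dag hK c * dag hK xm = (xm * xi) * dag hK c * (xm * xi) * dag hK xm := by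
          rw [x1, one_mul, mul_one]
      _ = xm * (xi * dag hK c * xm * (xi * dag hK xm)) := by simp only [mul_assoc]
  have hHu : IsUnit H := x.isUnit.mul hcu
  have hHA : dag hK Am * H * Am = H := by
    rw [hH]
    calc dag hK Am * (xm * c) * Am = dag hK Am * xm * (c * Am) := by simp only [mul_assoc]
      _ = (dag hK Am * xm * Am) * c := by rw [hcA]; simp only [mul_assoc]
      _ = xm * c := by rw [hx]
  obtain ⟨Z, hZu, hZ⟩ := exists_dag_mul hK H hHd hHu
  obtain ⟨ZG, rfl⟩ := hZu
  refine ⟨ZG⁻¹, ?_⟩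
  rw [mem_GU_iff_dag hK, inv_inv]
  set Zm : Matrix (Fin n) (Fin n) K := (ZG : Matrix (Fin n) (Fin n) K) with hZm
  set Zi : Matrix (Fin n) (Fin n) K := ((ZG⁻¹ : Matrix.GeneralLinearGroup (Fin n) K) : Matrix (Fin n) (Fin n) K)
    with hZi
  have z1 : Zm * Zi = 1 := ZG.mul_inv
  have z2 : Zi * Zm = 1 := ZG.inv_mul
  have hHZ : H = dag hK Zi * Zi := by
    calc H = (dag hK Zi * dag hK Zm) * H * (Zm * Zi) := by rw [← dag_mul, z1, dag_one, one_mul, mul_one]
      _ = dag hK Zi * (dag hK Zm * H * Zm) * Zi := by simp only [mul_assoc]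
      _ = dag hK Zi * Zi := by rw [hZ, mul_one]
  rw [Units.val_mul, Units.val_mul, ← hZm, ← hZi, ← hAm, dag_mul, dag_mul]
  calc dag hK Zm * (dag hK Am * dag hK Zi) * (Zi * Am * Zm)
      = dag hK Zm * (dag hK Am * (dag hK Zi * Zi) * Am) * Zm := by simp only [mul_assoc]
    _ = 1 := by rw [← hHZ, hHA, hZ]

end Cfsg.Agent.Lib.Helper50.GUConj
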