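import Cfsg.Agent.Lib.Helper50.SemiConj

set_option autoImplicit false

/-! Semisimple classes of `GL_n(q)`: existence of `p'`-elements with given characteristic polynomial. -/

namespace Cfsg.Agent.Lib.Helper50.SemiConj

open Polynomial Module

variable {F : Type*} [Field F]

/-- every monic polynomial is a characteristic polynomial -/
theorem exists_charpoly {n : ℕ} (f : F[X]) (hf : f.Monic) (hn : f.natDegree = n) :
    ∃ M : Matrix (Fin n) (Fin n) F, M.charpoly = f := by
  let pb := AdjoinRoot.powerBasis hf.ne_zero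
  have h1 := charpoly_leftMulMatrix pb
  rw [AdjoinRoot.minpoly_powerBasis_gen_of_monic hf] at h1
  have hdim : pb.dim = n := hn
  refine ⟨Matrix.reindex (finCongr hdim) (finCongr hdim) (Algebra.leftMulMatrix pb.basis pb.gen), ?_⟩
  rw [Matrix.charpoly_reindex, h1]

theorem charpoly_pow_card_pow [Fintype F] {n : Type*} [Fintype n] [DecidableEq n] (M : Matrix n n F) (j : ℕ) :
    (M ^ (Fintype.card F ^ j)).charpoly = M.charpoly := by
  induction j with
  | zero => simp
  | succ j ih => rw [pow_succ, pow_mul, FiniteField.Matrix.charpoly_pow_card, ih]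

/-- a power of `x` of order prime to `p` -/
theorem exists_pow_coprime {G : Type*} [Group G] [Finite G] (p : ℕ) [hp : Fact p.Prime] (k : ℕ) (hk : 1 ≤ k)
    (x : G) : ∃ j : ℕ, (orderOf (x ^ ((p ^ k) ^ j))).Coprime p := by
  obtain ⟨a, e, he, ho⟩ := Nat.exists_eq_pow_mul_and_not_dvd (orderOf_pos x).ne' p hp.out.ne_one
  refine ⟨a, ?_⟩
  have h1 : (p ^ k) ^ a = p ^ a * p ^ (k * a - a) := by
    rw [← pow_mul, ← pow_add]
    congr 1
    have : a ≤ k * a := Nat.le_mul_of_pos_left a hk
    omega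
  have hep : e.Coprime p := ((Nat.Prime.coprime_iff_not_dvd hp.out).2 he).symm
  have h2 : orderOf (x ^ (p ^ a)) = e := by
    rw [orderOf_pow_of_dvd (pow_ne_zero _ hp.out.ne_zero) (ho ▸ Dvd.intro _ rfl), ho,
      Nat.mul_div_cancel_left _ (pow_pos hp.out.pos _)]
  have h3 : (orderOf (x ^ (p ^ a))).Coprime (p ^ (k * a - a)) := by
    rw [h2]
    exact Nat.Coprime.pow_right _ hep
  rw [h1, pow_mul, h3.orderOf_pow, h2]
  exact hep

theorem cast_ne_zero_of_coprime (p : ℕ) [CharP F p] {e : ℕ} (he : e.Coprime p) (hp : p ≠ 1) : (e : F) ≠ 0 := by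
  intro h
  rw [CharP.cast_eq_zero_iff F p e] at h
  have : p ∣ Nat.gcd e p := Nat.dvd_gcd h dvd_rfl
  rw [he] at this
  exact hp (Nat.dvd_one.1 this)

/-- `p'`-elements of `GL_n` with the same characteristic polynomial are conjugate -/
theorem conj_GL (p : ℕ) [hp : Fact p.Prime] [CharP F p] {n : Type} [Fintype n] [DecidableEq n]
    (g h : Matrix.GeneralLinearGroup n F) (hg : (orderOf g).Coprime p) (hh : (orderOf h).Coprime p)
    (hc : (g : Matrix n n F).charpoly = (h : Matrix n n F).charpoly) : ∃ x, x * g * x⁻¹ = h := by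
  obtain ⟨x, hx⟩ := exists_conj_of_pow (g : Matrix n n F) (h : Matrix n n F) (orderOf g) (orderOf h)
    (cast_ne_zero_of_coprime p hg hp.out.ne_one) (cast_ne_zero_of_coprime p hh hp.out.ne_one)
    (by rw [← Units.val_pow_eq_pow_val, pow_orderOf_eq_one, Units.val_one])
    (by rw [← Units.val_pow_eq_pow_val, pow_orderOf_eq_one, Units.val_one]) hc
  refine ⟨x, ?_⟩
  rw [mul_inv_eq_iff_eq_mul]
  exact Units.ext hx

/-- existence of `p'`-elements with given characteristic polynomial -/
theorem exists_GL_coprime [Fintype F] (p : ℕ) [hp : Fact p.Prime] [CharP F p] {n : ℕ} (f : F[X]) (hf : f.Monic)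
    (hn : f.natDegree = n) (h0 : f.coeff 0 ≠ 0) :
    ∃ g : Matrix.GeneralLinearGroup (Fin n) F, (orderOf g).Coprime p ∧
      (g : Matrix (Fin n) (Fin n) F).charpoly = f := by
  obtain ⟨M, hM⟩ := exists_charpoly f hf hn
  have hdet : M.det ≠ 0 := by
    rw [Matrix.det_eq_sign_charpoly_coeff, hM]
    exact mul_ne_zero (pow_ne_zero _ (neg_ne_zero.2 one_ne_zero)) h0
  obtain ⟨k, -, hk⟩ := FiniteField.card F p
  obtain ⟨j, hj⟩ := exists_pow_coprime p k k.pos (Matrix.GeneralLinearGroup.mkOfDetNeZero M hdet)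
  refine ⟨_, hj, ?_⟩
  rw [Units.val_pow_eq_pow_val, ← hk]
  exact (charpoly_pow_card_pow M j).trans hM

/-- counting monic polynomials with a condition on the constant coefficient -/
theorem card_monic [Fintype F] (n : ℕ) (S : F → Prop) :
    Nat.card {f : F[X] // f.Monic ∧ f.natDegree = n + 1 ∧ S (f.coeff 0)} =
      Nat.card {a : F // S a} * Fintype.card F ^ n := by
  let e : {f : F[X] // f.Monic ∧ f.natDegree = n + 1} ≃ (Fin (n + 1) → F) :=
    (monicEquivDegreeLT (n + 1)).trans (degreeLTEquiv F (n + 1)).toEquiv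
  have he : ∀ f, e f 0 = f.1.coeff 0 := by
    intro f
    show f.1.eraseLead.coeff 0 = f.1.coeff 0
    rw [eraseLead_coeff_of_ne]
    rw [f.2.2]; omega
  have e1 : {f : F[X] // f.Monic ∧ f.natDegree = n + 1 ∧ S (f.coeff 0)} ≃
      {x : {f : F[X] // f.Monic ∧ f.natDegree = n + 1} // S (x.1.coeff 0)} :=
    { toFun := fun f => ⟨⟨f.1, f.2.1, f.2.2.1⟩, f.2.2.2⟩
      invFun := fun x => ⟨x.1.1, x.1.2.1, x.1.2.2, x.2⟩
      left_inv := fun f => rfl
      right_inv := fun x => rfl }
  have e2 : {x : {f : F[X] // f.Monic ∧ f.natDegree = n + 1} // S (x.1.coeff 0)} ≃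
      {v : Fin (n + 1) → F // S (v 0)} :=
    Equiv.subtypeEquiv e (fun f => by rw [he])
  have e3 : {v : Fin (n + 1) → F // S (v 0)} ≃ {a : F // S a} × (Fin n → F) :=
    { toFun := fun v => (⟨v.1 0, v.2⟩, Fin.tail v.1)
      invFun := fun x => ⟨Fin.cons x.1.1 x.2, by simpa using x.1.2⟩
      left_inv := fun v => by ext; simp
      right_inv := fun x => by
        obtain ⟨⟨a, ha⟩, w⟩ := x
        simp }
  rw [Nat.card_congr ((e1.trans e2).trans e3), Nat.card_prod, Nat.card_fun, Nat.card_eq_fintype_card (α := F)]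
  simp

end Cfsg.Agent.Lib.Helper50.SemiConj
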