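import Cfsg.Agent.Lib.Helper50.InvReduce
import Cfsg.Agent.Lib.Helper99.SympIndex
import Cfsg.Agent.Lib.Helper99.AltDerange

set_option autoImplicit false

/-! Semisimple elements of `Sp_2m(F)` conjugate in `GL` are conjugate in `Sp`. -/

namespace Cfsg.Agent.Lib.Helper50.SpConj

open Cfsg.Agent.Lib.Helper50 Cfsg.Agent.Lib.Helper99 Matrix Module

variable {F : Type*} [Field F]

/-- two nondegenerate alternating forms on the same space are isometric -/
theorem exists_isometry {V : Type*} [AddCommGroup V] [Module F V] [FiniteDimensional F V]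
    {B B' : LinearMap.BilinForm F V} (hB : B.IsAlt) (hB' : B'.IsAlt) (h : NondegOn B ⊤)
    (h' : NondegOn B' ⊤) : ∃ φ : V ≃ₗ[F] V, ∀ u v, B (φ u) (φ v) = B' u v := by
  obtain ⟨m, hm⟩ := even_finrank_of_nondegOn hB h
  rw [finrank_top] at hm
  have hm' : finrank F V = 2 * m := by omega
  obtain ⟨Φ, hΦ⟩ := exists_symplectic_coords hB h hm'
  obtain ⟨Φ', hΦ'⟩ := exists_symplectic_coords hB' h' hm'
  refine ⟨Φ'.symm.trans Φ, fun u v => ?_⟩
  rw [LinearEquiv.trans_apply, LinearEquiv.trans_apply, hΦ, ← hΦ', LinearEquiv.apply_symm_apply,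
    LinearEquiv.apply_symm_apply]

variable {n : Type*} [Fintype n] [DecidableEq n]

theorem ext_mulVec {M N : Matrix n n F} (h : ∀ x, M *ᵥ x = N *ᵥ x) : M = N :=
  Matrix.toLin'.injective (LinearMap.ext fun x => by simpa [Matrix.toLin'_apply] using h x)

theorem ext_bilin {M N : Matrix n n F} (h : ∀ x y, x ⬝ᵥ M *ᵥ y = x ⬝ᵥ N *ᵥ y) : M = N :=
  ext_mulVec fun y => dotProduct_eq _ _ fun u => by
    rw [dotProduct_comm, h, dotProduct_comm]

theorem nondeg_aux (H e : Matrix n n F) (hH : IsUnit H) (hHe : eᵀ * H = H * e) (v : n → F)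
    (hv : e *ᵥ v = v) (hv0 : v ≠ 0) : ∃ x, v ⬝ᵥ H *ᵥ (e *ᵥ x) ≠ 0 := by
  by_contra hcon
  push Not at hcon
  apply hv0
  have h1 : ∀ x, v ⬝ᵥ H *ᵥ x = 0 := by
    intro x
    have := hcon x
    rwa [mulVec_mulVec, ← hHe, ← mulVec_mulVec, dotProduct_mulVec, vecMul_transpose, hv] at this
  have h2 : v ᵥ* H = 0 := dotProduct_eq_zero _ fun w => by rw [← dotProduct_mulVec, h1]
  obtain ⟨u, rfl⟩ := hH
  have h3 : v ᵥ* ((u : Matrix n n F) * (↑u⁻¹ : Matrix n n F)) = 0 := by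
    rw [← vecMul_vecMul, h2, zero_vecMul]
  rwa [Units.mul_inv, vecMul_one] at h3

/-- on the image of a self-adjoint idempotent commuting with `a` the alternating forms `G` and `G a` are
isometric -/
theorem lemmaE (G e a : Matrix n n F) (hG : IsUnit G) (halt : ∀ v, v ⬝ᵥ G *ᵥ v = 0)
    (halt' : ∀ v, v ⬝ᵥ (G * a) *ᵥ v = 0) (hee : e * e = e) (heG : eᵀ * G = G * e)
    (hae : a * e = e * a) (ha : IsUnit a) :
    ∃ c, e * c = c ∧ c * e = c ∧ cᵀ * G * c = G * (e * a) := by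
  set W := LinearMap.range (Matrix.mulVecLin e) with hW
  have hfix : ∀ w : W, e *ᵥ (w : n → F) = w := by
    rintro ⟨_, x, rfl⟩
    show e *ᵥ (e *ᵥ x) = e *ᵥ x
    rw [mulVec_mulVec, hee]
  set B : LinearMap.BilinForm F W := (Matrix.toBilin' G).restrict W with hB
  set B' : LinearMap.BilinForm F W := (Matrix.toBilin' (G * a)).restrict W with hB'
  have hBa : ∀ u v : W, B u v = (u : n → F) ⬝ᵥ G *ᵥ (v : n → F) := fun u v => by
    rw [hB, LinearMap.BilinForm.restrict, LinearMap.domRestrict₁₂_apply, Matrix.toBilin'_apply']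
  have hBa' : ∀ u v : W, B' u v = (u : n → F) ⬝ᵥ (G * a) *ᵥ (v : n → F) := fun u v => by
    rw [hB', LinearMap.BilinForm.restrict, LinearMap.domRestrict₁₂_apply, Matrix.toBilin'_apply']
  have hnd : NondegOn B ⊤ := by
    intro v _ hv0
    obtain ⟨x, hx⟩ := nondeg_aux G e hG heG v (hfix v) (fun h => hv0 (Subtype.ext h))
    exact ⟨⟨e *ᵥ x, x, rfl⟩, trivial, by rw [hBa]; exact hx⟩
  have hnd' : NondegOn B' ⊤ := by
    intro v _ hv0
    obtain ⟨x, hx⟩ := nondeg_aux (G * a) e (hG.mul ha)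
      (by rw [← mul_assoc, heG, mul_assoc, mul_assoc, hae]) v (hfix v) (fun h => hv0 (Subtype.ext h))
    exact ⟨⟨e *ᵥ x, x, rfl⟩, trivial, by rw [hBa']; exact hx⟩
  obtain ⟨φ, hφ⟩ := exists_isometry (B := B) (B' := B') (fun v => by rw [hBa]; exact halt _)
    (fun v => by rw [hBa']; exact halt' _) hnd hnd'
  set c : Matrix n n F :=
    LinearMap.toMatrix' (W.subtype ∘ₗ φ.toLinearMap ∘ₗ (Matrix.mulVecLin e).rangeRestrict) with hc
  have hcx : ∀ x, c *ᵥ x = (φ ⟨e *ᵥ x, x, rfl⟩ : n → F) := by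
    intro x
    rw [hc, LinearMap.toMatrix'_mulVec]
    rfl
  refine ⟨c, ?_, ?_, ?_⟩
  · apply ext_mulVec
    intro x
    rw [← mulVec_mulVec, hcx, hfix]
  · apply ext_mulVec
    intro x
    rw [← mulVec_mulVec, hcx, hcx]
    congr 2
    apply Subtype.ext
    show e *ᵥ (e *ᵥ x) = e *ᵥ x
    rw [mulVec_mulVec, hee]
  · apply ext_bilin
    intro x y
    have h1 : x ⬝ᵥ (cᵀ * G * c) *ᵥ y = (c *ᵥ x) ⬝ᵥ G *ᵥ (c *ᵥ y) := by
      rw [mul_assoc, ← mulVec_mulVec, dotProduct_mulVec, vecMul_transpose, mulVec_mulVec]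
    rw [h1, hcx, hcx, ← hBa, hφ, hBa']
    show (e *ᵥ x) ⬝ᵥ (G * a) *ᵥ (e *ᵥ y) = _
    rw [← vecMul_transpose, ← dotProduct_mulVec, mulVec_mulVec, mulVec_mulVec]
    congr 2
    calc eᵀ * (G * a) * e = (eᵀ * G) * (a * e) := by simp only [mul_assoc]
      _ = G * (e * (e * a)) := by rw [heG, hae, mul_assoc]
      _ = G * (e * a) := by rw [← mul_assoc e e a, hee]

/-- the adjoint with respect to the Gram matrix `G` with inverse `G'` -/
def adj (G G' X : Matrix n n F) : Matrix n n F := G' * Xᵀ * G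

section adj

variable (G G' : Matrix n n F)

theorem adj_add (X Y : Matrix n n F) : adj G G' (X + Y) = adj G G' X + adj G G' Y := by
  simp [adj, mul_add, add_mul]

theorem adj_smul (c : F) (X : Matrix n n F) : adj G G' (c • X) = c • adj G G' X := by
  simp [adj]

theorem adj_mul (h1 : G * G' = 1) (X Y : Matrix n n F) : adj G G' (X * Y) = adj G G' Y * adj G G' X := by
  unfold adj
  rw [transpose_mul]
  calc G' * (Yᵀ * Xᵀ) * G = G' * Yᵀ * 1 * (Xᵀ * G) := by simp only [mul_assoc, one_mul]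
    _ = G' * Yᵀ * G * (G' * Xᵀ * G) := by rw [← h1]; simp only [mul_assoc]

theorem adj_one (h2 : G' * G = 1) : adj G G' 1 = 1 := by simp [adj, h2]

theorem adj_adj (_h1 : G * G' = 1) (h2 : G' * G = 1) (s : F) (hs : s * s = 1) (ht : Gᵀ = s • G)
    (ht' : G'ᵀ = s • G') (X : Matrix n n F) : adj G G' (adj G G' X) = X := by
  unfold adj
  rw [transpose_mul, transpose_mul, transpose_transpose, ht, ht']
  simp only [smul_mul_assoc, mul_smul_comm, smul_smul, hs, one_smul]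
  calc G' * (G * (X * G')) * G = (G' * G) * X * (G' * G) := by simp only [mul_assoc]
    _ = X := by rw [h2, one_mul, mul_one]

end adj

/-- Semisimple elements of `Sp` conjugate under an invertible matrix are conjugate in `Sp`. -/
theorem conj_Sp [Finite F] {m : ℕ} (A B : Matrix.symplecticGroup (Fin m) F) (k : ℕ) (hk : (k : F) ≠ 0)
    (hAk : A ^ k = 1) (g : (Matrix (Fin m ⊕ Fin m) (Fin m ⊕ Fin m) F)ˣ)
    (hg : (g : Matrix (Fin m ⊕ Fin m) (Fin m ⊕ Fin m) F) * A = B * g) : IsConj A B := by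
  set J := Matrix.J (Fin m) F with hJ
  have hJJ : J * -J = 1 := by rw [mul_neg, Matrix.J_squared, neg_neg]
  have hJJ' : -J * J = 1 := by rw [neg_mul, Matrix.J_squared, neg_neg]
  have hJt : Jᵀ = (-1 : F) • J := by rw [Matrix.J_transpose, neg_one_smul]
  have hJt' : (-J)ᵀ = (-1 : F) • (-J) := by rw [transpose_neg, Matrix.J_transpose, neg_one_smul]
  set τ := adj J (-J) with hτ
  have hadd : ∀ X Y, τ (X + Y) = τ X + τ Y := adj_add J (-J)
  have hmul : ∀ X Y, τ (X * Y) = τ Y * τ X := adj_mul J (-J) hJJ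
  have hone : τ 1 = 1 := adj_one J (-J) hJJ'
  have hττ : ∀ X, τ (τ X) = X := adj_adj J (-J) hJJ hJJ' (-1) (by ring) hJt hJt'
  have hsmul : ∀ (c : F) X, τ (c • X) = c • τ X := adj_smul J (-J)
  have hunit : ∀ X : Matrix.symplecticGroup (Fin m) F,
      τ (X : Matrix (Fin m ⊕ Fin m) (Fin m ⊕ Fin m) F) * X = 1 := by
    intro X
    have := SymplecticGroup.mem_iff'.1 X.2
    show -J * (X : Matrix (Fin m ⊕ Fin m) (Fin m ⊕ Fin m) F)ᵀ * J * X = 1
    rw [mul_assoc, mul_assoc, ← mul_assoc _ J, this, hJJ']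
  have hunit' : ∀ X : Matrix.symplecticGroup (Fin m) F,
      (X : Matrix (Fin m ⊕ Fin m) (Fin m ⊕ Fin m) F) * τ X = 1 := fun X => mul_eq_one_comm.1 (hunit X)
  set A' : Matrix (Fin m ⊕ Fin m) (Fin m ⊕ Fin m) F := A.1 with hA'
  set B' : Matrix (Fin m ⊕ Fin m) (Fin m ⊕ Fin m) F := B.1 with hB'
  set g' : Matrix (Fin m ⊕ Fin m) (Fin m ⊕ Fin m) F := g.1 with hg'
  set a := τ g' * g' with ha
  have hgu : IsUnit g' := g.isUnit
  have hτgu : IsUnit (τ g') := by
    refine IsUnit.of_mul_eq_one (τ (↑g⁻¹ : Matrix (Fin m ⊕ Fin m) (Fin m ⊕ Fin m) F)) ?_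
    rw [← hmul, hg', Units.inv_mul, hone]
  have hau : IsUnit a := hτgu.mul hgu
  have haτ : τ a = a := by rw [ha, hmul, hττ]
  have h1 : τ g' * B' = A' * τ g' := by
    have h2 : τ A' * τ g' = τ g' * τ B' := by rw [← hmul, ← hmul, hg]
    calc τ g' * B' = A' * (τ A' * τ g') * B' := by rw [← mul_assoc, hunit' A, one_mul]
      _ = A' * τ g' * (τ B' * B') := by rw [h2]; simp only [mul_assoc]
      _ = A' * τ g' := by rw [hunit B, mul_one]
  have haA : a * A' = A' * a := by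
    rw [ha, mul_assoc, hg, ← mul_assoc, h1, mul_assoc]
  have halt : ∀ v, v ⬝ᵥ J *ᵥ v = 0 := by
    intro v
    have := sympB_isAlt (F := F) m v
    rwa [sympB, Matrix.toBilin'_apply'] at this
  have hJa : J * a = g'ᵀ * J * g' := by
    show J * (-J * g'ᵀ * J * g') = _
    rw [← mul_assoc, ← mul_assoc, ← mul_assoc, hJJ, one_mul]
  have halt' : ∀ v, v ⬝ᵥ (J * a) *ᵥ v = 0 := by
    intro v
    rw [hJa, mul_assoc, ← mulVec_mulVec, dotProduct_mulVec, vecMul_transpose, ← mulVec_mulVec]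
    exact halt _
  have hAk' : A' ^ k = 1 := by
    have := congrArg (Subtype.val) hAk
    simpa using this
  obtain ⟨c, hcA, hca⟩ := InvCorner.reduction (F := F) τ hadd hmul hone hττ hsmul A' a (hunit A) (hunit' A) hau haτ
    haA k hk hAk' (by
      intro e hee hτe hae
      have heJ : eᵀ * J = J * e := by
        have : J * τ e = J * e := by rw [hτe]
        rw [← this]
        show _ = J * (-J * eᵀ * J)
        rw [← mul_assoc, ← mul_assoc, hJJ, one_mul]
      obtain ⟨c, h1, h2, h3⟩ := lemmaE J e a (IsUnit.of_mul_eq_one _ hJJ) halt halt' hee heJ hae hau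
      refine ⟨c, h1, h2, ?_⟩
      show -J * cᵀ * J * c = _
      rw [mul_assoc, mul_assoc, ← mul_assoc cᵀ, h3, ← mul_assoc, hJJ', one_mul])
  have hcu : IsUnit c := by
    have h2 : IsUnit (τ c * c) := hca ▸ hau
    have h3 : IsUnit ((τ c * c).det) := (Matrix.isUnit_iff_isUnit_det _).1 h2
    rw [det_mul] at h3
    exact (Matrix.isUnit_iff_isUnit_det _).2 (isUnit_of_mul_isUnit_right h3)
  obtain ⟨cu, rfl⟩ := hcu
  set ci : Matrix (Fin m ⊕ Fin m) (Fin m ⊕ Fin m) F := ↑cu⁻¹ with hci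
  have hciA : ci * A' = A' * ci := by
    calc ci * A' = ci * (A' * cu) * ci := by rw [mul_assoc, mul_assoc, hci, Units.mul_inv, mul_one]
      _ = ci * (cu * A') * ci := by rw [hcA]
      _ = A' * ci := by rw [← mul_assoc, hci, Units.inv_mul, one_mul]
  have hh : τ (g' * ci) * (g' * ci) = 1 := by
    calc τ (g' * ci) * (g' * ci) = τ ci * a * ci := by rw [hmul, ha]; simp only [mul_assoc]
      _ = τ ci * τ cu * (cu * ci) := by rw [← hca]; simp only [mul_assoc]
      _ = 1 := by rw [← hmul, hci, Units.mul_inv, hone, one_mul]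
  have hmem : g' * ci ∈ Matrix.symplecticGroup (Fin m) F := by
    rw [SymplecticGroup.mem_iff']
    have h2 : J * (τ (g' * ci) * (g' * ci)) = J := by rw [hh, mul_one]
    rw [← hJ]
    calc (g' * ci)ᵀ * J * (g' * ci) = J * -J * (g' * ci)ᵀ * J * (g' * ci) := by rw [hJJ, one_mul]
      _ = J * (τ (g' * ci) * (g' * ci)) := by
        show _ = J * (-J * (g' * ci)ᵀ * J * (g' * ci))
        simp only [mul_assoc]
      _ = J := h2
  rw [isConj_iff]
  refine ⟨⟨g' * ci, hmem⟩, ?_⟩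
  rw [mul_inv_eq_iff_eq_mul]
  apply Subtype.ext
  show g' * ci * A' = B' * (g' * ci)
  rw [mul_assoc, hciA, ← mul_assoc, hg, mul_assoc]

end Cfsg.Agent.Lib.Helper50.SpConj
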