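import Cfsg.Agent.Lib.Helper50.SemiClass
import Cfsg.Agent.Lib.Helper50.SpConj
import Cfsg.Agent.Lib.Helper48.SelfAdjForm

set_option autoImplicit false

/-! Characteristic polynomials of symplectic matrices; symplectic matrices with prescribed `g + g⁻¹`. -/

namespace Cfsg.Agent.Lib.Helper50.SpClass

open Cfsg.Agent.Lib.Helper50 Matrix Polynomial

variable {F : Type*} [Field F] {n : ℕ}

/-- the characteristic polynomial of a symplectic matrix is palindromic -/
theorem charpoly_reverse (g : Matrix.symplecticGroup (Fin n) F) :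
    (g : Matrix (Fin n ⊕ Fin n) (Fin n ⊕ Fin n) F).charpoly.reverse =
      (g : Matrix (Fin n ⊕ Fin n) (Fin n ⊕ Fin n) F).charpoly := by
  set A : Matrix (Fin n ⊕ Fin n) (Fin n ⊕ Fin n) F := g.1 with hA
  have hdet : A.det = 1 := SymplecticGroup.det_eq_one g.2
  have hu : IsUnit A := (Matrix.isUnit_iff_isUnit_det _).2 (by rw [hdet]; exact isUnit_one)
  have h1 := Matrix.charpoly_inv A hu
  rw [hdet, Ring.inverse_one, map_one, mul_one, Fintype.card_sum, Fintype.card_fin, ← two_mul, pow_mul,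
    neg_one_sq, one_pow, one_mul] at h1
  rw [Matrix.reverse_charpoly, ← h1, hA, ← SymplecticGroup.coe_inv', SymplecticGroup.coe_inv]
  have hJJ : Matrix.J (Fin n) F * -Matrix.J (Fin n) F = 1 := by rw [mul_neg, Matrix.J_squared, neg_neg]
  have hJJ' : -Matrix.J (Fin n) F * Matrix.J (Fin n) F = 1 := by rw [neg_mul, Matrix.J_squared, neg_neg]
  have h2 := Matrix.charpoly_units_conj (⟨-Matrix.J (Fin n) F, Matrix.J (Fin n) F, hJJ', hJJ⟩ :
    (Matrix (Fin n ⊕ Fin n) (Fin n ⊕ Fin n) F)ˣ) (g.1ᵀ)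
  have hinv : (-Matrix.J (Fin n) F)⁻¹ = Matrix.J (Fin n) F := Matrix.inv_eq_right_inv hJJ'
  change (-Matrix.J (Fin n) F * g.1ᵀ * (-Matrix.J (Fin n) F)⁻¹).charpoly = _ at h2
  rw [hinv] at h2
  rw [← Matrix.charpoly_transpose g.1, ← h2]

theorem charpoly_eq_of_coeff (g h : Matrix.symplecticGroup (Fin n) F)
    (hc : ∀ i : Fin n, (g : Matrix (Fin n ⊕ Fin n) (Fin n ⊕ Fin n) F).charpoly.coeff (i + 1) =
      (h : Matrix (Fin n ⊕ Fin n) (Fin n ⊕ Fin n) F).charpoly.coeff (i + 1)) :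
    (g : Matrix (Fin n ⊕ Fin n) (Fin n ⊕ Fin n) F).charpoly =
      (h : Matrix (Fin n ⊕ Fin n) (Fin n ⊕ Fin n) F).charpoly := by
  have hdeg : ∀ x : Matrix.symplecticGroup (Fin n) F,
      (x : Matrix (Fin n ⊕ Fin n) (Fin n ⊕ Fin n) F).charpoly.natDegree = 2 * n := by
    intro x
    rw [Matrix.charpoly_natDegree_eq_dim, Fintype.card_sum, Fintype.card_fin, two_mul]
  have hpal : ∀ (x : Matrix.symplecticGroup (Fin n) F) (i : ℕ), i ≤ 2 * n →
      (x : Matrix (Fin n ⊕ Fin n) (Fin n ⊕ Fin n) F).charpoly.coeff i =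
        (x : Matrix (Fin n ⊕ Fin n) (Fin n ⊕ Fin n) F).charpoly.coeff (2 * n - i) := by
    intro x i hi
    conv_lhs => rw [← charpoly_reverse x]
    rw [coeff_reverse, hdeg, revAt_le hi]
  have htop : ∀ x : Matrix.symplecticGroup (Fin n) F,
      (x : Matrix (Fin n ⊕ Fin n) (Fin n ⊕ Fin n) F).charpoly.coeff (2 * n) = 1 := by
    intro x
    have := (Matrix.charpoly_monic (x : Matrix (Fin n ⊕ Fin n) (Fin n ⊕ Fin n) F)).coeff_natDegree
    rwa [hdeg] at this
  have key : ∀ i, i ≤ n → (g : Matrix (Fin n ⊕ Fin n) (Fin n ⊕ Fin n) F).charpoly.coeff i =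
      (h : Matrix (Fin n ⊕ Fin n) (Fin n ⊕ Fin n) F).charpoly.coeff i := by
    intro i hi
    rcases Nat.eq_zero_or_pos i with rfl | hpos
    · rw [hpal g 0 (by omega), hpal h 0 (by omega), Nat.sub_zero, htop, htop]
    · have := hc ⟨i - 1, by omega⟩
      have e : i - 1 + 1 = i := by omega
      simpa [e] using this
  ext i
  by_cases h1 : i ≤ n
  · exact key i h1
  · by_cases h2 : i ≤ 2 * n
    · rw [hpal g i h2, hpal h i h2]
      exact key _ (by omega)
    · rw [coeff_eq_zero_of_natDegree_lt (by rw [hdeg]; omega), coeff_eq_zero_of_natDegree_lt (by rw [hdeg]; omega)]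

/-- every matrix is self-adjoint for an invertible symmetric matrix -/
theorem exists_symm_intertwiner {m : Type*} [Fintype m] [DecidableEq m] (C : Matrix m m F) :
    ∃ W W' : Matrix m m F, Wᵀ = W ∧ W'ᵀ = W' ∧ W * W' = 1 ∧ W' * W = 1 ∧ W * C = Cᵀ * W := by
  obtain ⟨B, hnd, hsym, hadj⟩ := Cfsg.Agent.Lib.Helper48.exists_selfAdjoint_form (Matrix.toLin' C)
  set G : Matrix m m F := LinearMap.BilinForm.toMatrix' B with hG
  have hB : ∀ x y, B x y = x ⬝ᵥ G *ᵥ y := by
    intro x y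
    rw [← Matrix.toBilin'_apply', Matrix.toBilin'_toMatrix']
  have hGt : Gᵀ = G := by
    apply SpConj.ext_bilin
    intro x y
    rw [mulVec_transpose, ← hB x y, hsym, hB, dotProduct_mulVec, dotProduct_comm]
  have hGC : G * C = Cᵀ * G := by
    apply SpConj.ext_bilin
    intro x y
    have := hadj x y
    rw [hB, hB, Matrix.toLin'_apply, Matrix.toLin'_apply] at this
    rw [← mulVec_mulVec, ← this, ← mulVec_mulVec, dotProduct_mulVec x, vecMul_transpose]
  have hdet : IsUnit G.det := by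
    rw [isUnit_iff_ne_zero]
    intro h0
    obtain ⟨v, hv0, hv⟩ := Matrix.exists_vecMul_eq_zero_iff.2 h0
    apply hv0
    apply hnd
    intro y
    rw [hB, dotProduct_mulVec, hv, zero_dotProduct]
  refine ⟨G, G⁻¹, hGt, ?_, Matrix.mul_nonsing_inv _ hdet, Matrix.nonsing_inv_mul _ hdet, hGC⟩
  rw [Matrix.transpose_nonsing_inv, hGt]

/-- a symplectic matrix with `g + g⁻¹ = diag (C, Cᵀ)` -/
theorem exists_Sp_of_monic (h : F[X]) (hm : h.Monic) (hd : h.natDegree = n) :
    ∃ g : Matrix.symplecticGroup (Fin n) F,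
      ((g : Matrix (Fin n ⊕ Fin n) (Fin n ⊕ Fin n) F) +
        ((g⁻¹ : Matrix.symplecticGroup (Fin n) F) : Matrix (Fin n ⊕ Fin n) (Fin n ⊕ Fin n) F)).charpoly = h * h := by
  obtain ⟨C, hC⟩ := SemiConj.exists_charpoly h hm hd
  obtain ⟨W, W', hW, hW', h1, h2, hWC⟩ := exists_symm_intertwiner C
  have hCW : C * W' = W' * Cᵀ := by
    calc C * W' = W' * (W * C) * W' := by rw [← mul_assoc, h2, one_mul]
      _ = W' * Cᵀ * (W * W') := by rw [hWC]; simp only [mul_assoc]
      _ = W' * Cᵀ := by rw [h1, mul_one]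
  have hmem : fromBlocks 0 W' (-W) Cᵀ ∈ Matrix.symplecticGroup (Fin n) F := by
    rw [SymplecticGroup.mem_iff', Matrix.J, fromBlocks_transpose, fromBlocks_multiply, fromBlocks_multiply]
    simp only [transpose_zero, transpose_neg, transpose_transpose, hW, hW', zero_mul, mul_zero, mul_one, mul_neg,
      neg_mul, zero_add, add_zero, neg_neg, neg_zero, h1, h2, hCW]
    congr 1
    abel
  refine ⟨⟨_, hmem⟩, ?_⟩
  have hinv : (fromBlocks 0 W' (-W) Cᵀ)⁻¹ = fromBlocks C (-W') W 0 := by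
    apply Matrix.inv_eq_right_inv
    rw [fromBlocks_multiply]
    simp only [zero_mul, mul_zero, mul_neg, neg_mul, zero_add, add_zero, neg_neg, h1, h2, hWC, neg_add_cancel]
    rw [neg_zero, fromBlocks_one]
  rw [SymplecticGroup.coe_inv']
  show (fromBlocks 0 W' (-W) Cᵀ + (fromBlocks 0 W' (-W) Cᵀ)⁻¹).charpoly = _
  rw [hinv, fromBlocks_add]
  simp only [zero_add, add_zero, add_neg_cancel, neg_add_cancel]
  rw [Matrix.charpoly_fromBlocks_zero₁₂, Matrix.charpoly_transpose, hC]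

/-- a `p'`-element of `Sp` with prescribed characteristic polynomial of `s + s⁻¹` -/
theorem exists_coprime_of_monic [Fintype F] (p : ℕ) [hp : Fact p.Prime] [CharP F p] (h : F[X]) (hm : h.Monic)
    (hd : h.natDegree = n) :
    ∃ s : Matrix.symplecticGroup (Fin n) F, (orderOf s).Coprime p ∧
      ((s : Matrix (Fin n ⊕ Fin n) (Fin n ⊕ Fin n) F) +
        ((s⁻¹ : Matrix.symplecticGroup (Fin n) F) : Matrix (Fin n ⊕ Fin n) (Fin n ⊕ Fin n) F)).charpoly = h * h := by
  obtain ⟨g, hg⟩ := exists_Sp_of_monic h hm hd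
  obtain ⟨k, -, hk⟩ := FiniteField.card F p
  obtain ⟨j, hj⟩ := SemiConj.exists_pow_coprime p k k.pos g
  refine ⟨g ^ ((p ^ (k : ℕ)) ^ j), hj, ?_⟩
  have hsum : g.1 ^ ((p ^ (k : ℕ)) ^ j) + (g⁻¹).1 ^ ((p ^ (k : ℕ)) ^ j) = (g.1 + (g⁻¹).1) ^ ((p ^ (k : ℕ)) ^ j) := by
    rcases Nat.eq_zero_or_pos n with rfl | hn
    · exact Subsingleton.elim _ _
    · haveI : Nonempty (Fin n ⊕ Fin n) := ⟨Sum.inl ⟨0, hn⟩⟩
      have hcomm : Commute g.1 (g⁻¹).1 := by
        show g.1 * (g⁻¹).1 = (g⁻¹).1 * g.1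
        have e1 : g.1 * (g⁻¹).1 = 1 := congrArg Subtype.val (mul_inv_cancel g)
        have e2 : (g⁻¹).1 * g.1 = 1 := congrArg Subtype.val (inv_mul_cancel g)
        rw [e1, e2]
      rw [← pow_mul]
      exact (add_pow_char_pow_of_commute p _ hcomm).symm
  rw [← inv_pow]
  show (g.1 ^ ((p ^ (k : ℕ)) ^ j) + (g⁻¹).1 ^ ((p ^ (k : ℕ)) ^ j)).charpoly = _
  rw [hsum, ← hk, SemiConj.charpoly_pow_card_pow, hg]

theorem conj_of_charpoly [Finite F] (p : ℕ) [hp : Fact p.Prime] [CharP F p]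
    (g h : ↥(Matrix.symplecticGroup (Fin n) F)) (hg : (orderOf g).Coprime p) (hh : (orderOf h).Coprime p)
    (hc : (g : Matrix (Fin n ⊕ Fin n) (Fin n ⊕ Fin n) F).charpoly =
      (h : Matrix (Fin n ⊕ Fin n) (Fin n ⊕ Fin n) F).charpoly) : IsConj g h := by
  have hp1 : p ≠ 1 := hp.out.ne_one
  obtain ⟨x, hx⟩ := SemiConj.exists_conj_of_pow
    (g : Matrix (Fin n ⊕ Fin n) (Fin n ⊕ Fin n) F) (h : Matrix (Fin n ⊕ Fin n) (Fin n ⊕ Fin n) F)
    (orderOf g) (orderOf h) (SemiConj.cast_ne_zero_of_coprime p hg hp1)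
    (SemiConj.cast_ne_zero_of_coprime p hh hp1)
    (by rw [← SubmonoidClass.coe_pow, pow_orderOf_eq_one]; rfl)
    (by rw [← SubmonoidClass.coe_pow, pow_orderOf_eq_one]; rfl) hc
  exact SpConj.conj_Sp g h (orderOf g) (SemiConj.cast_ne_zero_of_coprime p hg hp1) (pow_orderOf_eq_one g) x hx

theorem eq_of_mul_self_eq {a b : F[X]} (ha : a.Monic) (hb : b.Monic) (h : a * a = b * b) : a = b := by
  rcases mul_self_eq_mul_self_iff.1 h with h1 | h1
  · exact h1
  · have h2 : (1 : F) = -1 := by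
      have := congrArg leadingCoeff h1
      rwa [leadingCoeff_neg, ha.leadingCoeff, hb.leadingCoeff] at this
    have h3 : -b = b := by
      have : (-1 : F[X]) = 1 := by rw [← C_1, ← C_neg, ← h2]
      calc -b = (-1) * b := by ring
        _ = b := by rw [this, one_mul]
    rw [h1, h3]

/-- the number of classes of `p'`-elements of `Sp_2n(q)` is `q ^ n` -/
theorem card_classes [Fintype F] (p : ℕ) [hp : Fact p.Prime] [CharP F p] (n : ℕ) :
    Nat.card {c : ConjClasses ↥(Matrix.symplecticGroup (Fin n) F) //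
      ∃ g : ↥(Matrix.symplecticGroup (Fin n) F), ConjClasses.mk g = c ∧ (orderOf g).Coprime p} =
      Fintype.card F ^ n := by
  have hcard : Nat.card (Fin n → F) = Fintype.card F ^ n := by
    rw [Nat.card_eq_fintype_card, Fintype.card_fun, Fintype.card_fin]
  apply le_antisymm
  · let φ : {c : ConjClasses ↥(Matrix.symplecticGroup (Fin n) F) //
      ∃ g : ↥(Matrix.symplecticGroup (Fin n) F), ConjClasses.mk g = c ∧ (orderOf g).Coprime p} → (Fin n → F) :=
      fun c i => (c.2.choose : Matrix (Fin n ⊕ Fin n) (Fin n ⊕ Fin n) F).charpoly.coeff (i + 1)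
    have hφ : Function.Injective φ := by
      intro c c' hcc
      have h1 := c.2.choose_spec
      have h2 := c'.2.choose_spec
      apply Subtype.ext
      rw [← h1.1, ← h2.1, ConjClasses.mk_eq_mk_iff_isConj]
      exact conj_of_charpoly p _ _ h1.2 h2.2 (charpoly_eq_of_coeff _ _ (fun i => congrFun hcc i))
    have := Nat.card_le_card_of_injective φ hφ
    rwa [hcard] at this
  · let e : {f : F[X] // f.Monic ∧ f.natDegree = n} ≃ (Fin n → F) :=
      (monicEquivDegreeLT n).trans (degreeLTEquiv F n).toEquiv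
    have hex : ∀ f : {f : F[X] // f.Monic ∧ f.natDegree = n}, ∃ s : Matrix.symplecticGroup (Fin n) F,
        (orderOf s).Coprime p ∧ ((s : Matrix (Fin n ⊕ Fin n) (Fin n ⊕ Fin n) F) +
        ((s⁻¹ : Matrix.symplecticGroup (Fin n) F) : Matrix (Fin n ⊕ Fin n) (Fin n ⊕ Fin n) F)).charpoly =
          f.1 * f.1 := fun f => exists_coprime_of_monic p f.1 f.2.1 f.2.2
    choose s hs1 hs2 using hex
    let ψ : {f : F[X] // f.Monic ∧ f.natDegree = n} → {c : ConjClasses ↥(Matrix.symplecticGroup (Fin n) F) //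
      ∃ g : ↥(Matrix.symplecticGroup (Fin n) F), ConjClasses.mk g = c ∧ (orderOf g).Coprime p} :=
      fun f => ⟨ConjClasses.mk (s f), s f, rfl, hs1 f⟩
    have hψ : Function.Injective ψ := by
      intro f f' hff
      have h1 : IsConj (s f) (s f') := ConjClasses.mk_eq_mk_iff_isConj.1 (congrArg Subtype.val hff)
      obtain ⟨x, hx⟩ := isConj_iff.1 h1
      apply Subtype.ext
      apply eq_of_mul_self_eq f.2.1 f'.2.1
      rw [← hs2, ← hs2, ← hx]
      have h2 : (x * s f * x⁻¹)⁻¹ = x * (s f)⁻¹ * x⁻¹ := by group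
      rw [h2]
      have e1 : x.1 * (x⁻¹).1 = 1 := congrArg Subtype.val (mul_inv_cancel x)
      have e2 : (x⁻¹).1 * x.1 = 1 := congrArg Subtype.val (inv_mul_cancel x)
      have h3 := Matrix.charpoly_units_conj (⟨x.1, (x⁻¹).1, e1, e2⟩ :
        (Matrix (Fin n ⊕ Fin n) (Fin n ⊕ Fin n) F)ˣ) ((s f).1 + ((s f)⁻¹).1)
      have hinv : (x.1)⁻¹ = (x⁻¹).1 := Matrix.inv_eq_right_inv e1
      change (x.1 * ((s f).1 + ((s f)⁻¹).1) * (x.1)⁻¹).charpoly = _ at h3
      rw [hinv] at h3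
      rw [← h3]
      congr 1
      show _ = x.1 * (s f).1 * (x⁻¹).1 + x.1 * ((s f)⁻¹).1 * (x⁻¹).1
      rw [mul_add, add_mul]
    have := Nat.card_le_card_of_injective ψ hψ
    rwa [Nat.card_congr e, hcard] at this

end Cfsg.Agent.Lib.Helper50.SpClass
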