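import Cfsg.Agent.Lib.Helper50.GIPSL

set_option autoImplicit false

/-!
Graph involutions: transport of similitude groups along (scaled) isometries.
-/

namespace Cfsg.Agent.Lib.Helper50.GI

open Matrix MatrixGroups

variable {ι κ : Type} [Fintype ι] [DecidableEq ι] [Fintype κ] [DecidableEq κ] {K : Type*} [Field K]

/-- similitude groups of forms related by a scaled isometry -/
theorem sim_equiv_of_form (f : (ι → K) → (ι → K) → K) (f' : (κ → K) → (κ → K) → K)
    (φ : (ι → K) ≃ₗ[K] (κ → K)) (a : K) (ha : a ≠ 0) (h : ∀ u v, f' (φ u) (φ v) = a * f u v) :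
    Nonempty (Cfsg.projQuot (Cfsg.Geo.similarityGroup f) ≃*
      Cfsg.projQuot (Cfsg.Geo.similarityGroup f')) := by
  apply projQuot_congr _ _ φ
  intro g
  constructor
  · rintro ⟨c, hc⟩
    refine ⟨c, fun w w' => ?_⟩
    obtain ⟨u, rfl⟩ := φ.surjective w
    obtain ⟨v, rfl⟩ := φ.surjective w'
    show f' ((glCongr φ g).1 *ᵥ φ u) ((glCongr φ g).1 *ᵥ φ v) = _
    rw [glCongr_mulVec, glCongr_mulVec, h, h]
    have := hc u v
    rw [show f ((g : Matrix ι ι K) *ᵥ u) ((g : Matrix ι ι K) *ᵥ v) = (c : K) * f u v from this]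
    ring
  · rintro ⟨c, hc⟩
    refine ⟨c, fun u v => ?_⟩
    have h1 : f' ((glCongr φ g).1 *ᵥ φ u) ((glCongr φ g).1 *ᵥ φ v) = (c : K) * f' (φ u) (φ v) :=
      hc (φ u) (φ v)
    rw [glCongr_mulVec, glCongr_mulVec, h, h] at h1
    apply mul_left_cancel₀ ha
    show a * f (g.1 *ᵥ u) (g.1 *ᵥ v) = _
    rw [h1]
    ring

theorem bf_add_left (N : Matrix ι ι K) (u u' v : ι → K) : bf N (u + u') v = bf N u v + bf N u' v := by
  unfold bf
  rw [add_dotProduct]

theorem bf_add_right (N : Matrix ι ι K) (u v v' : ι → K) : bf N u (v + v') = bf N u v + bf N u v' := by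
  unfold bf
  rw [mulVec_add, dotProduct_add]

theorem bf_comm {N : Matrix ι ι K} (hN : Nᵀ = N) (u v : ι → K) : bf N u v = bf N v u := by
  unfold bf
  rw [dotProduct_mulVec, ← mulVec_transpose, hN, dotProduct_comm]

theorem bf_polar {N : Matrix ι ι K} (hN : Nᵀ = N) (u v : ι → K) :
    bf N (u + v) (u + v) = bf N u u + 2 * bf N u v + bf N v v := by
  rw [bf_add_left, bf_add_right, bf_add_right, bf_comm hN v u]
  ring

/-- in odd characteristic, the similitudes of a symmetric bilinear form are those of its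
quadratic form -/
theorem simB_equiv_quad (h2 : (2 : K) ≠ 0) (N : Matrix ι ι K) (hN : Nᵀ = N) (Q : (κ → K) → K)
    (φ : (ι → K) ≃ₗ[K] (κ → K)) (a : K) (ha : a ≠ 0) (h : ∀ v, Q (φ v) = a * bf N v v) :
    Nonempty (Cfsg.projQuot (simB N) ≃* Cfsg.PGO K Q) := by
  apply projQuot_congr _ _ φ
  intro g
  constructor
  · rintro ⟨c, hc⟩
    refine ⟨c, fun w => ?_⟩
    obtain ⟨v, rfl⟩ := φ.surjective w
    show Q ((glCongr φ g).1 *ᵥ φ v) = _
    rw [glCongr_mulVec, h, h]
    have : bf N (g.1 *ᵥ v) (g.1 *ᵥ v) = (c : K) * bf N v v := hc v v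
    rw [this]
    ring
  · rintro ⟨c, hc⟩
    have h1 : ∀ v, bf N (g.1 *ᵥ v) (g.1 *ᵥ v) = (c : K) * bf N v v := by
      intro v
      have h3 : Q ((glCongr φ g).1 *ᵥ φ v) = (c : K) * Q (φ v) := hc (φ v)
      rw [glCongr_mulVec, h, h] at h3
      apply mul_left_cancel₀ ha
      rw [h3]
      ring
    refine ⟨c, fun u v => ?_⟩
    show bf N (g.1 *ᵥ u) (g.1 *ᵥ v) = _
    have h3 := h1 (u + v)
    rw [mulVec_add, bf_polar hN, bf_polar hN, h1 u, h1 v] at h3
    apply mul_left_cancel₀ h2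
    linear_combination h3

/-- congruent (up to a scalar) matrices have isomorphic projective similitude groups -/
theorem simB_congr (N N' : Matrix ι ι K) (P : GL ι K) (a : K) (ha : a ≠ 0)
    (h : N' = a • (P.1 * N * P.1ᵀ)) :
    Nonempty (Cfsg.projQuot (simB N') ≃* Cfsg.projQuot (simB N)) := by
  let φ : (ι → K) ≃ₗ[K] (ι → K) :=
    LinearEquiv.ofLinear (Matrix.mulVecLin P.1ᵀ) (Matrix.mulVecLin (P⁻¹.1)ᵀ) (by
      apply LinearMap.ext
      intro v
      show P.1ᵀ *ᵥ ((P⁻¹.1)ᵀ *ᵥ v) = v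
      rw [mulVec_mulVec, ← transpose_mul, Units.inv_mul, transpose_one, one_mulVec]) (by
      apply LinearMap.ext
      intro v
      show (P⁻¹.1)ᵀ *ᵥ (P.1ᵀ *ᵥ v) = v
      rw [mulVec_mulVec, ← transpose_mul, Units.mul_inv, transpose_one, one_mulVec])
  apply sim_equiv_of_form (bf N') (bf N) φ a⁻¹ (inv_ne_zero ha)
  intro u v
  show bf N (P.1ᵀ *ᵥ u) (P.1ᵀ *ᵥ v) = _
  rw [bf_mulVec, transpose_transpose, h, bf_smul, inv_mul_cancel_left₀ ha]

end Cfsg.Agent.Lib.Helper50.GI
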