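import Cfsg.Agent.Lib.Helper18.AutPSL.HermFactor
import Cfsg.Agent.Lib.Helper50.GIForms

set_option autoImplicit false

/-!
Descent for graph involutions of `PSU_n`, matrix level.  `σ` is an involution of the field `F`,
`j : F₀ → F` identifies `F₀` with the fixed field.
-/

namespace Cfsg.Agent.Lib.Helper50.GI

open Matrix MatrixGroups
open Cfsg.Agent.Lib.Helper18.AutPSL (mp mp_apply mp_eq_map mp_smul st st_apply)

variable {F : Type*} [Field F] {F₀ : Type*} [Field F₀] {n : ℕ}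

theorem cancelL {X A B : Matrix (Fin n) (Fin n) F} (hX : X.det ≠ 0) (h : X * A = X * B) : A = B := by
  have hu : IsUnit X.det := isUnit_iff_ne_zero.2 hX
  calc A = X⁻¹ * (X * A) := by rw [← Matrix.mul_assoc, Matrix.nonsing_inv_mul _ hu, Matrix.one_mul]
    _ = X⁻¹ * (X * B) := by rw [h]
    _ = B := by rw [← Matrix.mul_assoc, Matrix.nonsing_inv_mul _ hu, Matrix.one_mul]

theorem cancelR {X A B : Matrix (Fin n) (Fin n) F} (hX : X.det ≠ 0) (h : A * X = B * X) : A = B := by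
  have hu : IsUnit X.det := isUnit_iff_ne_zero.2 hX
  calc A = (A * X) * X⁻¹ := by rw [Matrix.mul_assoc, Matrix.mul_nonsing_inv _ hu, Matrix.mul_one]
    _ = (B * X) * X⁻¹ := by rw [h]
    _ = B := by rw [Matrix.mul_assoc, Matrix.mul_nonsing_inv _ hu, Matrix.mul_one]

theorem mp_transpose (σ : F ≃+* F) (M : Matrix (Fin n) (Fin n) F) : mp σ Mᵀ = (mp σ M)ᵀ := rfl

theorem det_mp (σ : F ≃+* F) (M : Matrix (Fin n) (Fin n) F) : (mp σ M).det = σ M.det := by
  rw [mp_eq_map]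
  exact (RingEquiv.map_det σ M).symm

theorem det_mp_ne (σ : F ≃+* F) {M : Matrix (Fin n) (Fin n) F} (h : M.det ≠ 0) :
    (mp σ M).det ≠ 0 := by
  rw [det_mp]
  exact fun h0 => h ((map_eq_zero σ).1 h0)

theorem mp_mp (σ : F ≃+* F) (hσ2 : ∀ x, σ (σ x) = x) (M : Matrix (Fin n) (Fin n) F) :
    mp σ (mp σ M) = M := by
  ext i k
  exact hσ2 _

theorem mp_map (σ : F ≃+* F) (j : F₀ →+* F) (hj : ∀ y, σ (j y) = j y)
    (A : Matrix (Fin n) (Fin n) F₀) : mp σ (A.map j) = A.map j := by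
  ext i k
  exact hj _

theorem map_j_mul (j : F₀ →+* F) (A B : Matrix (Fin n) (Fin n) F₀) :
    (A * B).map j = A.map j * B.map j := Matrix.map_mul

theorem map_j_smul (j : F₀ →+* F) (a : F₀) (A : Matrix (Fin n) (Fin n) F₀) :
    (a • A).map j = j a • A.map j := by
  ext i k
  simp

theorem map_j_transpose (j : F₀ →+* F) (A : Matrix (Fin n) (Fin n) F₀) :
    (Aᵀ).map j = (A.map j)ᵀ := rfl

theorem map_j_inj (j : F₀ →+* F) {A B : Matrix (Fin n) (Fin n) F₀} (h : A.map j = B.map j) :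
    A = B := by
  ext i k
  exact j.injective (congrFun (congrFun h i) k)

theorem det_map_j (j : F₀ →+* F) (A : Matrix (Fin n) (Fin n) F₀) : (A.map j).det = j A.det :=
  (RingHom.map_det j A).symm

/-- a matrix fixed by `σ` comes from `F₀` -/
theorem exists_map_j (σ : F ≃+* F) (j : F₀ →+* F) (hj : ∀ x, σ x = x ↔ ∃ y, j y = x)
    (M : Matrix (Fin n) (Fin n) F) (h : mp σ M = M) : ∃ A : Matrix (Fin n) (Fin n) F₀, A.map j = M := by
  have h1 : ∀ i k, ∃ y, j y = M i k := fun i k => (hj _).1 (congrFun (congrFun h i) k)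
  choose A hA using h1
  exact ⟨Matrix.of A, by ext i k; exact hA i k⟩

/-- descent data for `M` -/
def Dat (σ : F ≃+* F) (j : F₀ →+* F) (e : F) (M : Matrix (Fin n) (Fin n) F)
    (N₀ : Matrix (Fin n) (Fin n) F₀) (P : Matrix (Fin n) (Fin n) F) (c₀ : F) : Prop :=
  P.det ≠ 0 ∧ c₀ ≠ 0 ∧ c₀ • (M * mp σ P) = P ∧ Pᵀ * mp σ P = e • N₀.map j

theorem gram_smul (σ : F ≃+* F) (j : F₀ →+* F) (hj : ∀ y, σ (j y) = j y) (c : F)
    (P : Matrix (Fin n) (Fin n) F) (A : Matrix (Fin n) (Fin n) F₀) :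
    (c • (P * A.map j))ᵀ * mp σ (c • (P * A.map j)) =
      (c * σ c) • ((A.map j)ᵀ * (Pᵀ * mp σ P) * A.map j) := by
  rw [mp_smul, map_mul, mp_map σ j hj, transpose_smul, transpose_mul, smul_mul_assoc,
    Matrix.mul_smul, smul_smul]
  simp only [Matrix.mul_assoc]

theorem gram_mul (σ : F ≃+* F) (h P : Matrix (Fin n) (Fin n) F) :
    (h * P)ᵀ * mp σ (h * P) = Pᵀ * (hᵀ * mp σ h) * mp σ P := by
  rw [map_mul, transpose_mul]
  simp only [Matrix.mul_assoc]

theorem desc_fwd (hn : 0 < n) (σ : F ≃+* F) (j : F₀ →+* F)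
    (hj : ∀ x, σ x = x ↔ ∃ y, j y = x) (hσ2 : ∀ x, σ (σ x) = x) {e : F} (he : e ≠ 0)
    {M M' P P' : Matrix (Fin n) (Fin n) F} {N₀ N₀' : Matrix (Fin n) (Fin n) F₀} {c₀ c₀' : F}
    (hD : Dat σ j e M N₀ P c₀) (hD' : Dat σ j e M' N₀' P' c₀')
    (h : Matrix (Fin n) (Fin n) F) (hU : hᵀ * mp σ h = 1) (a : F) (hc : h * M * hᵀ = a • M') :
    ∃ (c : F) (A : Matrix (Fin n) (Fin n) F₀) (ν : F₀), c ≠ 0 ∧ A.det ≠ 0 ∧ ν ≠ 0 ∧
      h * P = c • (P' * A.map j) ∧ ν • (Aᵀ * N₀' * A) = N₀ := by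
  have : Nonempty (Fin n) := ⟨⟨0, hn⟩⟩
  have hj' : ∀ y, σ (j y) = j y := fun y => (hj _).2 ⟨y, rfl⟩
  obtain ⟨hP, hc0, h1, h2⟩ := hD
  obtain ⟨hP', hc0', h1', h2'⟩ := hD'
  have hdh : h.det ≠ 0 := by
    intro h0
    have := congrArg Matrix.det hU
    rw [det_mul, det_transpose, h0, zero_mul, det_one] at this
    exact zero_ne_one this
  have huP' : IsUnit P'.det := isUnit_iff_ne_zero.2 hP'
  set g := P'⁻¹ * (h * P) with hgdef
  have hg : P' * g = h * P := by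
    rw [hgdef, ← Matrix.mul_assoc, Matrix.mul_nonsing_inv _ huP', Matrix.one_mul]
  have hA1 : h * M = a • (M' * mp σ h) := by
    calc h * M = h * M * (hᵀ * mp σ h) := by rw [hU, Matrix.mul_one]
      _ = (h * M * hᵀ) * mp σ h := by simp only [Matrix.mul_assoc]
      _ = a • (M' * mp σ h) := by rw [hc, smul_mul_assoc]
  have hB : c₀' • g = (c₀ * a) • mp σ g := by
    apply cancelL hP'
    rw [Matrix.mul_smul, Matrix.mul_smul, hg]
    calc c₀' • (h * P) = c₀' • (h * (c₀ • (M * mp σ P))) := by rw [h1]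
      _ = (c₀' * c₀) • ((h * M) * mp σ P) := by
        rw [Matrix.mul_smul, smul_smul, Matrix.mul_assoc]
      _ = (c₀' * c₀ * a) • (M' * mp σ (h * P)) := by
        rw [hA1, smul_mul_assoc, smul_smul, map_mul, Matrix.mul_assoc]
      _ = (c₀ * a) • ((c₀' • (M' * mp σ P')) * mp σ g) := by
        rw [← hg, map_mul, smul_mul_assoc, smul_smul, Matrix.mul_assoc]
        congr 1
        ring
      _ = (c₀ * a) • (P' * mp σ g) := by rw [h1']
  have hdg : g.det ≠ 0 := by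
    intro h0
    have := congrArg Matrix.det hg
    rw [det_mul, h0, mul_zero, det_mul] at this
    exact mul_ne_zero hdh hP this.symm
  obtain ⟨i, k, hik⟩ : ∃ i k, g i k ≠ 0 := by
    by_contra hcon
    push Not at hcon
    apply hdg
    have : g = 0 := by ext i k; exact hcon i k
    rw [this, det_zero]
  set c := g i k with hcdef
  have hent : ∀ r s, c₀' * g r s = c₀ * a * σ (g r s) := fun r s => congrFun (congrFun hB r) s
  have hca : c₀ * a ≠ 0 := by
    intro h0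
    have := hent i k
    rw [h0, zero_mul] at this
    exact mul_ne_zero hc0' hik this
  have hσc : σ c ≠ 0 := fun h0 => hik ((map_eq_zero σ).1 h0)
  have hfix : mp σ (c⁻¹ • g) = c⁻¹ • g := by
    ext r s
    show σ (c⁻¹ * g r s) = c⁻¹ * g r s
    rw [map_mul, map_inv₀]
    have e1 := hent r s
    have e2 := hent i k
    rw [← hcdef] at e2
    have e3 : σ (g r s) * c = g r s * σ c := by
      have : (c₀' * (c₀ * a)) * (σ (g r s) * c) = (c₀' * (c₀ * a)) * (g r s * σ c) := by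
        linear_combination (-c₀' * c) * e1 + (c₀' * g r s) * e2
      exact mul_left_cancel₀ (mul_ne_zero hc0' hca) this
    field_simp
    linear_combination e3
  obtain ⟨A, hA⟩ := exists_map_j σ j hj _ hfix
  have hgA : g = c • A.map j := by rw [hA, smul_smul, mul_inv_cancel₀ hik, one_smul]
  have hhP : h * P = c • (P' * A.map j) := by rw [← hg, hgA, Matrix.mul_smul]
  have hdA : A.det ≠ 0 := by
    intro h0
    apply hdg
    rw [hgA, det_smul, det_map_j, h0, map_zero, mul_zero]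
  obtain ⟨ν, hν⟩ : ∃ ν, j ν = c * σ c := (hj _).1 (by rw [map_mul, hσ2, mul_comm])
  have hν0 : ν ≠ 0 := by
    rintro rfl
    rw [map_zero] at hν
    exact mul_ne_zero hik hσc hν.symm
  refine ⟨c, A, ν, hik, hdA, hν0, hhP, ?_⟩
  have e1 : (h * P)ᵀ * mp σ (h * P) = e • N₀.map j := by
    rw [gram_mul, hU, Matrix.mul_one, h2]
  rw [hhP, gram_smul σ j hj', h2', Matrix.mul_smul, smul_mul_assoc, smul_smul, mul_comm, ← smul_smul,
    ← hν, ← map_j_transpose, ← map_j_mul, ← map_j_mul, ← map_j_smul] at e1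
  apply map_j_inj j
  ext r s
  have := congrFun (congrFun e1 r) s
  exact mul_left_cancel₀ he this

theorem desc_bwd (σ : F ≃+* F) (j : F₀ →+* F)
    (hj : ∀ x, σ x = x ↔ ∃ y, j y = x) (hN : ∀ y : F₀, y ≠ 0 → ∃ c : F, c * σ c = j y)
    {e : F} {M M' P P' : Matrix (Fin n) (Fin n) F} {N₀ N₀' : Matrix (Fin n) (Fin n) F₀} {c₀ c₀' : F}
    (hD : Dat σ j e M N₀ P c₀) (hD' : Dat σ j e M' N₀' P' c₀')
    (A : Matrix (Fin n) (Fin n) F₀) (ν : F₀) (hν : ν ≠ 0)
    (hAN : ν • (Aᵀ * N₀' * A) = N₀) :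
    ∃ (h : Matrix (Fin n) (Fin n) F) (c a : F), c ≠ 0 ∧ hᵀ * mp σ h = 1 ∧
      h * P = c • (P' * A.map j) ∧ h * M * hᵀ = a • M' := by
  have hj' : ∀ y, σ (j y) = j y := fun y => (hj _).2 ⟨y, rfl⟩
  obtain ⟨hP, hc0, h1, h2⟩ := hD
  obtain ⟨hP', hc0', h1', h2'⟩ := hD'
  obtain ⟨c, hc⟩ := hN ν hν
  have hc00 : c ≠ 0 := by
    rintro rfl
    rw [zero_mul] at hc
    exact hν ((map_eq_zero j).1 hc.symm)
  have hσc : σ c ≠ 0 := fun h0 => hc00 ((map_eq_zero σ).1 h0)
  have huP : IsUnit P.det := isUnit_iff_ne_zero.2 hP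
  set h := (c • (P' * A.map j)) * P⁻¹ with hdef
  have hhP : h * P = c • (P' * A.map j) := by
    rw [hdef, Matrix.mul_assoc, Matrix.nonsing_inv_mul _ huP, Matrix.mul_one]
  have hU : hᵀ * mp σ h = 1 := by
    apply cancelL (X := Pᵀ) (by rw [det_transpose]; exact hP)
    apply cancelR (det_mp_ne σ hP)
    rw [← gram_mul, hhP, gram_smul σ j hj', h2', Matrix.mul_one, h2,
      Matrix.mul_smul, smul_mul_assoc, smul_smul, mul_comm, ← smul_smul, hc, ← map_j_transpose,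
      ← map_j_mul, ← map_j_mul, ← map_j_smul, hAN]
  have hU' : mp σ h * hᵀ = 1 := mul_eq_one_comm.1 hU
  refine ⟨h, c, c * c₀' / (c₀ * σ c), hc00, hU, hhP, ?_⟩
  have key : h * M = (c * c₀' / (c₀ * σ c)) • (M' * mp σ h) := by
    apply cancelR (det_mp_ne σ hP)
    have e1 : c₀ • (h * M * mp σ P) = c • (P' * A.map j) := by
      rw [Matrix.mul_assoc, ← Matrix.mul_smul, h1, hhP]
    have e2 : c₀' • (M' * mp σ h * mp σ P) = σ c • (P' * A.map j) := by
      rw [Matrix.mul_assoc, ← map_mul, hhP, mp_smul, map_mul, mp_map σ j hj', Matrix.mul_smul,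
        smul_smul, mul_comm, ← smul_smul, ← Matrix.mul_assoc, ← smul_mul_assoc, h1']
    have e3 : h * M * mp σ P = (c₀⁻¹ * c) • (P' * A.map j) := by
      rw [← smul_smul, ← e1, smul_smul, inv_mul_cancel₀ hc0, one_smul]
    have e4 : P' * A.map j = ((σ c)⁻¹ * c₀') • (M' * mp σ h * mp σ P) := by
      rw [← smul_smul, e2, smul_smul, inv_mul_cancel₀ hσc, one_smul]
    rw [e3, smul_mul_assoc]
    conv_lhs => rw [e4]
    rw [smul_smul]
    congr 1
    field_simp
  rw [key, smul_mul_assoc, Matrix.mul_assoc, hU', Matrix.mul_one]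

end Cfsg.Agent.Lib.Helper50.GI
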