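import Cfsg.Agent.Lib.Helper50.GIDesc

set_option autoImplicit false

/-!
Descent for graph involutions of `PSU_n`, matrix level: existence of descent data.
-/

namespace Cfsg.Agent.Lib.Helper50.GI

open Matrix MatrixGroups
open Cfsg.Agent.Lib.Helper18.AutPSL (mp mp_apply mp_eq_map mp_smul st st_apply nrm nrm_succ nrm_zero
  hilbert90 exists_herm_factor)

variable {F : Type*} [Field F] {F₀ : Type*} [Field F₀] {n : ℕ}

theorem exists_dat (σ : F ≃+* F) (j : F₀ →+* F)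
    (hj : ∀ x, σ x = x ↔ ∃ y, j y = x) (hσ2 : ∀ x, σ (σ x) = x) (hord : orderOf σ = 2)
    (hN : ∀ x : F, x ≠ 0 → σ x = x → ∃ c : F, c * σ c = x)
    {ε e : F} (hε : ε * ε = 1) (hεσ : σ ε = ε) (he : e ≠ 0) (heσ : σ e = ε * e)
    (M : Matrix (Fin n) (Fin n) F) (hU : Mᵀ * mp σ M = 1) (hM : Mᵀ = ε • M) :
    ∃ (N₀ : Matrix (Fin n) (Fin n) F₀) (P : Matrix (Fin n) (Fin n) F) (c₀ : F),
      Dat σ j e M N₀ P c₀ ∧ N₀.det ≠ 0 ∧ (N₀ᵀ).map j = ε • N₀.map j := by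
  have hε0 : ε ≠ 0 := by
    rintro rfl
    rw [mul_zero] at hε
    exact zero_ne_one hε
  obtain ⟨c₀, hc₀⟩ := hN ε hε0 hεσ
  have hc00 : c₀ ≠ 0 := by
    rintro rfl
    rw [zero_mul] at hc₀
    exact hε0 hc₀.symm
  have hnrm : nrm σ (c₀ • M) 2 = 1 := by
    rw [nrm_succ, nrm_succ, nrm_zero, map_one, Matrix.mul_one, mp_smul, smul_mul_assoc,
      Matrix.mul_smul, smul_smul, hc₀, ← smul_mul_assoc, ← hM, hU]
  obtain ⟨P, hP, hgP⟩ := hilbert90 σ (c₀ • M) 2 (by norm_num) hord hnrm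
  rw [smul_mul_assoc] at hgP
  set N := Pᵀ * mp σ P with hNdef
  have h1 : mp σ N = Nᵀ := by
    rw [hNdef, map_mul, mp_mp σ hσ2, mp_transpose, transpose_mul, transpose_transpose]
  have h2 : N = ε • mp σ N := by
    have e1 : Pᵀ = (c₀ * ε) • ((mp σ P)ᵀ * M) := by
      conv_lhs => rw [← hgP]
      rw [transpose_smul, transpose_mul, hM, Matrix.mul_smul, smul_smul]
    have e2 : mp σ N = (mp σ P)ᵀ * P := by
      rw [hNdef, map_mul, mp_mp σ hσ2, mp_transpose]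
    have e3 : (mp σ P)ᵀ * P = c₀ • ((mp σ P)ᵀ * (M * mp σ P)) := by rw [← Matrix.mul_smul, hgP]
    rw [e2, e3, hNdef, e1, smul_mul_assoc, smul_smul, Matrix.mul_assoc, mul_comm]
  have h3 : mp σ N = ε • N := by
    conv_rhs => rw [h2]
    rw [smul_smul, hε, one_smul]
  have hfix : mp σ (e⁻¹ • N) = e⁻¹ • N := by
    rw [mp_smul, h3, map_inv₀, heσ, smul_smul]
    congr 1
    field_simp
  obtain ⟨N₀, hN₀⟩ := exists_map_j σ j hj _ hfix
  have hNe : N = e • N₀.map j := by rw [hN₀, smul_smul, mul_inv_cancel₀ he, one_smul]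
  refine ⟨N₀, P, c₀, ⟨hP, hc00, hgP, hNe⟩, ?_, ?_⟩
  · intro h0
    have hd : N.det ≠ 0 := by
      rw [hNdef, det_mul, det_transpose]
      exact mul_ne_zero hP (det_mp_ne σ hP)
    apply hd
    rw [hNe, det_smul, det_map_j, h0, map_zero, mul_zero]
  · rw [map_j_transpose, hN₀, transpose_smul, ← h1, h3, smul_comm]

theorem exists_M [Fintype F] {q : ℕ} (hF : Fintype.card F = q ^ 2) (σ : F ≃+* F)
    (hσq : ∀ x, σ x = x ^ q) (j : F₀ →+* F)
    (hj : ∀ x, σ x = x ↔ ∃ y, j y = x) (hσ2 : ∀ x, σ (σ x) = x)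
    (hN : ∀ x : F, x ≠ 0 → σ x = x → ∃ c : F, c * σ c = x)
    {ε e : F} (hε : ε * ε = 1) (hεσ : σ ε = ε) (he : e ≠ 0) (heσ : σ e = ε * e)
    (N₀ : Matrix (Fin n) (Fin n) F₀) (hd : N₀.det ≠ 0) (hN₀ : (N₀ᵀ).map j = ε • N₀.map j) :
    ∃ (M P : Matrix (Fin n) (Fin n) F) (c₀ : F),
      Dat σ j e M N₀ P c₀ ∧ Mᵀ * mp σ M = 1 ∧ Mᵀ = ε • M := by
  have hj' : ∀ y, σ (j y) = j y := fun y => (hj _).2 ⟨y, rfl⟩
  have hε0 : ε ≠ 0 := by
    rintro rfl
    rw [mul_zero] at hε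
    exact zero_ne_one hε
  obtain ⟨c₀, hc₀⟩ := hN ε hε0 hεσ
  have hc00 : c₀ ≠ 0 := by
    rintro rfl
    rw [zero_mul] at hc₀
    exact hε0 hc₀.symm
  set H := e • N₀.map j with hH
  have hHt : Hᵀ = ε • H := by
    rw [hH, transpose_smul, ← map_j_transpose, hN₀, smul_comm]
  have hHst : st σ H = H := by
    show (mp σ H)ᵀ = H
    rw [← mp_transpose, hHt, mp_smul, hH, mp_smul, mp_map σ j hj', hεσ, heσ, smul_smul, ← mul_assoc,
      hε, one_mul]
  have hHd : H.det ≠ 0 := by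
    rw [hH, det_smul, det_map_j]
    exact mul_ne_zero (pow_ne_zero _ he) (fun h0 => hd ((map_eq_zero j).1 h0))
  obtain ⟨h, hh, hHh⟩ := exists_herm_factor hF σ hσq H hHst hHd
  set P := hᵀ with hPdef
  have hP : P.det ≠ 0 := by rw [hPdef, det_transpose]; exact hh
  have hPH : Pᵀ * mp σ P = H := by
    rw [hHh, hPdef, transpose_transpose]
    rfl
  set K := mp σ P with hK
  have hKd : K.det ≠ 0 := det_mp_ne σ hP
  have hKu : IsUnit K.det := isUnit_iff_ne_zero.2 hKd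
  have hKP : mp σ K = P := mp_mp σ hσ2 P
  obtain ⟨M, hMK⟩ : ∃ M : Matrix (Fin n) (Fin n) F, M * K = c₀⁻¹ • P := ⟨c₀⁻¹ • (P * K⁻¹), by
    rw [smul_mul_assoc, Matrix.mul_assoc, Matrix.nonsing_inv_mul _ hKu, Matrix.mul_one]⟩
  have hMK' : c₀ • (M * K) = P := by
    rw [hMK, smul_smul, mul_inv_cancel₀ hc00, one_smul]
  have hA : Kᵀ * P = ε • H := by
    rw [← hHt, ← hPH, transpose_mul, transpose_transpose]
  have hKtd : (Kᵀ).det ≠ 0 := by rw [det_transpose]; exact hKd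
  refine ⟨M, P, c₀, ⟨hP, hc00, hMK', hPH⟩, ?_, ?_⟩
  · apply cancelL hKtd
    apply cancelR hP
    have e1 := gram_mul σ M K
    rw [hKP] at e1
    rw [← e1, hMK, mp_smul, transpose_smul, smul_mul_assoc, Matrix.mul_smul, smul_smul, ← hK, hPH,
      Matrix.mul_one, hA, map_inv₀, ← mul_inv, hc₀]
    congr 1
    exact inv_eq_of_mul_eq_one_left hε
  · apply cancelL hKtd
    apply cancelR hKd
    have e1 : c₀ • (Kᵀ * M * K) = ε • H := by
      rw [Matrix.mul_assoc, ← Matrix.mul_smul, hMK', hA]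
    have e2 : c₀ • (Kᵀ * Mᵀ * K) = ε • (c₀ • (Kᵀ * M * K)) := by
      rw [e1]
      have := congrArg Matrix.transpose e1
      rw [transpose_smul, transpose_mul, transpose_mul, transpose_transpose, transpose_smul, hHt,
        ← Matrix.mul_assoc] at this
      exact this
    have e3 : Kᵀ * Mᵀ * K = ε • (Kᵀ * M * K) := by
      have := congrArg (fun X => c₀⁻¹ • X) e2
      beta_reduce at this
      rwa [smul_smul, inv_mul_cancel₀ hc00, one_smul, smul_comm, smul_smul, smul_smul,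
        inv_mul_cancel_right₀ hc00] at this
    rw [e3, Matrix.mul_smul, smul_mul_assoc]

end Cfsg.Agent.Lib.Helper50.GI
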