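import Cfsg.Agent.Lib.Helper50.GIPSU3

set_option autoImplicit false
set_option linter.unusedSectionVars false

/-!
Descent for graph involutions of `PSU_n`: the backward direction with a prescribed scalar.
-/

namespace Cfsg.Agent.Lib.Helper50.GI

open Matrix MatrixGroups Cfsg.Agent.Lib.Helper99.AutPSU
open Cfsg.Agent.Lib.Helper47.AutPSU (ph ph_apply ph_ph exists_ph_ne)
open Cfsg.Agent.Lib.Helper18.AutPSL (mp mp_apply mp_eq_map mp_smul st st_apply hilbert90_one nrmS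
  nrmS_succ nrmS_zero)

section mat

variable {F : Type*} [Field F] {F₀ : Type*} [Field F₀] {n : ℕ}

theorem desc_bwd' (σ : F ≃+* F) (j : F₀ →+* F)
    (hj : ∀ x, σ x = x ↔ ∃ y, j y = x)
    {e : F} {M M' P P' : Matrix (Fin n) (Fin n) F} {N₀ N₀' : Matrix (Fin n) (Fin n) F₀} {c₀ c₀' : F}
    (hD : Dat σ j e M N₀ P c₀) (hD' : Dat σ j e M' N₀' P' c₀')
    (A : Matrix (Fin n) (Fin n) F₀) (ν : F₀) (c : F) (hc00 : c ≠ 0) (hc : c * σ c = j ν)
    (hAN : ν • (Aᵀ * N₀' * A) = N₀) :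
    ∃ h : Matrix (Fin n) (Fin n) F, hᵀ * mp σ h = 1 ∧
      h * P = c • (P' * A.map j) ∧ h * M * hᵀ = (c * c₀' / (c₀ * σ c)) • M' := by
  have hj' : ∀ y, σ (j y) = j y := fun y => (hj _).2 ⟨y, rfl⟩
  obtain ⟨hP, hc0, h1, h2⟩ := hD
  obtain ⟨hP', hc0', h1', h2'⟩ := hD'
  have hσc : σ c ≠ 0 := fun h0 => hc00 ((map_eq_zero σ).1 h0)
  have huP : IsUnit P.det := isUnit_iff_ne_zero.2 hP
  set h := (c • (P' * A.map j)) * P⁻¹ with hdef
  have hhP : h * P = c • (P' * A.map j) := by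
    rw [hdef, Matrix.mul_assoc, Matrix.nonsing_inv_mul _ huP, Matrix.mul_one]
  have hU : hᵀ * mp σ h = 1 := by
    apply cancelL (X := Pᵀ) (by rw [det_transpose]; exact hP)
    apply cancelR (det_mp_ne σ hP)
    rw [← gram_mul, hhP, gram_smul σ j hj', h2', Matrix.mul_one, h2,
      Matrix.mul_smul, smul_mul_assoc, smul_smul, mul_comm, ← smul_smul, hc, ← map_j_transpose,
      ← map_j_mul, ← map_j_mul, ← map_j_smul, hAN]
  have hU' : mp σ h * hᵀ = 1 := mul_eq_one_comm.1 hU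
  refine ⟨h, hU, hhP, ?_⟩
  have key : h * M = (c * c₀' / (c₀ * σ c)) • (M' * mp σ h) := by
    apply cancelR (det_mp_ne σ hP)
    have e1 : c₀ • (h * M * mp σ P) = c • (P' * A.map j) := by
      rw [Matrix.mul_assoc, ← Matrix.mul_smul, h1, hhP]
    have e2 : c₀' • (M' * mp σ h * mp σ P) = σ c • (P' * A.map j) := by
      rw [Matrix.mul_assoc, ← map_mul, hhP, mp_smul, map_mul, mp_map σ j hj', Matrix.mul_smul,
        smul_smul, mul_comm, ← smul_smul, ← Matrix.mul_assoc, ← smul_mul_assoc, h1']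
    have e3 : h * M * mp σ P = (c₀⁻¹ * c) • (P' * A.map j) := by
      rw [← smul_smul, ← e1, smul_smul, inv_mul_cancel₀ hc0, one_smul]
    have e4 : P' * A.map j = ((σ c)⁻¹ * c₀') • (M' * mp σ h * mp σ P) := by
      rw [← smul_smul, e2, smul_smul, inv_mul_cancel₀ hσc, one_smul]
    rw [e3, smul_mul_assoc]
    conv_lhs => rw [e4]
    rw [smul_smul]
    congr 1
    field_simp
  rw [key, smul_mul_assoc, Matrix.mul_assoc, hU', Matrix.mul_one]

end mat

variable {F : Type*} [Field F] [Fintype F] {q n : ℕ} {F₀ : Type*} [Field F₀]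

/-- every element of norm one is a multiplier, if all scalars are multipliers of `N₀` -/
theorem exists_mult (hF : Fintype.card F = q ^ 2) (j : F₀ →+* F)
    (hj : ∀ x : F, x ^ q = x ↔ ∃ y, j y = x) {e : F} {M : ↥(Cfsg.GU n F q)}
    {N₀ : Matrix (Fin n) (Fin n) F₀} (hD : DatE hF j e M N₀)
    (hsim : ∀ ν : F₀, ν ≠ 0 → ∃ A : Matrix (Fin n) (Fin n) F₀, ν • (Aᵀ * N₀ * A) = N₀)
    (u : F) (hu : u ^ (q + 1) = 1) :
    ∃ h : ↥(Cfsg.GU n F q), mG h * mG M * (mG h)ᵀ = u • mG M := by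
  obtain ⟨P, c₀, hD⟩ := hD
  obtain ⟨c, hc0, hc⟩ := hilbert90_one (ph hF) u 2 (by norm_num) (orderOf_ph hF) (by
    rw [nrmS_succ, nrmS_succ, nrmS_zero, map_one, mul_one, ph_apply, ← pow_succ', hu])
  have hσc : ph hF c ≠ 0 := fun h0 => hc0 ((map_eq_zero _).1 h0)
  obtain ⟨ν, hν⟩ : ∃ ν, j ν = c * ph hF c := (hj _).1 (by
    have : (c * ph hF c) ^ q = ph hF (c * ph hF c) := rfl
    rw [this, map_mul, ph_ph, mul_comm])
  have hν0 : ν ≠ 0 := by
    rintro rfl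
    rw [map_zero] at hν
    exact mul_ne_zero hc0 hσc hν.symm
  obtain ⟨A, hA⟩ := hsim ν hν0
  obtain ⟨h, hU, -, h2⟩ := desc_bwd' (ph hF) j hj hD hD A ν c hc0 hν.symm hA
  refine ⟨mkU hF h hU, ?_⟩
  rw [mkU_val, h2]
  congr 1
  have hc00 := hD.2.1
  field_simp
  rw [mul_comm]
  exact hc.symm

/-- isometries of `N₀` lift with their determinants -/
theorem exists_lift_isom (hF : Fintype.card F = q ^ 2) (j : F₀ →+* F)
    (hj : ∀ x : F, x ^ q = x ↔ ∃ y, j y = x) {e : F} {M : ↥(Cfsg.GU n F q)}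
    {N₀ : Matrix (Fin n) (Fin n) F₀} (hD : DatE hF j e M N₀)
    (A : Matrix (Fin n) (Fin n) F₀) (hA : Aᵀ * N₀ * A = N₀) :
    ∃ h : ↥(Cfsg.GU n F q), mG h * mG M * (mG h)ᵀ = (1 : F) • mG M ∧ (mG h).det = j A.det := by
  obtain ⟨P, c₀, hD⟩ := hD
  obtain ⟨h, hU, h1, h2⟩ := desc_bwd' (ph hF) j hj hD hD A 1 1 one_ne_zero
    (by rw [map_one, map_one, mul_one]) (by rw [one_smul, hA])
  refine ⟨mkU hF h hU, ?_, ?_⟩
  · rw [mkU_val, h2]
    congr 1
    have hc00 := hD.2.1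
    rw [map_one]
    field_simp
  · rw [mkU_val]
    have h3 := congrArg Matrix.det h1
    rw [one_smul, det_mul, det_mul, det_map_j] at h3
    apply mul_right_cancel₀ hD.1
    rw [h3, mul_comm]

end Cfsg.Agent.Lib.Helper50.GI
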