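import Mathlib

set_option autoImplicit false

/-! Squares in finite fields of odd order. -/

namespace Cfsg.Agent.Lib.Helper50.GI

variable {F : Type*} [Field F] [Fintype F]

theorem ringChar_ne_two_of_odd (hodd : Odd (Fintype.card F)) : ringChar F ≠ 2 := by
  intro hc
  have h1 := FiniteField.even_card_iff_char_two.1 hc
  rcases hodd with ⟨k, hk⟩
  omega

theorem two_ne_zero_of_odd (hodd : Odd (Fintype.card F)) : (2 : F) ≠ 0 :=
  Ring.two_ne_zero (ringChar_ne_two_of_odd hodd)

theorem exists_nonsquare_of_odd (hodd : Odd (Fintype.card F)) : ∃ α : F, ¬ IsSquare α :=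
  FiniteField.exists_nonsquare (ringChar_ne_two_of_odd hodd)

theorem ne_zero_of_not_isSquare {α : F} (hα : ¬ IsSquare α) : α ≠ 0 := by
  rintro rfl
  exact hα ⟨0, by simp⟩

/-- every non-zero element is a square or a fixed non-square times a square -/
theorem sq_or_nonsq (hodd : Odd (Fintype.card F)) {α : F} (hα : ¬ IsSquare α) {x : F} (hx : x ≠ 0) :
    (∃ s : F, s ≠ 0 ∧ x = s ^ 2) ∨ (∃ s : F, s ≠ 0 ∧ x = α * s ^ 2) := by
  have hF2 := ringChar_ne_two_of_odd hodd
  have hα0 := ne_zero_of_not_isSquare hα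
  by_cases hsq : IsSquare x
  · obtain ⟨s, hs⟩ := hsq
    left
    refine ⟨s, ?_, by rw [hs, sq]⟩
    rintro rfl
    rw [mul_zero] at hs
    exact hx hs
  · right
    have h4 : x ^ (Fintype.card F / 2) = -1 := by
      rcases FiniteField.pow_dichotomy hF2 hx with h | h
      · exact absurd ((FiniteField.isSquare_iff hF2 hx).2 h) hsq
      · exact h
    have h5 : α ^ (Fintype.card F / 2) = -1 := by
      rcases FiniteField.pow_dichotomy hF2 hα0 with h | h
      · exact absurd ((FiniteField.isSquare_iff hF2 hα0).2 h) hα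
      · exact h
    have h3 : IsSquare (x * α) := by
      rw [FiniteField.isSquare_iff hF2 (mul_ne_zero hx hα0), mul_pow, h4, h5]
      ring
    obtain ⟨s, hs⟩ := h3
    refine ⟨s / α, ?_, ?_⟩
    · apply div_ne_zero _ hα0
      rintro rfl
      rw [mul_zero] at hs
      exact (mul_ne_zero hx hα0) hs
    · have : x = (s * s) / α := by
        rw [← hs]
        field_simp
      rw [this]
      field_simp

theorem aniso_of_nonsquare {α : F} (hα : ¬ IsSquare α) (z₁ z₂ : F)
    (hz : z₁ ^ 2 + 0 * z₁ * z₂ + (-α) * z₂ ^ 2 = 0) : z₁ = 0 ∧ z₂ = 0 := by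
  have hz2 : z₂ = 0 := by
    by_contra hne
    apply hα
    refine ⟨z₁ / z₂, ?_⟩
    field_simp
    linear_combination -hz
  subst hz2
  refine ⟨?_, rfl⟩
  have : z₁ ^ 2 = 0 := by linear_combination hz
  exact pow_eq_zero_iff (two_ne_zero) |>.1 this

end Cfsg.Agent.Lib.Helper50.GI
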