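import Cfsg.Agent.Lib.Helper50.GIForms
import Cfsg.Agent.Lib.Helper17.Symp
import Cfsg.Agent.S0245
import Cfsg.Agent.S0287
import Cfsg.Agent.S0288

set_option autoImplicit false
set_option linter.unusedSectionVars false

/-!
`PGSp_{2m}(q)` is not isomorphic to `PGO^±_{2m}(q)` for `q` odd: compare the `p`-parts of the orders.
-/

namespace Cfsg.Agent.Lib.Helper50.GI

open Matrix MatrixGroups

section abs

theorem card_eq_mul_coprime {G : Type*} [Group G] [Finite G] (H I : Subgroup G) (hIH : I ≤ H)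
    (hnorm : ∀ h ∈ H, ∀ x ∈ I, h * x * h⁻¹ ∈ I) (p k : ℕ) [Fact p.Prime] (hk : ¬ p ∣ k)
    (hexp : ∀ h ∈ H, h ^ k ∈ I) : ∃ b, ¬ p ∣ b ∧ Nat.card H = Nat.card I * b := by
  have hN : (I.subgroupOf H).Normal := by
    constructor
    intro x hx h
    exact hnorm h.1 h.2 x.1 hx
  refine ⟨(I.subgroupOf H).index, ?_, ?_⟩
  · intro hp
    rw [Subgroup.index_eq_card] at hp
    obtain ⟨x, hx⟩ := exists_prime_orderOf_dvd_card' p hp
    obtain ⟨h, rfl⟩ := QuotientGroup.mk_surjective x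
    apply hk
    rw [← hx]
    apply orderOf_dvd_of_pow_eq_one
    rw [← QuotientGroup.mk_pow, QuotientGroup.eq_one_iff]
    exact hexp h.1 h.2
  · rw [← Subgroup.card_mul_index (I.subgroupOf H),
      Nat.card_congr (Subgroup.subgroupOfEquivOfLe hIH).toEquiv]

variable {K : Type*} [Field K] [Fintype K]

/-- similitudes versus isometries of a function `Φ` on a set with an action -/
theorem sim_card {G : Type*} [Group G] [Finite G] {X : Type*} (act : G → X → X)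
    (h1 : ∀ x, act 1 x = x) (hmul : ∀ g h x, act (g * h) x = act g (act h x)) (Φ : X → K)
    (H I : Subgroup G) (hH : ∀ g, g ∈ H ↔ ∃ c : Kˣ, ∀ x, Φ (act g x) = (c : K) * Φ x)
    (hI : ∀ g, g ∈ I ↔ ∀ x, Φ (act g x) = Φ x) (p : ℕ) [Fact p.Prime]
    (hp : p ∣ Fintype.card K) : ∃ b, ¬ p ∣ b ∧ Nat.card H = Nat.card I * b := by
  have hp1 : ¬ p ∣ Fintype.card K - 1 := by
    intro h
    have h0 : 0 < Fintype.card K := Fintype.card_pos
    have := (Nat.dvd_sub_iff_right (by omega) hp).1 h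
    exact (Fact.out : p.Prime).one_lt.ne' (Nat.dvd_one.1 this)
  apply card_eq_mul_coprime H I _ _ p (Fintype.card K - 1) hp1
  · intro g hg
    obtain ⟨c, hc⟩ := (hH g).1 hg
    have hpow : ∀ k : ℕ, ∀ x, Φ (act (g ^ k) x) = (c : K) ^ k * Φ x := by
      intro k
      induction k with
      | zero => intro x; rw [pow_zero, h1, pow_zero, one_mul]
      | succ k ih => intro x; rw [pow_succ', hmul, hc, ih, pow_succ']; ring
    rw [hI]
    intro x
    rw [hpow, FiniteField.pow_card_sub_one_eq_one _ c.ne_zero, one_mul]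
  · intro g hg
    exact (hH g).2 ⟨1, fun x => by rw [(hI g).1 hg, Units.val_one, one_mul]⟩
  · intro h hh x hx
    obtain ⟨c, hc⟩ := (hH h).1 hh
    rw [hI]
    intro y
    rw [hmul, hmul, hc, (hI x).1 hx, ← hc, ← hmul, mul_inv_cancel, h1]

theorem not_dvd_card_scalars {ι : Type} [Fintype ι] [DecidableEq ι] (H : Subgroup (GL ι K)) (p : ℕ)
    [Fact p.Prime] (hp : p ∣ Fintype.card K) :
    ¬ p ∣ Nat.card ((Cfsg.Geo.scalars ι K).subgroupOf H) := by
  intro h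
  have hp1 : ¬ p ∣ Fintype.card K - 1 := by
    intro h
    have h0 : 0 < Fintype.card K := Fintype.card_pos
    have := (Nat.dvd_sub_iff_right (by omega) hp).1 h
    exact (Fact.out : p.Prime).one_lt.ne' (Nat.dvd_one.1 this)
  obtain ⟨x, hx⟩ := exists_prime_orderOf_dvd_card' p h
  apply hp1
  rw [← hx]
  apply orderOf_dvd_of_pow_eq_one
  obtain ⟨c, hc⟩ := (Cfsg.Geo.mem_scalars_iff _).1 x.2
  apply Subtype.ext
  apply Subtype.ext
  apply Units.ext
  show ((x.1.1 ^ (Fintype.card K - 1) : GL ι K)).1 = 1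
  have hc' : x.1.1.1 = (c : K) • (1 : Matrix ι ι K) := hc
  rw [Units.val_pow_eq_pow_val, hc', smul_pow, one_pow,
    FiniteField.pow_card_sub_one_eq_one _ c.ne_zero, one_smul]

theorem card_projQuot {ι : Type} [Fintype ι] [DecidableEq ι] (H : Subgroup (GL ι K)) :
    Nat.card (Cfsg.projQuot H) * Nat.card ((Cfsg.Geo.scalars ι K).subgroupOf H) = Nat.card H :=
  (Subgroup.card_eq_card_quotient_mul_card_subgroup _).symm

end abs

variable {K : Type*} [Field K] [Fintype K]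

theorem card_spGL (m : ℕ) :
    Nat.card (Cfsg.spGL m K) = Nat.card (Matrix.symplecticGroup (Fin m) K) := by
  let f : ↥(Matrix.symplecticGroup (Fin m) K) →* GL (Fin m ⊕ Fin m) K :=
    (Units.map (Matrix.symplecticGroup (Fin m) K).subtype).comp
      (toUnits (G := ↥(Matrix.symplecticGroup (Fin m) K))).toMonoidHom
  have hf : ∀ x, (f x).1 = x.1 := fun x => rfl
  symm
  apply Nat.card_congr
  refine Equiv.ofBijective (fun x => ⟨f x, ?_⟩) ⟨?_, ?_⟩
  · intro u v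
    exact ((Cfsg.Agent.Lib.Helper17.mem_symplecticGroup_iff_sympForm m).1 x.2) u v
  · intro x y h
    apply Subtype.ext
    have := congrArg (fun z : ↥(Cfsg.spGL m K) => z.1.1) h
    exact this
  · intro g
    refine ⟨⟨g.1.1, (Cfsg.Agent.Lib.Helper17.mem_symplecticGroup_iff_sympForm m).2 g.2⟩, ?_⟩
    apply Subtype.ext
    apply Units.ext
    rfl

theorem card_pgsp (p : ℕ) [Fact p.Prime] (hp : p ∣ Fintype.card K) (m : ℕ) :
    ∃ z b, ¬ p ∣ z ∧ ¬ p ∣ b ∧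
      Nat.card (Cfsg.PGSp m K) * z = Nat.card (Matrix.symplecticGroup (Fin m) K) * b := by
  obtain ⟨b, hb, h⟩ := sim_card (K := K) (G := GL (Fin m ⊕ Fin m) K)
    (X := (Fin m ⊕ Fin m → K) × (Fin m ⊕ Fin m → K))
    (fun g x => (g.1 *ᵥ x.1, g.1 *ᵥ x.2)) (by intro x; simp)
    (by intro g h x; simp [Matrix.mulVec_mulVec])
    (fun x => Cfsg.sympForm m K x.1 x.2) (Cfsg.GSp m K) (Cfsg.spGL m K)
    (by
      intro g
      constructor
      · rintro ⟨c, hc⟩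
        exact ⟨c, fun x => hc x.1 x.2⟩
      · rintro ⟨c, hc⟩
        exact ⟨c, fun u v => hc (u, v)⟩)
    (by
      intro g
      constructor
      · intro hg x
        exact hg x.1 x.2
      · intro hg u v
        exact hg (u, v)) p hp
  refine ⟨_, b, not_dvd_card_scalars (Cfsg.GSp m K) p hp, hb, ?_⟩
  rw [card_projQuot, h, card_spGL]

theorem card_pgo {ι : Type} [Fintype ι] [DecidableEq ι] (Q : (ι → K) → K) (p : ℕ) [Fact p.Prime]
    (hp : p ∣ Fintype.card K) :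
    ∃ z b, ¬ p ∣ z ∧ ¬ p ∣ b ∧
      Nat.card (Cfsg.PGO K Q) * z = Nat.card (Cfsg.isometryGroup K Q) * b := by
  obtain ⟨b, hb, h⟩ := sim_card (K := K) (G := GL ι K) (X := ι → K)
    (fun g x => g.1 *ᵥ x) (by intro x; simp)
    (by intro g h x; simp [Matrix.mulVec_mulVec])
    Q (Cfsg.Geo.quadSimilarityGroup Q) (Cfsg.isometryGroup K Q)
    (by intro g; rfl)
    (by
      intro g
      constructor
      · intro hg x
        exact hg x x
      · intro hg u _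
        exact hg u) p hp
  refine ⟨_, b, not_dvd_card_scalars (Cfsg.Geo.quadSimilarityGroup Q) p hp, hb, ?_⟩
  rw [card_projQuot, h]

theorem not_dvd_pow_sub_one {p q : ℕ} (hp : p.Prime) (hq : p ∣ q) (hq0 : 0 < q) (k : ℕ)
    (hk : 0 < k) : ¬ p ∣ q ^ k - 1 := by
  intro h
  have h1 : 1 ≤ q ^ k := Nat.one_le_pow _ _ hq0
  have h2 : p ∣ q ^ k := dvd_pow hq hk.ne'
  have := (Nat.dvd_sub_iff_right h1 h2).1 h
  exact hp.one_lt.ne' (Nat.dvd_one.1 this)

theorem not_dvd_prod {p q : ℕ} (hp : p.Prime) (hq : p ∣ q) (hq0 : 0 < q) (r : ℕ) :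
    ¬ p ∣ ∏ i ∈ Finset.range r, (q ^ (2 * (i + 1)) - 1) := by
  intro h
  obtain ⟨i, -, hi⟩ := (Prime.dvd_finsetProd_iff hp.prime _).1 h
  exact not_dvd_pow_sub_one hp hq hq0 _ (by omega) hi

/-- the arithmetic core -/
theorem arith_core {p q m X z₁ z₂ A B : ℕ} (hp : p.Prime) (hq : p ∣ q) (hq0 : 0 < q) (hm : 1 ≤ m)
    (hz₁ : ¬ p ∣ z₁) (hB : ¬ p ∣ B)
    (h₁ : X * z₁ = q ^ (m ^ 2) * A) (h₂ : X * z₂ = q ^ (m * (m - 1)) * B) : False := by
  have e : m ^ 2 = m * (m - 1) + m := by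
    obtain ⟨k, rfl⟩ : ∃ k, m = k + 1 := ⟨m - 1, by omega⟩
    simp only [Nat.add_sub_cancel]
    ring
  have h3 : q ^ (m * (m - 1)) * (q ^ m * (A * z₂)) = q ^ (m * (m - 1)) * (B * z₁) := by
    calc q ^ (m * (m - 1)) * (q ^ m * (A * z₂)) = (q ^ (m ^ 2) * A) * z₂ := by rw [e, pow_add]; ring
      _ = (X * z₂) * z₁ := by rw [← h₁]; ring
      _ = q ^ (m * (m - 1)) * (B * z₁) := by rw [h₂]; ring
  have h4 := Nat.eq_of_mul_eq_mul_left (pow_pos hq0 _) h3
  have h5 : p ∣ B * z₁ := by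
    rw [← h4]
    exact Dvd.dvd.mul_right (dvd_pow hq (by omega)) _
  rcases hp.dvd_mul.1 h5 with h | h
  · exact hB h
  · exact hz₁ h

theorem exists_char_prime (h2 : (2 : K) ≠ 0) :
    ∃ p : ℕ, p.Prime ∧ p ∣ Fintype.card K ∧ p ≠ 2 := by
  obtain ⟨p, hchar⟩ := CharP.exists K
  have hp : p.Prime := CharP.char_is_prime K p
  refine ⟨p, hp, ?_, ?_⟩
  · rw [← CharP.cast_eq_zero_iff K p]
    exact Nat.cast_card_eq_zero K
  · rintro rfl
    exact h2 (CharP.cast_eq_zero K 2)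

theorem not_iso_plus (h2 : (2 : K) ≠ 0) {m : ℕ} (hm : 2 ≤ m) :
    ¬ Nonempty (Cfsg.PGO K (Cfsg.quadFormPlus m K) ≃* Cfsg.PGSp m K) := by
  rintro ⟨e⟩
  obtain ⟨p, hp, hpq, hp2⟩ := exists_char_prime h2
  have : Fact p.Prime := ⟨hp⟩
  obtain ⟨z₁, b₁, hz₁, hb₁, h₁⟩ := card_pgsp (K := K) p hpq m
  obtain ⟨z₂, b₂, hz₂, hb₂, h₂⟩ := card_pgo (Cfsg.quadFormPlus m K) p hpq
  rw [Cfsg.Agent.S0245.result rfl m] at h₁
  rw [Cfsg.Agent.S0287.result rfl m (by omega), Nat.card_congr e.toEquiv] at h₂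
  refine arith_core hp hpq Fintype.card_pos (by omega : 1 ≤ m) hz₁ (B := 2 * (Fintype.card K ^ m - 1) *
    (∏ i ∈ Finset.range (m - 1), (Fintype.card K ^ (2 * (i + 1)) - 1)) * b₂) ?_
    (by rw [h₁, mul_assoc]) (by rw [h₂]; ring)
  intro h
  rcases hp.dvd_mul.1 h with h | h
  · rcases hp.dvd_mul.1 h with h | h
    · rcases hp.dvd_mul.1 h with h | h
      · exact hp2 ((Nat.prime_dvd_prime_iff_eq hp Nat.prime_two).1 h)
      · exact not_dvd_pow_sub_one hp hpq Fintype.card_pos m (by omega) h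
    · exact not_dvd_prod hp hpq Fintype.card_pos _ h
  · exact hb₂ h

theorem not_iso_minus (h2 : (2 : K) ≠ 0) {m : ℕ} (hm : 2 ≤ m) (a b : K)
    (hab : ∀ z₁ z₂ : K, z₁ ^ 2 + a * z₁ * z₂ + b * z₂ ^ 2 = 0 → z₁ = 0 ∧ z₂ = 0) :
    ¬ Nonempty (Cfsg.PGO K (Cfsg.quadFormMinus (m - 1) K a b) ≃* Cfsg.PGSp m K) := by
  rintro ⟨e⟩
  obtain ⟨p, hp, hpq, hp2⟩ := exists_char_prime h2
  have : Fact p.Prime := ⟨hp⟩
  obtain ⟨z₁, b₁, hz₁, hb₁, h₁⟩ := card_pgsp (K := K) p hpq m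
  obtain ⟨z₂, b₂, hz₂, hb₂, h₂⟩ := card_pgo (Cfsg.quadFormMinus (m - 1) K a b) p hpq
  rw [Cfsg.Agent.S0245.result rfl m] at h₁
  rw [Cfsg.Agent.S0288.result rfl m (by omega) a b hab, Nat.card_congr e.toEquiv] at h₂
  refine arith_core hp hpq Fintype.card_pos (by omega : 1 ≤ m) hz₁ (B := 2 * (Fintype.card K ^ m + 1) *
    (∏ i ∈ Finset.range (m - 1), (Fintype.card K ^ (2 * (i + 1)) - 1)) * b₂) ?_
    (by rw [h₁, mul_assoc]) (by rw [h₂]; ring)
  intro h
  rcases hp.dvd_mul.1 h with h | h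
  · rcases hp.dvd_mul.1 h with h | h
    · rcases hp.dvd_mul.1 h with h | h
      · exact hp2 ((Nat.prime_dvd_prime_iff_eq hp Nat.prime_two).1 h)
      · have h3 : p ∣ Fintype.card K ^ m := dvd_pow hpq (by omega)
        have := (Nat.dvd_add_right h3).1 h
        exact hp.one_lt.ne' (Nat.dvd_one.1 this)
    · exact not_dvd_prod hp hpq Fintype.card_pos _ h
  · exact hb₂ h

end Cfsg.Agent.Lib.Helper50.GI
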