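import Cfsg.Agent.Lib.Helper50.GIReps
import Cfsg.Agent.Lib.Helper18.SymmClass

set_option autoImplicit false

/-!
Graph involutions: symmetric forms in odd characteristic (rungs CS, PLUS, MINUS, ODD).
-/

namespace Cfsg.Agent.Lib.Helper50.GI

open Matrix MatrixGroups Cfsg.Agent.Lib.Helper18

variable {K : Type*} [Field K]

theorem toBilin'_eq_bf {ι : Type} [Fintype ι] [DecidableEq ι] (N : Matrix ι ι K) (u v : ι → K) :
    Matrix.toBilin' N u v = bf N u v := Matrix.toBilin'_apply' N u v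

/-- an isometry of matrix forms gives a congruence -/
theorem congr_of_isometry {n : ℕ} (N N' : Matrix (Fin n) (Fin n) K)
    (φ : (Fin n → K) ≃ₗ[K] (Fin n → K)) (h : ∀ u v, bf N (φ u) (φ v) = bf N' u v) :
    ∃ P : GL (Fin n) K, N' = P.1 * N * P.1ᵀ := by
  refine ⟨⟨(LinearMap.toMatrix' (φ : (Fin n → K) →ₗ[K] (Fin n → K)))ᵀ,
    (LinearMap.toMatrix' (φ.symm : (Fin n → K) →ₗ[K] (Fin n → K)))ᵀ, ?_, ?_⟩, ?_⟩
  · rw [← transpose_mul, toMatrix'_symm_mul, transpose_one]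
  · rw [← transpose_mul, toMatrix'_mul_symm, transpose_one]
  · apply bf_ext
    intro u v
    show _ = bf ((LinearMap.toMatrix' (φ : (Fin n → K) →ₗ[K] (Fin n → K)))ᵀ * N *
      ((LinearMap.toMatrix' (φ : (Fin n → K) →ₗ[K] (Fin n → K)))ᵀ)ᵀ) u v
    rw [transpose_transpose, ← bf_mulVec, LinearMap.toMatrix'_mulVec, LinearMap.toMatrix'_mulVec,
      ← h]
    rfl

variable [Fintype K]

/-- symmetric matrices of the same size and discriminant class give isometric forms -/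
theorem exists_isometry_symm (h2 : (2 : K) ≠ 0) {ι κ : Type} [Fintype ι] [DecidableEq ι] [Fintype κ]
    [DecidableEq κ] (hc : Fintype.card ι = Fintype.card κ) (N : Matrix ι ι K) (N' : Matrix κ κ K)
    (hN : Nᵀ = N) (hN' : N'ᵀ = N') (hd : N.det ≠ 0) (s : K) (hs : s ≠ 0)
    (hdet : N'.det = N.det * s ^ 2) :
    ∃ φ : (ι → K) ≃ₗ[K] (κ → K), ∀ u v, bf N' (φ u) (φ v) = bf N u v := by
  rcases Nat.eq_zero_or_pos (Fintype.card ι) with h0 | h0
  · have : IsEmpty ι := Fintype.card_eq_zero_iff.1 h0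
    have : IsEmpty κ := Fintype.card_eq_zero_iff.1 (hc ▸ h0)
    refine ⟨LinearEquiv.ofFinrankEq _ _ (by simp [hc]), fun u v => ?_⟩
    simp [bf, dotProduct]
  obtain ⟨k, hk⟩ : ∃ k, Fintype.card ι = k + 1 := ⟨Fintype.card ι - 1, by omega⟩
  have hd' : N'.det ≠ 0 := by rw [hdet]; exact mul_ne_zero hd (pow_ne_zero _ hs)
  obtain ⟨φ, hφ⟩ := exists_isometry_of_hasDisc h2 (Matrix.toBilin' N) (Matrix.toBilin' N')
    (Matrix.isSymm_toBilin'_iff_isSymm.2 hN) (Matrix.isSymm_toBilin'_iff_isSymm.2 hN')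
    (LinearMap.BilinForm.nondegenerate_toBilin'_of_det_ne_zero' N hd)
    (LinearMap.BilinForm.nondegenerate_toBilin'_of_det_ne_zero' N' hd')
    (n := k) (by rw [Module.finrank_fintype_fun_eq_card, hk])
    (by rw [Module.finrank_fintype_fun_eq_card, ← hc, hk]) (δ := N.det)
    (hasDisc_of_basis _ (Pi.basisFun K ι) (s := 1) one_ne_zero (by
      rw [LinearMap.BilinForm.toMatrix_basisFun, LinearMap.BilinForm.toMatrix'_toBilin']; ring))
    (hasDisc_of_basis _ (Pi.basisFun K κ) (s := s) hs (by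
      rw [LinearMap.BilinForm.toMatrix_basisFun, LinearMap.BilinForm.toMatrix'_toBilin', hdet]))
  refine ⟨φ, fun u v => ?_⟩
  rw [← toBilin'_eq_bf, ← toBilin'_eq_bf, hφ]

/-- RUNG CS -/
theorem congr_symm (h2 : (2 : K) ≠ 0) {n : ℕ} (N N' : Matrix (Fin n) (Fin n) K) (hN : Nᵀ = N)
    (hN' : N'ᵀ = N') (hd : N.det ≠ 0) (s : K) (hs : s ≠ 0) (hdet : N'.det = N.det * s ^ 2) :
    ∃ P : GL (Fin n) K, N' = P.1 * N * P.1ᵀ := by
  have hd' : N'.det ≠ 0 := by rw [hdet]; exact mul_ne_zero hd (pow_ne_zero _ hs)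
  obtain ⟨φ, hφ⟩ := exists_isometry_symm h2 rfl N' N hN' hN hd' s⁻¹ (inv_ne_zero hs) (by
    rw [hdet]
    field_simp)
  exact congr_of_isometry N N' φ hφ

/-- half the hyperbolic Gram matrix -/
def Hm (K : Type*) [Field K] (m : ℕ) : Matrix (Fin m ⊕ Fin m) (Fin m ⊕ Fin m) K :=
  (2⁻¹ : K) • fromBlocks (0 : Matrix (Fin m) (Fin m) K) 1 1 0

omit [Fintype K] in
theorem Hm_transpose (m : ℕ) : (Hm K m)ᵀ = Hm K m := by
  unfold Hm
  rw [transpose_smul, fromBlocks_transpose]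
  simp

omit [Fintype K] in
theorem Hm_det (m : ℕ) : (Hm K m).det = (-1) ^ m * ((2⁻¹ : K) ^ m) ^ 2 := by
  unfold Hm
  rw [det_smul, det_swapBlocks, Fintype.card_sum, Fintype.card_fin]
  ring

omit [Fintype K] in
theorem bf_Hm (h2 : (2 : K) ≠ 0) (m : ℕ) (v : Fin m ⊕ Fin m → K) :
    bf (Hm K m) v v = ∑ i : Fin m, v (.inl i) * v (.inr i) := by
  unfold Hm
  rw [bf_smul]
  unfold bf
  rw [fromBlocks_mulVec, dotProduct, Fintype.sum_sum_type]
  simp only [Sum.elim_inl, Sum.elim_inr, zero_mulVec, one_mulVec, zero_add, add_zero,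
    Function.comp_apply]
  have : ∑ x : Fin m, v (.inr x) * v (.inl x) = ∑ x : Fin m, v (.inl x) * v (.inr x) :=
    Finset.sum_congr rfl fun i _ => mul_comm _ _
  rw [this, ← two_mul, inv_mul_cancel_left₀ h2]

omit [Fintype K] in
theorem bf_fromBlocks {ι κ : Type} [Fintype ι] [DecidableEq ι] [Fintype κ] [DecidableEq κ]
    (A : Matrix ι ι K) (D : Matrix κ κ K) (v : ι ⊕ κ → K) :
    bf (fromBlocks A 0 0 D) v v = bf A (v ∘ Sum.inl) (v ∘ Sum.inl) + bf D (v ∘ Sum.inr) (v ∘ Sum.inr) := by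
  unfold bf
  rw [fromBlocks_mulVec, dotProduct, Fintype.sum_sum_type]
  simp only [Sum.elim_inl, Sum.elim_inr, zero_mulVec, zero_add, add_zero]
  rfl

/-- RUNG PLUS -/
theorem simB_plus (h2 : (2 : K) ≠ 0) {m : ℕ} (N : Matrix (Fin (2 * m)) (Fin (2 * m)) K)
    (hN : Nᵀ = N) (s : K) (hs : s ≠ 0) (hdet : N.det = (-1) ^ m * s ^ 2) :
    Nonempty (Cfsg.projQuot (simB N) ≃* Cfsg.PGO K (Cfsg.quadFormPlus m K)) := by
  have hs1 : ((-1 : K)) ^ m ≠ 0 := pow_ne_zero _ (neg_ne_zero.2 one_ne_zero)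
  have hd : N.det ≠ 0 := by rw [hdet]; exact mul_ne_zero hs1 (pow_ne_zero _ hs)
  obtain ⟨φ, hφ⟩ := exists_isometry_symm h2 (by simp [two_mul]) N (Hm K m) hN (Hm_transpose m) hd
    ((2⁻¹ : K) ^ m / s) (div_ne_zero (pow_ne_zero _ (inv_ne_zero h2)) hs) (by
      rw [Hm_det, hdet]
      field_simp)
  apply simB_equiv_quad h2 N hN _ φ 1 one_ne_zero
  intro v
  rw [one_mul, ← hφ, bf_Hm h2]
  rfl

/-- RUNG MINUS -/
theorem simB_minus (h2 : (2 : K) ≠ 0) {m : ℕ} (hm : 1 ≤ m) (N : Matrix (Fin (2 * m)) (Fin (2 * m)) K)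
    (hN : Nᵀ = N) (α s : K) (hα : ¬ IsSquare α) (hs : s ≠ 0) (hdet : N.det = (-1) ^ m * α * s ^ 2) :
    Nonempty (Cfsg.projQuot (simB N) ≃* Cfsg.PGO K (Cfsg.quadFormMinus (m - 1) K 0 (-α))) := by
  obtain ⟨k, rfl⟩ : ∃ k, m = k + 1 := ⟨m - 1, by omega⟩
  rw [Nat.add_sub_cancel]
  have hα0 : α ≠ 0 := by
    rintro rfl
    exact hα ⟨0, by simp⟩
  have hs1 : ((-1 : K)) ^ (k + 1) ≠ 0 := pow_ne_zero _ (neg_ne_zero.2 one_ne_zero)
  have hd : N.det ≠ 0 := by rw [hdet]; exact mul_ne_zero (mul_ne_zero hs1 hα0) (pow_ne_zero _ hs)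
  let G : Matrix ((Fin k ⊕ Fin k) ⊕ Fin 2) ((Fin k ⊕ Fin k) ⊕ Fin 2) K :=
    fromBlocks (Hm K k) 0 0 (diagonal ![1, -α])
  have hGT : Gᵀ = G := by
    show (fromBlocks (Hm K k) 0 0 (diagonal ![1, -α]))ᵀ = _
    rw [fromBlocks_transpose, Hm_transpose, diagonal_transpose]
    simp
    rfl
  have hGd : G.det = (-1) ^ (k + 1) * α * ((2⁻¹ : K) ^ k) ^ 2 := by
    show (fromBlocks (Hm K k) 0 0 (diagonal ![1, -α])).det = _
    rw [det_fromBlocks_zero₂₁, Hm_det, det_diagonal, Fin.prod_univ_two]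
    simp only [cons_val_zero, cons_val_one]
    ring
  obtain ⟨φ, hφ⟩ := exists_isometry_symm h2 (by simp; omega) N G hN hGT hd
    ((2⁻¹ : K) ^ k / s) (div_ne_zero (pow_ne_zero _ (inv_ne_zero h2)) hs) (by
      rw [hGd, hdet]
      field_simp)
  apply simB_equiv_quad h2 N hN _ φ 1 one_ne_zero
  intro v
  rw [one_mul, ← hφ]
  show _ = bf (fromBlocks (Hm K k) 0 0 (diagonal ![1, -α])) (φ v) (φ v)
  rw [bf_fromBlocks, bf_Hm h2]
  unfold Cfsg.quadFormMinus bf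
  rw [dotProduct, Fin.sum_univ_two, mulVec_diagonal, mulVec_diagonal]
  simp only [Function.comp_apply, cons_val_zero, cons_val_one]
  ring

/-- RUNG ODD -/
theorem simB_odd (h2 : (2 : K) ≠ 0) {m : ℕ} (N : Matrix (Fin (2 * m + 1)) (Fin (2 * m + 1)) K)
    (hN : Nᵀ = N) (hd : N.det ≠ 0) :
    Nonempty (Cfsg.projQuot (simB N) ≃* Cfsg.PGO K (Cfsg.quadFormOdd m K)) := by
  have hs1 : ((-1 : K)) ^ m ≠ 0 := pow_ne_zero _ (neg_ne_zero.2 one_ne_zero)
  set a : K := (-1) ^ m * N.det with ha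
  have ha0 : a ≠ 0 := mul_ne_zero hs1 hd
  let G : Matrix (Unit ⊕ (Fin m ⊕ Fin m)) (Unit ⊕ (Fin m ⊕ Fin m)) K :=
    fromBlocks 1 0 0 (Hm K m)
  have hGT : Gᵀ = G := by
    show (fromBlocks 1 0 0 (Hm K m))ᵀ = _
    rw [fromBlocks_transpose, Hm_transpose]
    simp
    rfl
  have hGd : G.det = (-1) ^ m * ((2⁻¹ : K) ^ m) ^ 2 := by
    show (fromBlocks 1 0 0 (Hm K m)).det = _
    rw [det_fromBlocks_zero₂₁, Hm_det, det_one, one_mul]
  have hsq : ((-1 : K) ^ m) * ((-1 : K) ^ m) = 1 := by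
    rw [← mul_pow]; simp
  obtain ⟨φ, hφ⟩ := exists_isometry_symm h2 (by simp; omega) (a • N) G
    (by rw [transpose_smul, hN]) hGT
    (by rw [det_smul]; exact mul_ne_zero (pow_ne_zero _ ha0) hd)
    ((2⁻¹ : K) ^ m / (a ^ m * N.det))
    (div_ne_zero (pow_ne_zero _ (inv_ne_zero h2)) (mul_ne_zero (pow_ne_zero _ ha0) hd)) (by
      rw [hGd, det_smul, Fintype.card_fin]
      have h3 : a ^ (2 * m + 1) * N.det = (-1) ^ m * (a ^ m * N.det) ^ 2 := by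
        rw [pow_succ, pow_mul']
        conv_lhs => rw [ha]
        ring
      rw [h3]
      have h4 : a ^ m * N.det ≠ 0 := mul_ne_zero (pow_ne_zero _ ha0) hd
      field_simp)
  apply simB_equiv_quad h2 N hN _ φ a ha0
  intro v
  rw [← bf_smul, ← hφ]
  show _ = bf (fromBlocks 1 0 0 (Hm K m)) (φ v) (φ v)
  rw [bf_fromBlocks, bf_Hm h2]
  unfold Cfsg.quadFormOdd bf
  rw [one_mulVec, dotProduct]
  simp only [Function.comp_apply, Finset.univ_unique, Finset.sum_singleton]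
  rw [sq]

end Cfsg.Agent.Lib.Helper50.GI
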