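import Cfsg.Agent.Lib.Helper50.GIForms

set_option autoImplicit false

/-!
Graph involutions: representatives (diagonal matrices, the standard alternating matrix) and
invariants (alternating matrices, determinants).
-/

namespace Cfsg.Agent.Lib.Helper50.GI

open Matrix MatrixGroups

variable {K : Type*} [Field K]

/-- an alternating matrix gives an alternating form -/
theorem bf_self_of_alt {ι : Type} [Fintype ι] [DecidableEq ι] {N : Matrix ι ι K} (hN : Nᵀ = -N)
    (hN0 : ∀ i, N i i = 0) (v : ι → K) : bf N v v = 0 := by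
  have h1 : bf N v v = ∑ x ∈ (Finset.univ : Finset (ι × ι)), v x.1 * (N x.1 x.2 * v x.2) := by
    unfold bf
    simp only [dotProduct, mulVec, Finset.mul_sum]
    rw [← Finset.univ_product_univ, Finset.sum_product]
  rw [h1]
  apply Finset.sum_involution (fun x _ => (x.2, x.1))
  · intro x _
    have h2 : N x.2 x.1 = -N x.1 x.2 := by
      have := congrFun (congrFun hN x.1) x.2
      simpa using this
    simp only [h2]
    ring
  · intro x _ hx hfix
    apply hx
    have h3 : x.2 = x.1 := congrArg Prod.fst hfix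
    rw [h3, hN0, zero_mul, mul_zero]
  · intro x _
    exact Finset.mem_univ _
  · intro x _
    rfl

theorem congr_diag_of_alt {ι : Type} [Fintype ι] [DecidableEq ι] {N : Matrix ι ι K} (hN : Nᵀ = -N)
    (hN0 : ∀ i, N i i = 0) (h : Matrix ι ι K) (i : ι) : (h * N * hᵀ) i i = 0 := by
  have h1 := bf_mulVec N hᵀ (Pi.single i 1) (Pi.single i 1)
  rw [transpose_transpose, bf_single, bf_self_of_alt hN hN0] at h1
  exact h1.symm

/-- the standard alternating matrix on `Fin (2 * m)` -/
def Jn (K : Type*) [Field K] (m : ℕ) : Matrix (Fin (2 * m)) (Fin (2 * m)) K :=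
  (Matrix.J (Fin m) K).submatrix
    ((finCongr (two_mul m)).trans finSumFinEquiv.symm) ((finCongr (two_mul m)).trans finSumFinEquiv.symm)

theorem Jn_transpose (m : ℕ) : (Jn K m)ᵀ = -Jn K m := by
  unfold Jn
  rw [transpose_submatrix, Matrix.J_transpose]
  rfl

theorem Jn_diag (m : ℕ) (i : Fin (2 * m)) : Jn K m i i = 0 := by
  unfold Jn
  rw [submatrix_apply]
  rcases ((finCongr (two_mul m)).trans finSumFinEquiv.symm) i with x | x
  · simp [Matrix.J]
  · simp [Matrix.J]

theorem Jn_det_ne_zero (m : ℕ) : (Jn K m).det ≠ 0 := by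
  unfold Jn
  rw [det_submatrix_equiv_self]
  intro h
  have := Matrix.J_det_mul_J_det (Fin m) K
  rw [h, zero_mul] at this
  exact zero_ne_one this

/-- the diagonal matrix `diag(d, 1, …, 1)` -/
def dgn {n : ℕ} (i₀ : Fin n) (d : K) : Matrix (Fin n) (Fin n) K :=
  Matrix.diagonal (Function.update (fun _ => 1) i₀ d)

theorem dgn_transpose {n : ℕ} (i₀ : Fin n) (d : K) : (dgn i₀ d)ᵀ = dgn i₀ d := diagonal_transpose _

theorem dgn_det {n : ℕ} (i₀ : Fin n) (d : K) : (dgn i₀ d).det = d := by
  unfold dgn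
  rw [det_diagonal, Finset.prod_update_of_mem (Finset.mem_univ i₀)]
  simp

theorem det_congr {n : ℕ} (a : K) (h N : Matrix (Fin n) (Fin n) K) :
    (a • (h * N * hᵀ)).det = a ^ n * h.det ^ 2 * N.det := by
  rw [det_smul, det_mul, det_mul, det_transpose, Fintype.card_fin]
  ring

/-- build an element of `GL` from a matrix of non-zero determinant -/
noncomputable abbrev mkGL {n : ℕ} (N : Matrix (Fin n) (Fin n) K) (h : N.det ≠ 0) : GL (Fin n) K :=
  Matrix.GeneralLinearGroup.mkOfDetNeZero N h

theorem mkGL_val {n : ℕ} (N : Matrix (Fin n) (Fin n) K) (h : N.det ≠ 0) : (mkGL N h).1 = N := rfl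

theorem gl_det_ne_zero {n : ℕ} (M : GL (Fin n) K) : M.1.det ≠ 0 := by
  intro h
  have h1 : M.1 * M⁻¹.1 = 1 := Units.mul_inv _
  have h2 := congrArg Matrix.det h1
  rw [det_mul, h, zero_mul, det_one] at h2
  exact zero_ne_one h2

end Cfsg.Agent.Lib.Helper50.GI
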