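import Cfsg.Agent.Lib.Helper50.GIDesc2
import Cfsg.Agent.Lib.Helper50.GIReps
import Cfsg.Agent.Lib.Helper47.AutPSUConj

set_option autoImplicit false
set_option linter.unusedSectionVars false

/-!
Graph involutions of `PSU_n(q)`: `gamU M = cG M * fl (x ↦ x^q)`.
-/

namespace Cfsg.Agent.Lib.Helper50.GI

open Matrix MatrixGroups Cfsg.Agent.Lib.Helper99.AutPSU
open Cfsg.Agent.Lib.Helper47.AutPSU (ph ph_apply ph_ph exists_ph_ne mkGU mkGU_val gu_st rigid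
  exists_smul_of_cG_eq_one cG_eq_one_of_smul)
open Cfsg.Agent.Lib.Helper18.AutPSL (mp mp_apply mp_eq_map mp_smul st st_apply)

variable {F : Type*} [Field F] [Fintype F] {q n : ℕ}

/-- the matrix of an element of `GU` -/
abbrev mG (g : ↥(Cfsg.GU n F q)) : Matrix (Fin n) (Fin n) F := (g : GL (Fin n) F).1

theorem mG_mul (a b : ↥(Cfsg.GU n F q)) : mG (a * b) = mG a * mG b := rfl

theorem mG_ext {a b : ↥(Cfsg.GU n F q)} (h : mG a = mG b) : a = b := Subtype.ext (Units.ext h)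

theorem mG_det (g : ↥(Cfsg.GU n F q)) : (mG g).det ≠ 0 := gl_det_ne_zero _

theorem gu_U (hF : Fintype.card F = q ^ 2) (g : ↥(Cfsg.GU n F q)) :
    (mG g)ᵀ * mp (ph hF) (mG g) = 1 := by
  have h := congrArg Matrix.transpose (gu_st hF g)
  rw [transpose_mul, transpose_one] at h
  rw [← h]
  rfl

/-- build an element of `GU` -/
noncomputable def mkU (hF : Fintype.card F = q ^ 2) (M : Matrix (Fin n) (Fin n) F)
    (h : Mᵀ * mp (ph hF) M = 1) : ↥(Cfsg.GU n F q) :=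
  mkGU hF M (by
    have h1 := congrArg Matrix.transpose h
    rw [transpose_mul, transpose_one, transpose_transpose] at h1
    exact h1)

theorem mkU_val (hF : Fintype.card F = q ^ 2) (M : Matrix (Fin n) (Fin n) F)
    (h : Mᵀ * mp (ph hF) M = 1) : mG (mkU hF M h) = M := rfl

/-- the graph automorphism attached to `M` -/
noncomputable def gamU (hF : Fintype.card F = q ^ 2) (M : ↥(Cfsg.GU n F q)) :
    MulAut (Cfsg.PSU n F q) := cG M * fl (ph hF)

theorem ph_mul_ph (hF : Fintype.card F = q ^ 2) : ph hF * ph hF = 1 := by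
  ext x
  exact ph_ph hF x

theorem ph_ne_one (hF : Fintype.card F = q ^ 2) : ph hF ≠ 1 := by
  intro h
  obtain ⟨y, hy⟩ := exists_ph_ne hF
  apply hy
  rw [h]
  rfl

theorem orderOf_ph (hF : Fintype.card F = q ^ 2) : orderOf (ph hF) = 2 :=
  orderOf_eq_prime (by rw [sq]; exact ph_mul_ph hF) (ph_ne_one hF)

theorem flph_comm (hF : Fintype.card F = q ^ 2) (h : ↥(Cfsg.GU n F q)) :
    (fl (ph hF) : MulAut (Cfsg.PSU n F q)) * cG h = cG (mapGU (ph hF) h) * fl (ph hF) :=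
  fl_mul_cG _ _

theorem flph_sq (hF : Fintype.card F = q ^ 2) :
    (fl (ph hF) : MulAut (Cfsg.PSU n F q)) * fl (ph hF) = 1 := by
  rw [← map_mul, ph_mul_ph, map_one]

theorem cGU_eq_iff (hF : Fintype.card F = q ^ 2) (hn : 3 ≤ n) (A B : ↥(Cfsg.GU n F q)) :
    (cG A : MulAut (Cfsg.PSU n F q)) = cG B ↔ ∃ a : F, mG A = a • mG B := by
  constructor
  · intro h
    have h1 : (cG (A * B⁻¹) : MulAut (Cfsg.PSU n F q)) = 1 := by
      rw [map_mul, map_inv, h, mul_inv_cancel]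
    obtain ⟨a, ha⟩ := exists_smul_of_cG_eq_one hF hn h1
    refine ⟨a, ?_⟩
    have h2 : mG A = mG (A * B⁻¹) * mG B := by rw [← mG_mul, inv_mul_cancel_right]
    rw [h2]
    show (A * B⁻¹ : ↥(Cfsg.GU n F q)).1.1 * mG B = _
    rw [ha, smul_mul_assoc, Matrix.one_mul]
  · rintro ⟨a, ha⟩
    have h1 : (cG (A * B⁻¹) : MulAut (Cfsg.PSU n F q)) = 1 := by
      apply cG_eq_one_of_smul (c := a)
      show mG (A * B⁻¹) = _
      rw [mG_mul, ha, smul_mul_assoc, ← mG_mul, mul_inv_cancel]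
      rfl
    rw [map_mul, map_inv] at h1
    exact mul_inv_eq_one.1 h1

theorem mapGU_inv_val (hF : Fintype.card F = q ^ 2) (h : ↥(Cfsg.GU n F q)) :
    mG ((mapGU (ph hF) h)⁻¹) = (mG h)ᵀ := by
  have h1 : mG (mapGU (ph hF) h) = mp (ph hF) (mG h) := rfl
  have h2 : mG (mapGU (ph hF) h) * mG ((mapGU (ph hF) h)⁻¹) = 1 := by
    rw [← mG_mul, mul_inv_cancel]
    rfl
  calc mG ((mapGU (ph hF) h)⁻¹) = ((mG h)ᵀ * mp (ph hF) (mG h)) * mG ((mapGU (ph hF) h)⁻¹) := by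
        rw [gu_U, Matrix.one_mul]
    _ = (mG h)ᵀ := by rw [Matrix.mul_assoc, ← h1, h2, Matrix.mul_one]

theorem eq_ph (hF : Fintype.card F = q ^ 2) (σ : F ≃+* F) (h1 : σ ≠ 1) (h2 : σ * σ = 1) :
    σ = ph hF := by
  have hs : ∀ x, σ (σ x) = x := fun x => congrArg (fun τ : F ≃+* F => τ x) h2
  obtain ⟨q', hq', hσ⟩ := Cfsg.Agent.Lib.Helper17.exists_card_eq_sq_of_involution (σ : F →+* F)
    (by
      intro h0
      apply h1
      ext x
      exact congrArg (fun τ : F →+* F => τ x) h0) hs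
  rw [Nat.card_eq_fintype_card, hF] at hq'
  have : q = q' := Nat.pow_left_injective (n := 2) (by norm_num) hq'
  subst this
  ext x
  exact hσ x

theorem exists_gamU (hF : Fintype.card F = q ^ 2) {γ : MulAut (Cfsg.PSU n F q)}
    (h : Cfsg.IsGraphAutClassPSU γ) (h2 : orderOf γ = 2) : ∃ M, γ = gamU hF M := by
  obtain ⟨hn, δ, φ, σ, hσ, hδ, hφ, rfl⟩ := h
  obtain ⟨M, rfl⟩ := (isInnerDiagonal_iff δ).1 hδ
  rw [(isFieldAut_iff σ φ).1 hφ] at h2 ⊢
  have h3 : (cG M * fl σ : MulAut (Cfsg.PSU n F q)) * (cG M * fl σ) = 1 := by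
    have := pow_orderOf_eq_one (cG M * fl σ : MulAut (Cfsg.PSU n F q))
    rwa [h2, sq] at this
  have h4 : (cG (M * mapGU σ M) * fl (σ * σ) : MulAut (Cfsg.PSU n F q)) = 1 := by
    rw [← h3, map_mul, map_mul, mul_assoc, mul_assoc, ← mul_assoc (cG (mapGU σ M)), ← fl_mul_cG]
    simp only [mul_assoc]
  have h5 := (rigid hF hn _ _ h4).1
  have h6 : σ ≠ 1 := by
    rintro rfl
    rw [orderOf_one] at hσ
    exact absurd hσ (by decide)
  rw [eq_ph hF σ h6 h5]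
  exact ⟨M, rfl⟩

theorem isGraph_gamU (hF : Fintype.card F = q ^ 2) (hn : 3 ≤ n) (M : ↥(Cfsg.GU n F q)) :
    Cfsg.IsGraphAutClassPSU (gamU hF M) :=
  ⟨hn, cG M, fl (ph hF), ph hF, by rw [orderOf_ph]; exact even_two,
    (isInnerDiagonal_iff _).2 ⟨M, rfl⟩, (isFieldAut_iff _ _).2 rfl, rfl⟩

theorem gamU_ne_one (hF : Fintype.card F = q ^ 2) (hn : 3 ≤ n) (M : ↥(Cfsg.GU n F q)) :
    gamU hF M ≠ 1 := fun h => ph_ne_one hF (rigid hF hn M _ h).1

theorem gamU_sq (hF : Fintype.card F = q ^ 2) (M : ↥(Cfsg.GU n F q)) :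
    gamU hF M * gamU hF M = cG (M * mapGU (ph hF) M) :=
  sq_eq cG (mapGU (ph hF)) (fl (ph hF)) (flph_comm hF) (flph_sq hF) M

theorem orderOf_gamU_iff (hF : Fintype.card F = q ^ 2) (hn : 3 ≤ n) (M : ↥(Cfsg.GU n F q)) :
    orderOf (gamU hF M) = 2 ↔ ((mG M)ᵀ = mG M ∨ (mG M)ᵀ = -mG M) := by
  have : Nonempty (Fin n) := ⟨⟨0, by omega⟩⟩
  have hM0 : mG M ≠ 0 := by
    intro h0
    apply mG_det M
    rw [h0, det_zero]
  have h1 : orderOf (gamU hF M) = 2 ↔ gamU hF M * gamU hF M = 1 := by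
    constructor
    · intro h
      have := pow_orderOf_eq_one (gamU hF M)
      rwa [h, sq] at this
    · intro h
      exact orderOf_eq_prime (by rw [sq]; exact h) (gamU_ne_one hF hn M)
  have h2 : gamU hF M * gamU hF M = 1 ↔ ∃ a : F, mG M = a • (mG M)ᵀ := by
    rw [gamU_sq, ← map_one cG, cGU_eq_iff hF hn]
    have e1 : mG (M * mapGU (ph hF) M) = mG M * mp (ph hF) (mG M) := rfl
    have e2 : mG (1 : ↥(Cfsg.GU n F q)) = 1 := rfl
    have e3 : mp (ph hF) (mG M) * (mG M)ᵀ = 1 := mul_eq_one_comm.1 (gu_U hF M)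
    rw [e1, e2]
    constructor
    · rintro ⟨a, ha⟩
      refine ⟨a, ?_⟩
      calc mG M = mG M * (mp (ph hF) (mG M) * (mG M)ᵀ) := by rw [e3, Matrix.mul_one]
        _ = a • (mG M)ᵀ := by rw [← Matrix.mul_assoc, ha, smul_mul_assoc, Matrix.one_mul]
    · rintro ⟨a, ha⟩
      refine ⟨a, ?_⟩
      calc mG M * mp (ph hF) (mG M) = (a • (mG M)ᵀ) * mp (ph hF) (mG M) := by rw [← ha]
        _ = a • 1 := by rw [smul_mul_assoc, gu_U]
  rw [h1, h2]
  constructor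
  · rintro ⟨a, ha⟩
    have h2 : (mG M)ᵀ = a • mG M := by
      conv_lhs => rw [ha]
      rw [transpose_smul, transpose_transpose]
    have h3 : (a ^ 2 - 1) • mG M = 0 := by
      rw [sub_smul, one_smul, sq, mul_smul, ← h2, ← ha, sub_self]
    have h4 : a ^ 2 - 1 = 0 := (smul_eq_zero.1 h3).resolve_right hM0
    have h5 : (a - 1) * (a + 1) = 0 := by linear_combination h4
    rcases mul_eq_zero.1 h5 with h6 | h6
    · left
      rw [h2, sub_eq_zero.1 h6, one_smul]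
    · right
      rw [h2, eq_neg_of_add_eq_zero_left h6, neg_smul, one_smul]
  · rintro (h | h)
    · exact ⟨1, by rw [h, one_smul]⟩
    · exact ⟨-1, by rw [h, neg_smul, one_smul, neg_neg]⟩

theorem conjU_iff (hF : Fintype.card F = q ^ 2) (hn : 3 ≤ n) (M M' : ↥(Cfsg.GU n F q)) :
    Cfsg.IsConjUnder (Cfsg.inndiagPSU n F q) (gamU hF M) (gamU hF M') ↔
      ∃ (h : ↥(Cfsg.GU n F q)) (a : F), mG h * mG M * (mG h)ᵀ = a • mG M' := by
  rw [inndiag_eq]
  unfold gamU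
  rw [isConjUnder_iff cG (mapGU (ph hF)) (fl (ph hF)) (flph_comm hF)]
  have e : ∀ h : ↥(Cfsg.GU n F q), mG (h * M * (mapGU (ph hF) h)⁻¹) = mG h * mG M * (mG h)ᵀ := by
    intro h
    rw [mG_mul, mG_mul, mapGU_inv_val]
  constructor
  · rintro ⟨h, e1⟩
    obtain ⟨a, ha⟩ := (cGU_eq_iff hF hn _ _).1 e1.symm
    exact ⟨h, a, by rw [← e, ha]⟩
  · rintro ⟨h, a, ha⟩
    exact ⟨h, ((cGU_eq_iff hF hn _ _).2 ⟨a, by rw [e, ha]⟩).symm⟩

theorem mem_SgU_iff (hF : Fintype.card F = q ^ 2) (hn : 3 ≤ n) (M h : ↥(Cfsg.GU n F q)) :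
    (cG h : MulAut (Cfsg.PSU n F q)) ∈ Subgroup.centralizer {gamU hF M} ↔
      ∃ a : F, mG h * mG M * (mG h)ᵀ = a • mG M := by
  have h1 := mem_Sg_iff (cG : ↥(Cfsg.GU n F q) →* MulAut (Cfsg.PSU n F q)) (mapGU (ph hF))
    (fl (ph hF)) (flph_comm hF) M h
  rw [Sg, Subgroup.mem_comap] at h1
  unfold gamU
  rw [h1, cGU_eq_iff hF hn, mG_mul, mG_mul, mapGU_inv_val]

end Cfsg.Agent.Lib.Helper50.GI
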