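import Cfsg.Agent.Lib.Helper50.GIPSU
import Cfsg.Agent.Lib.Helper50.NormFq2

set_option autoImplicit false
set_option linter.unusedSectionVars false

/-!
Graph involutions of `PSU_n(q)`: conjugacy and centralisers through descent data.
-/

namespace Cfsg.Agent.Lib.Helper50.GI

open Matrix MatrixGroups Cfsg.Agent.Lib.Helper99.AutPSU
open Cfsg.Agent.Lib.Helper47.AutPSU (ph ph_apply ph_ph exists_ph_ne mkGU mkGU_val gu_st rigid
  exists_smul_of_cG_eq_one cG_eq_one_of_smul)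
open Cfsg.Agent.Lib.Helper18.AutPSL (mp mp_apply mp_eq_map mp_smul st st_apply)

variable {F : Type*} [Field F] [Fintype F] {q n : ℕ} {F₀ : Type*} [Field F₀]

theorem norm_surj (hF : Fintype.card F = q ^ 2) (x : F) (hx : x ≠ 0) (hx' : ph hF x = x) :
    ∃ c : F, c * ph hF c = x := by
  obtain ⟨l, -, hl⟩ := Cfsg.Agent.Lib.Helper50.exists_norm_eq hF x hx hx'
  exact ⟨l, by rw [ph_apply, ← pow_succ', hl]⟩

theorem norm_surj_j (hF : Fintype.card F = q ^ 2) (j : F₀ →+* F)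
    (hj : ∀ x : F, x ^ q = x ↔ ∃ y, j y = x) (y : F₀) (hy : y ≠ 0) :
    ∃ c : F, c * ph hF c = j y :=
  norm_surj hF (j y) (fun h0 => hy ((map_eq_zero j).1 h0)) ((hj _).2 ⟨y, rfl⟩)

theorem conjU_iff_dat (hF : Fintype.card F = q ^ 2) (hn : 3 ≤ n) (j : F₀ →+* F)
    (hj : ∀ x : F, x ^ q = x ↔ ∃ y, j y = x) {e : F} (he : e ≠ 0) {M M' : ↥(Cfsg.GU n F q)}
    {N₀ N₀' : Matrix (Fin n) (Fin n) F₀} {P P' : Matrix (Fin n) (Fin n) F} {c₀ c₀' : F}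
    (hD : Dat (ph hF) j e (mG M) N₀ P c₀) (hD' : Dat (ph hF) j e (mG M') N₀' P' c₀') :
    Cfsg.IsConjUnder (Cfsg.inndiagPSU n F q) (gamU hF M) (gamU hF M') ↔
      ∃ (A : Matrix (Fin n) (Fin n) F₀) (ν : F₀), A.det ≠ 0 ∧ ν ≠ 0 ∧
        ν • (Aᵀ * N₀' * A) = N₀ := by
  rw [conjU_iff hF hn]
  constructor
  · rintro ⟨h, a, ha⟩
    obtain ⟨c, A, ν, -, hA, hν, -, h1⟩ := desc_fwd (by omega) (ph hF) j hj (ph_ph hF) he hD hD'
      (mG h) (gu_U hF h) a ha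
    exact ⟨A, ν, hA, hν, h1⟩
  · rintro ⟨A, ν, -, hν, h1⟩
    obtain ⟨h, c, a, -, hU, -, h2⟩ := desc_bwd (ph hF) j hj (norm_surj_j hF j hj) hD hD' A ν hν h1
    exact ⟨mkU hF h hU, a, h2⟩

section cent

theorem ex_lift (hF : Fintype.card F = q ^ 2) (j : F₀ →+* F)
    (hj : ∀ x : F, x ^ q = x ↔ ∃ y, j y = x) {e : F} {M : ↥(Cfsg.GU n F q)}
    {N₀ : Matrix (Fin n) (Fin n) F₀} {P : Matrix (Fin n) (Fin n) F} {c₀ : F}
    (hD : Dat (ph hF) j e (mG M) N₀ P c₀) (A : ↥(simB N₀)) :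
    ∃ h : ↥(Cfsg.GU n F q), (∃ c : F, c ≠ 0 ∧ mG h * P = c • (P * A.1.1.map j)) ∧
      ∃ a : F, mG h * mG M * (mG h)ᵀ = a • mG M := by
  obtain ⟨c, hc⟩ := (mem_simB_iff N₀ A.1).1 A.2
  obtain ⟨h, c', a, hc', hU, h1, h2⟩ := desc_bwd (ph hF) j hj (norm_surj_j hF j hj) hD hD A.1.1
    ((c⁻¹ : F₀ˣ) : F₀) (Units.ne_zero _) (by
      rw [hc, smul_smul, ← Units.val_mul, inv_mul_cancel, Units.val_one, one_smul])
  exact ⟨mkU hF h hU, ⟨c', hc', h1⟩, a, h2⟩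

theorem cG_eq_of_rel (hF : Fintype.card F = q ^ 2) (hn : 3 ≤ n) {h₁ h₂ : ↥(Cfsg.GU n F q)}
    {P X : Matrix (Fin n) (Fin n) F} {c₁ c₂ : F} (hP : P.det ≠ 0) (hc₂ : c₂ ≠ 0)
    (e₁ : mG h₁ * P = c₁ • X) (e₂ : mG h₂ * P = c₂ • X) :
    (cG h₁ : MulAut (Cfsg.PSU n F q)) = cG h₂ := by
  rw [cGU_eq_iff hF hn]
  refine ⟨c₁ * c₂⁻¹, ?_⟩
  apply cancelR hP
  rw [smul_mul_assoc, e₁, e₂, smul_smul, inv_mul_cancel_right₀ hc₂]

/-- the map from the similitudes of the descended form to `Aut(PSU)` -/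
noncomputable def Psi (hF : Fintype.card F = q ^ 2) (hn : 3 ≤ n) (j : F₀ →+* F)
    (hj : ∀ x : F, x ^ q = x ↔ ∃ y, j y = x) {e : F} {M : ↥(Cfsg.GU n F q)}
    {N₀ : Matrix (Fin n) (Fin n) F₀} {P : Matrix (Fin n) (Fin n) F} {c₀ : F}
    (hD : Dat (ph hF) j e (mG M) N₀ P c₀) : ↥(simB N₀) →* MulAut (Cfsg.PSU n F q) :=
  MonoidHom.mk' (fun A => cG (Classical.choose (ex_lift hF j hj hD A))) (by
    intro A B
    obtain ⟨⟨cA, hcA, eA⟩, -⟩ := Classical.choose_spec (ex_lift hF j hj hD A)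
    obtain ⟨⟨cB, hcB, eB⟩, -⟩ := Classical.choose_spec (ex_lift hF j hj hD B)
    obtain ⟨⟨cC, hcC, eC⟩, -⟩ := Classical.choose_spec (ex_lift hF j hj hD (A * B))
    rw [← map_mul]
    refine cG_eq_of_rel hF hn hD.1 (mul_ne_zero hcA hcB) eC ?_
    rw [mG_mul, Matrix.mul_assoc, eB, Matrix.mul_smul, ← Matrix.mul_assoc, eA, smul_mul_assoc,
      smul_smul, Matrix.mul_assoc, mul_comm cB]
    congr 2
    exact (map_j_mul j A.1.1 B.1.1).symm)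

theorem Psi_eq (hF : Fintype.card F = q ^ 2) (hn : 3 ≤ n) (j : F₀ →+* F)
    (hj : ∀ x : F, x ^ q = x ↔ ∃ y, j y = x) {e : F} {M : ↥(Cfsg.GU n F q)}
    {N₀ : Matrix (Fin n) (Fin n) F₀} {P : Matrix (Fin n) (Fin n) F} {c₀ : F}
    (hD : Dat (ph hF) j e (mG M) N₀ P c₀) (A : ↥(simB N₀)) (h : ↥(Cfsg.GU n F q)) (c : F)
    (hc : c ≠ 0) (hh : mG h * P = c • (P * A.1.1.map j)) : Psi hF hn j hj hD A = cG h := by
  obtain ⟨⟨cA, hcA, eA⟩, -⟩ := Classical.choose_spec (ex_lift hF j hj hD A)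
  exact cG_eq_of_rel hF hn hD.1 hc eA hh

theorem Psi_spec (hF : Fintype.card F = q ^ 2) (hn : 3 ≤ n) (j : F₀ →+* F)
    (hj : ∀ x : F, x ^ q = x ↔ ∃ y, j y = x) {e : F} {M : ↥(Cfsg.GU n F q)}
    {N₀ : Matrix (Fin n) (Fin n) F₀} {P : Matrix (Fin n) (Fin n) F} {c₀ : F}
    (hD : Dat (ph hF) j e (mG M) N₀ P c₀) (A : ↥(simB N₀)) :
    ∃ h : ↥(Cfsg.GU n F q), Psi hF hn j hj hD A = cG h ∧
      (∃ c : F, c ≠ 0 ∧ mG h * P = c • (P * A.1.1.map j)) ∧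
      ∃ a : F, mG h * mG M * (mG h)ᵀ = a • mG M :=
  ⟨_, rfl, Classical.choose_spec (ex_lift hF j hj hD A)⟩

theorem range_Psi (hF : Fintype.card F = q ^ 2) (hn : 3 ≤ n) (j : F₀ →+* F)
    (hj : ∀ x : F, x ^ q = x ↔ ∃ y, j y = x) {e : F} (he : e ≠ 0) {M : ↥(Cfsg.GU n F q)}
    {N₀ : Matrix (Fin n) (Fin n) F₀} {P : Matrix (Fin n) (Fin n) F} {c₀ : F}
    (hD : Dat (ph hF) j e (mG M) N₀ P c₀) :
    (Psi hF hn j hj hD).range = Cfsg.inndiagPSU n F q ⊓ Subgroup.centralizer {gamU hF M} := by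
  rw [inndiag_eq]
  ext x
  constructor
  · rintro ⟨A, rfl⟩
    obtain ⟨h, e1, -, e3⟩ := Psi_spec hF hn j hj hD A
    rw [e1]
    exact ⟨⟨h, rfl⟩, (mem_SgU_iff hF hn M h).2 e3⟩
  · rintro ⟨⟨h, rfl⟩, h2⟩
    obtain ⟨a, ha⟩ := (mem_SgU_iff hF hn M h).1 h2
    obtain ⟨c, A, ν, hc, hA, hν, h3, h4⟩ := desc_fwd (by omega) (ph hF) j hj (ph_ph hF) he hD hD
      (mG h) (gu_U hF h) a ha
    have hmem : mkGL A hA ∈ simB N₀ := by
      rw [mem_simB_iff]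
      refine ⟨(Units.mk0 ν hν)⁻¹, ?_⟩
      rw [mkGL_val]
      conv_rhs => rw [← h4]
      rw [smul_smul, Units.val_inv_eq_inv_val, Units.val_mk0, inv_mul_cancel₀ hν, one_smul]
    exact ⟨⟨mkGL A hA, hmem⟩, Psi_eq hF hn j hj hD _ h c hc h3⟩

theorem ker_Psi (hF : Fintype.card F = q ^ 2) (hn : 3 ≤ n) (j : F₀ →+* F)
    (hj : ∀ x : F, x ^ q = x ↔ ∃ y, j y = x) {e : F} {M : ↥(Cfsg.GU n F q)}
    {N₀ : Matrix (Fin n) (Fin n) F₀} {P : Matrix (Fin n) (Fin n) F} {c₀ : F}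
    (hD : Dat (ph hF) j e (mG M) N₀ P c₀) :
    (Psi hF hn j hj hD).ker = (Cfsg.Geo.scalars (Fin n) F₀).subgroupOf (simB N₀) := by
  have : Nonempty (Fin n) := ⟨⟨0, by omega⟩⟩
  ext A
  rw [MonoidHom.mem_ker, Subgroup.mem_subgroupOf, Cfsg.Geo.mem_scalars_iff]
  obtain ⟨h, e1, ⟨c, hc, e2⟩, -⟩ := Psi_spec hF hn j hj hD A
  rw [e1]
  constructor
  · intro h1
    obtain ⟨d, hd⟩ := exists_smul_of_cG_eq_one hF hn h1
    have h2 : A.1.1.map j = (c⁻¹ * d) • (1 : Matrix (Fin n) (Fin n) F) := by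
      apply cancelL hD.1
      have h3 : mG h = d • 1 := hd
      rw [h3, smul_mul_assoc, Matrix.one_mul] at e2
      rw [Matrix.mul_smul, Matrix.mul_one, ← smul_smul, e2, smul_smul, inv_mul_cancel₀ hc, one_smul]
    set i₀ : Fin n := ⟨0, by omega⟩
    have h4 : A.1.1 = A.1.1 i₀ i₀ • (1 : Matrix (Fin n) (Fin n) F₀) := by
      apply map_j_inj j
      rw [map_j_smul, h2]
      have h5 : j (A.1.1 i₀ i₀) = c⁻¹ * d := by
        have := congrFun (congrFun h2 i₀) i₀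
        simpa using this
      rw [h5]
      congr 1
      ext r s
      simp [Matrix.one_apply]
    have h6 : A.1.1 i₀ i₀ ≠ 0 := by
      intro h0
      apply gl_det_ne_zero A.1
      rw [h4, h0, zero_smul, det_zero]
    exact ⟨Units.mk0 _ h6, h4⟩
  · rintro ⟨y, hy⟩
    apply cG_eq_one_of_smul (c := c * j y)
    apply cancelR hD.1
    show mG h * P = _
    rw [e2, hy, map_j_smul, smul_mul_assoc, Matrix.one_mul, Matrix.mul_smul, smul_smul]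
    congr 1
    have : (1 : Matrix (Fin n) (Fin n) F₀).map j = 1 := by
      ext r s
      simp [Matrix.one_apply]
    rw [this, Matrix.mul_one]

theorem cent_dat (hF : Fintype.card F = q ^ 2) (hn : 3 ≤ n) (j : F₀ →+* F)
    (hj : ∀ x : F, x ^ q = x ↔ ∃ y, j y = x) {e : F} (he : e ≠ 0) {M : ↥(Cfsg.GU n F q)}
    {N₀ : Matrix (Fin n) (Fin n) F₀} {P : Matrix (Fin n) (Fin n) F} {c₀ : F}
    (hD : Dat (ph hF) j e (mG M) N₀ P c₀) :
    Nonempty (↥(Cfsg.inndiagPSU n F q ⊓ Subgroup.centralizer {gamU hF M}) ≃*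
      Cfsg.projQuot (simB N₀)) := by
  have e1 := QuotientGroup.quotientKerEquivRange (Psi hF hn j hj hD)
  have e2 := MulEquiv.subgroupCongr (range_Psi hF hn j hj he hD)
  have e3 := QuotientGroup.quotientMulEquivOfEq (ker_Psi hF hn j hj hD)
  exact ⟨(e3.symm.trans (e1.trans e2)).symm⟩

end cent

end Cfsg.Agent.Lib.Helper50.GI
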