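import Cfsg.Agent.Lib.Helper50.GIPSU2

set_option autoImplicit false
set_option linter.unusedSectionVars false

/-!
Graph involutions of `PSU_n(q)`: the interface used by the statements.
-/

namespace Cfsg.Agent.Lib.Helper50.GI

open Matrix MatrixGroups Cfsg.Agent.Lib.Helper99.AutPSU
open Cfsg.Agent.Lib.Helper47.AutPSU (ph ph_apply ph_ph exists_ph_ne)
open Cfsg.Agent.Lib.Helper18.AutPSL (mp mp_apply mp_eq_map mp_smul st st_apply)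

variable {F : Type*} [Field F] [Fintype F] {q n : ℕ} {F₀ : Type*} [Field F₀]

/-- `M` descends to the form `N₀` over the fixed field -/
def DatE (hF : Fintype.card F = q ^ 2) (j : F₀ →+* F) (e : F) (M : ↥(Cfsg.GU n F q))
    (N₀ : Matrix (Fin n) (Fin n) F₀) : Prop :=
  ∃ (P : Matrix (Fin n) (Fin n) F) (c₀ : F), Dat (ph hF) j e (mG M) N₀ P c₀

theorem conj_datE (hF : Fintype.card F = q ^ 2) (hn : 3 ≤ n) (j : F₀ →+* F)
    (hj : ∀ x : F, x ^ q = x ↔ ∃ y, j y = x) {e : F} (he : e ≠ 0) {M M' : ↥(Cfsg.GU n F q)}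
    {N₀ N₀' : Matrix (Fin n) (Fin n) F₀} (hD : DatE hF j e M N₀) (hD' : DatE hF j e M' N₀') :
    Cfsg.IsConjUnder (Cfsg.inndiagPSU n F q) (gamU hF M) (gamU hF M') ↔
      ∃ (A : Matrix (Fin n) (Fin n) F₀) (ν : F₀), A.det ≠ 0 ∧ ν ≠ 0 ∧
        ν • (Aᵀ * N₀' * A) = N₀ := by
  obtain ⟨P, c₀, hD⟩ := hD
  obtain ⟨P', c₀', hD'⟩ := hD'
  exact conjU_iff_dat hF hn j hj he hD hD'

theorem conj_of_congr (hF : Fintype.card F = q ^ 2) (hn : 3 ≤ n) (j : F₀ →+* F)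
    (hj : ∀ x : F, x ^ q = x ↔ ∃ y, j y = x) {e : F} (he : e ≠ 0) {M M' : ↥(Cfsg.GU n F q)}
    {N₀ N₀' : Matrix (Fin n) (Fin n) F₀} (hD : DatE hF j e M N₀) (hD' : DatE hF j e M' N₀')
    (P : GL (Fin n) F₀) (a : F₀) (ha : a ≠ 0) (hP : N₀' = a • (P.1 * N₀ * P.1ᵀ)) :
    Cfsg.IsConjUnder (Cfsg.inndiagPSU n F q) (gamU hF M) (gamU hF M') := by
  rw [conj_datE hF hn j hj he hD hD']
  refine ⟨(P⁻¹.1)ᵀ, a⁻¹, ?_, inv_ne_zero ha, ?_⟩
  · rw [det_transpose]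
    exact gl_det_ne_zero _
  · rw [hP, transpose_transpose, Matrix.mul_smul, smul_mul_assoc, smul_smul, inv_mul_cancel₀ ha,
      one_smul]
    calc P⁻¹.1 * (P.1 * N₀ * P.1ᵀ) * (P⁻¹.1)ᵀ = (P⁻¹.1 * P.1) * N₀ * (P⁻¹.1 * P.1)ᵀ := by
          rw [transpose_mul]
          simp only [Matrix.mul_assoc]
      _ = N₀ := by rw [Units.inv_mul, transpose_one, Matrix.one_mul, Matrix.mul_one]

theorem cent_datE (hF : Fintype.card F = q ^ 2) (hn : 3 ≤ n) (j : F₀ →+* F)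
    (hj : ∀ x : F, x ^ q = x ↔ ∃ y, j y = x) {e : F} (he : e ≠ 0) {M : ↥(Cfsg.GU n F q)}
    {N₀ : Matrix (Fin n) (Fin n) F₀} (hD : DatE hF j e M N₀) :
    Nonempty (↥(Cfsg.inndiagPSU n F q ⊓ Subgroup.centralizer {gamU hF M}) ≃*
      Cfsg.projQuot (simB N₀)) := by
  obtain ⟨P, c₀, hD⟩ := hD
  exact cent_dat hF hn j hj he hD

theorem exists_datE_symm (hF : Fintype.card F = q ^ 2) (j : F₀ →+* F)
    (hj : ∀ x : F, x ^ q = x ↔ ∃ y, j y = x) (M : ↥(Cfsg.GU n F q)) (hM : (mG M)ᵀ = mG M) :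
    ∃ N₀ : Matrix (Fin n) (Fin n) F₀, DatE hF j 1 M N₀ ∧ N₀.det ≠ 0 ∧ N₀ᵀ = N₀ := by
  obtain ⟨N₀, P, c₀, h1, h2, h3⟩ := exists_dat (ph hF) j hj (ph_ph hF) (orderOf_ph hF)
    (norm_surj hF) (ε := 1) (e := 1) (one_mul 1) (map_one _) one_ne_zero
    (by rw [map_one, one_mul]) (mG M) (gu_U hF M) (by rw [hM, one_smul])
  refine ⟨N₀, ⟨P, c₀, h1⟩, h2, ?_⟩
  rw [one_smul] at h3
  exact map_j_inj j h3

theorem exists_datE_skew (hF : Fintype.card F = q ^ 2) (j : F₀ →+* F)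
    (hj : ∀ x : F, x ^ q = x ↔ ∃ y, j y = x) {e : F} (he : e ≠ 0) (heq : e ^ q = -e)
    (M : ↥(Cfsg.GU n F q)) (hM : (mG M)ᵀ = -mG M) :
    ∃ N₀ : Matrix (Fin n) (Fin n) F₀, DatE hF j e M N₀ ∧ N₀.det ≠ 0 ∧ N₀ᵀ = -N₀ := by
  obtain ⟨N₀, P, c₀, h1, h2, h3⟩ := exists_dat (ph hF) j hj (ph_ph hF) (orderOf_ph hF)
    (norm_surj hF) (ε := -1) (e := e) (by ring) (by rw [map_neg, map_one]) he
    (by rw [ph_apply, heq]; ring) (mG M) (gu_U hF M) (by rw [hM, neg_smul, one_smul])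
  refine ⟨N₀, ⟨P, c₀, h1⟩, h2, ?_⟩
  apply map_j_inj j
  rw [h3, neg_smul, one_smul]
  ext r s
  simp

theorem exists_M_symm (hF : Fintype.card F = q ^ 2) (j : F₀ →+* F)
    (hj : ∀ x : F, x ^ q = x ↔ ∃ y, j y = x) (N₀ : Matrix (Fin n) (Fin n) F₀)
    (hd : N₀.det ≠ 0) (hN₀ : N₀ᵀ = N₀) :
    ∃ M : ↥(Cfsg.GU n F q), DatE hF j 1 M N₀ ∧ (mG M)ᵀ = mG M := by
  obtain ⟨M, P, c₀, h1, h2, h3⟩ := exists_M hF (ph hF) (ph_apply hF) j hj (ph_ph hF)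
    (norm_surj hF) (ε := 1) (e := 1) (one_mul 1) (map_one _) one_ne_zero
    (by rw [map_one, one_mul]) N₀ hd (by rw [hN₀, one_smul])
  refine ⟨mkU hF M h2, ⟨P, c₀, h1⟩, ?_⟩
  rw [mkU_val, h3, one_smul]

theorem exists_M_skew (hF : Fintype.card F = q ^ 2) (j : F₀ →+* F)
    (hj : ∀ x : F, x ^ q = x ↔ ∃ y, j y = x) {e : F} (he : e ≠ 0) (heq : e ^ q = -e)
    (N₀ : Matrix (Fin n) (Fin n) F₀) (hd : N₀.det ≠ 0) (hN₀ : N₀ᵀ = -N₀) :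
    ∃ M : ↥(Cfsg.GU n F q), DatE hF j e M N₀ ∧ (mG M)ᵀ = -mG M := by
  obtain ⟨M, P, c₀, h1, h2, h3⟩ := exists_M hF (ph hF) (ph_apply hF) j hj (ph_ph hF)
    (norm_surj hF) (ε := -1) (e := e) (by ring) (by rw [map_neg, map_one]) he
    (by rw [ph_apply, heq]; ring) N₀ hd (by
      rw [hN₀, neg_smul, one_smul]
      ext r s
      simp)
  refine ⟨mkU hF M h2, ⟨P, c₀, h1⟩, ?_⟩
  rw [mkU_val, h3, neg_smul, one_smul]

theorem exists_skew_elt (hF : Fintype.card F = q ^ 2) : ∃ e : F, e ≠ 0 ∧ e ^ q = -e := by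
  obtain ⟨y, hy⟩ := exists_ph_ne hF
  refine ⟨y - ph hF y, fun h0 => hy (sub_eq_zero.1 h0).symm, ?_⟩
  have : (y - ph hF y) ^ q = ph hF (y - ph hF y) := rfl
  rw [this, map_sub, ph_ph]
  ring

theorem datE_one (hF : Fintype.card F = q ^ 2) (j : F₀ →+* F) :
    DatE hF j 1 (1 : ↥(Cfsg.GU n F q)) (1 : Matrix (Fin n) (Fin n) F₀) := by
  refine ⟨1, 1, ?_, one_ne_zero, ?_, ?_⟩
  · rw [det_one]; exact one_ne_zero
  · have : mG (1 : ↥(Cfsg.GU n F q)) = 1 := rfl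
    rw [this, map_one, Matrix.mul_one, one_smul]
  · rw [map_one, transpose_one, Matrix.mul_one, one_smul]
    ext r s
    simp [Matrix.one_apply]

theorem gamU_one (hF : Fintype.card F = q ^ 2) :
    gamU hF (1 : ↥(Cfsg.GU n F q)) = fl (ph hF) := by
  unfold gamU
  rw [map_one, one_mul]

/-- a symmetric `M'` is never in the class of a skew `M` in odd characteristic -/
theorem not_conj_skew_symm (hF : Fintype.card F = q ^ 2) (hn : 3 ≤ n) (h2 : (2 : F) ≠ 0)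
    {M M' : ↥(Cfsg.GU n F q)} (hM : (mG M)ᵀ = -mG M) (hM' : (mG M')ᵀ = mG M') :
    ¬ Cfsg.IsConjUnder (Cfsg.inndiagPSU n F q) (gamU hF M) (gamU hF M') := by
  have : Nonempty (Fin n) := ⟨⟨0, by omega⟩⟩
  intro hc
  obtain ⟨h, a, e⟩ := (conjU_iff hF hn _ _).1 hc
  have h1 : (mG h * mG M * (mG h)ᵀ)ᵀ = -(mG h * mG M * (mG h)ᵀ) := by
    rw [transpose_mul, transpose_mul, transpose_transpose, hM]
    simp [Matrix.mul_assoc]
  have h3 : (mG h * mG M * (mG h)ᵀ)ᵀ = mG h * mG M * (mG h)ᵀ := by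
    rw [e, transpose_smul, hM']
  rw [h3] at h1
  have h4 : (2 : F) • (mG h * mG M * (mG h)ᵀ) = 0 := by
    rw [two_smul]
    nth_rewrite 1 [h1]
    rw [neg_add_cancel]
  have h5 : mG h * mG M * (mG h)ᵀ = 0 := (smul_eq_zero.1 h4).resolve_left h2
  have h6 := congrArg Matrix.det h5
  rw [det_mul, det_mul, det_transpose, det_zero] at h6
  exact mul_ne_zero (mul_ne_zero (mG_det h) (mG_det M)) (mG_det h) h6

end Cfsg.Agent.Lib.Helper50.GI
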