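import Cfsg.Agent.Lib.Helper50.GIOdd
import Cfsg.Agent.Lib.Helper17.SympCoord

set_option autoImplicit false

/-!
Graph involutions: alternating forms (rung SP).
-/

namespace Cfsg.Agent.Lib.Helper50.GI

open Matrix MatrixGroups Cfsg.Agent.Lib.Helper17

variable {K : Type*} [Field K]

/-- symplectic coordinates for an invertible alternating matrix -/
theorem exists_symp_equiv {m : ℕ} (N : Matrix (Fin (2 * m)) (Fin (2 * m)) K) (hN : Nᵀ = -N)
    (hN0 : ∀ i, N i i = 0) (hd : N.det ≠ 0) :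
    ∃ φ : (Fin (2 * m) → K) ≃ₗ[K] (Fin m ⊕ Fin m → K),
      ∀ u v, Cfsg.sympForm m K (φ u) (φ v) = bf N u v := by
  obtain ⟨Φ, hΦ⟩ := exists_symp_coords (Matrix.toBilin' N) (fun x => by
      rw [toBilin'_eq_bf, bf_self_of_alt hN hN0]) (fun x hx =>
      (LinearMap.BilinForm.nondegenerate_toBilin'_of_det_ne_zero' N hd).1 x hx) (k := m)
      (by rw [Module.finrank_fin_fun])
  refine ⟨Φ.symm, fun u v => ?_⟩
  rw [← hΦ, Φ.apply_symm_apply, Φ.apply_symm_apply, toBilin'_eq_bf]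

/-- RUNG SP -/
theorem simB_alt {m : ℕ} (N : Matrix (Fin (2 * m)) (Fin (2 * m)) K) (hN : Nᵀ = -N)
    (hN0 : ∀ i, N i i = 0) (hd : N.det ≠ 0) :
    Nonempty (Cfsg.projQuot (simB N) ≃* Cfsg.PGSp m K) := by
  obtain ⟨φ, hφ⟩ := exists_symp_equiv N hN hN0 hd
  exact sim_equiv_of_form (bf N) (Cfsg.sympForm m K) φ 1 one_ne_zero (fun u v => by rw [hφ, one_mul])

/-- RUNG CA in even dimension -/
theorem congr_alt_even {m : ℕ} (N N' : Matrix (Fin (2 * m)) (Fin (2 * m)) K) (hN : Nᵀ = -N)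
    (hN0 : ∀ i, N i i = 0) (hN' : N'ᵀ = -N') (hN0' : ∀ i, N' i i = 0) (hd : N.det ≠ 0)
    (hd' : N'.det ≠ 0) : ∃ P : GL (Fin (2 * m)) K, N' = P.1 * N * P.1ᵀ := by
  obtain ⟨φ, hφ⟩ := exists_symp_equiv N hN hN0 hd
  obtain ⟨φ', hφ'⟩ := exists_symp_equiv N' hN' hN0' hd'
  apply congr_of_isometry N N' (φ'.trans φ.symm)
  intro u v
  rw [← hφ, ← hφ']
  simp

end Cfsg.Agent.Lib.Helper50.GI
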