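import Cfsg.Agent.Lib.Helper50.GISp
import Cfsg.Agent.Lib.Helper50.GIField
import Cfsg.Agent.Lib.Helper18.AutPSL.FieldCent
import Cfsg.Agent.Lib.Helper18.AutPSL.Out

set_option autoImplicit false

/-!
Graph involutions of `PSL_n`: splitting of the `Inndiag`-class into `Inn`-classes.
Generic determinant lemmas and cyclic-group indices.
-/

namespace Cfsg.Agent.Lib.Helper50.GI

open Matrix MatrixGroups Cfsg.Agent.Lib.Helper18.AutPSL

section generic

variable {K : Type*} [Field K] {n : ℕ}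

theorem det_sq_of_sim {h M : Matrix (Fin n) (Fin n) K} {a : K} (hM : M.det ≠ 0)
    (e : h * M * hᵀ = a • M) : h.det ^ 2 = a ^ n := by
  have h1 := congrArg Matrix.det e
  rw [det_mul, det_mul, det_transpose, det_smul, Fintype.card_fin] at h1
  apply mul_right_cancel₀ hM
  rw [← h1]
  ring

theorem eq_pow_of_sq_odd {x a : K} (ha : a ≠ 0) (k : ℕ) (h : x ^ 2 = a ^ (2 * k + 1)) :
    (x / a ^ k) ^ (2 * k + 1) = x := by
  have hak : a ^ k ≠ 0 := pow_ne_zero _ ha
  have h1 : (x / a ^ k) ^ 2 = a := by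
    rw [div_pow, h]
    field_simp
    ring
  rw [pow_succ, pow_mul, h1]
  field_simp

theorem eq_of_sq_eq_char2 [CharP K 2] {x y : K} (h : x ^ 2 = y ^ 2) : x = y := by
  have h1 : (x - y) ^ 2 = 0 := by
    rw [sub_sq, h]
    have h2 : (2 : K) = 0 := CharP.cast_eq_zero K 2
    linear_combination (y ^ 2 - x * y) * h2
  exact sub_eq_zero.1 (pow_eq_zero_iff (two_ne_zero) |>.1 h1)

end generic

section cyclic

variable {C : Type*} [CommGroup C] [IsCyclic C] [Finite C]

theorem index_pow_range (d : ℕ) :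
    (powMonoidHom d : C →* C).range.index = Nat.gcd d (Nat.card C) := by
  rw [IsCyclic.index_powMonoidHom_range, Nat.gcd_comm]

theorem index_pow_sup_neg (z : C) (hz : orderOf z = 2) (m : ℕ) :
    ((powMonoidHom m : C →* C).range ⊔ Subgroup.zpowers z).index =
      Nat.gcd (2 * m) (Nat.card C) / 2 := by
  have h2 : 2 ∣ Nat.card C := hz ▸ orderOf_dvd_natCard z
  obtain ⟨k, hk⟩ := h2
  rw [index_sup_of_card (Subgroup.zpowers z) 2 k m (by rw [Nat.card_zpowers, hz]) hk, hk,
    Nat.gcd_mul_left, Nat.mul_div_cancel_left _ (by norm_num)]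

end cyclic

end Cfsg.Agent.Lib.Helper50.GI
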