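import Cfsg.Agent.Lib.Helper50.GISplit
import Cfsg.Agent.Lib.Helper50.GIOdd
import Cfsg.Agent.Lib.Helper66.GIDETSP

set_option autoImplicit false

/-!
Graph involutions of `PSL_n`: the determinants of the centraliser.
-/

namespace Cfsg.Agent.Lib.Helper50.GI

open Matrix MatrixGroups Cfsg.Agent.Lib.Helper18.AutPSL

variable {n : ℕ} {F : Type*} [Field F]

/-- the determinants of the matrices inducing elements of the centraliser of `gam M` -/
noncomputable def detImg (M : GL (Fin n) F) : Subgroup Fˣ :=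
  ((Subgroup.centralizer {gam M}).comap
    (cG : GL (Fin n) F →* MulAut (ProjectiveSpecialLinearGroup (Fin n) F))).map
    GeneralLinearGroup.det

theorem mem_cent_iff (hn : 3 ≤ n) (M h : GL (Fin n) F) :
    h ∈ (Subgroup.centralizer {gam M}).comap
      (cG : GL (Fin n) F →* MulAut (ProjectiveSpecialLinearGroup (Fin n) F)) ↔
      ∃ a : Fˣ, h.1 * M.1 * h.1ᵀ = (a : F) • M.1 := by
  have h1 := mem_Sg_iff (cG : GL (Fin n) F →* MulAut (ProjectiveSpecialLinearGroup (Fin n) F))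
    gTE gr gr_comm M h
  rw [Sg] at h1
  unfold gam
  rw [h1, cG_eq_iff (by omega)]
  rfl

theorem mem_detImg_iff (hn : 3 ≤ n) (M : GL (Fin n) F) (u : Fˣ) :
    u ∈ detImg M ↔ ∃ (h : GL (Fin n) F) (a : Fˣ), h.1 * M.1 * h.1ᵀ = (a : F) • M.1 ∧
      h.1.det = (u : F) := by
  unfold detImg
  rw [Subgroup.mem_map]
  constructor
  · rintro ⟨h, hh, rfl⟩
    obtain ⟨a, ha⟩ := (mem_cent_iff hn M h).1 hh
    exact ⟨h, a, ha, (GeneralLinearGroup.val_det_apply h).symm⟩
  · rintro ⟨h, a, ha, hu⟩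
    refine ⟨h, (mem_cent_iff hn M h).2 ⟨a, ha⟩, ?_⟩
    apply Units.ext
    rw [GeneralLinearGroup.val_det_apply, hu]

theorem split_eq (hn : 3 ≤ n) (M : GL (Fin n) F) :
    Cfsg.splitClassCount (Cfsg.inndiagPSL n F)
      (Cfsg.Inn (ProjectiveSpecialLinearGroup (Fin n) F)) (gam M) = (detImg M).index := by
  have : Nonempty (Fin n) := ⟨⟨0, by omega⟩⟩
  rw [inndiag_eq, inn_eq, splitClassCount_eq cG GeneralLinearGroup.det det_surjective]
  rfl

theorem pow_le_detImg (hn : 3 ≤ n) (M : GL (Fin n) F) :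
    (powMonoidHom n : Fˣ →* Fˣ).range ≤ detImg M := by
  rintro _ ⟨c, rfl⟩
  rw [mem_detImg_iff hn]
  refine ⟨sc (c : F) c.ne_zero, c * c, ?_, ?_⟩
  · rw [sc_val, transpose_smul, transpose_one, smul_mul_assoc, Matrix.one_mul, Matrix.mul_smul,
      Matrix.mul_one, smul_smul, Units.val_mul]
  · rw [sc_val, det_smul, det_one, mul_one, Fintype.card_fin, powMonoidHom_apply,
      Units.val_pow_eq_pow_val]

theorem detImg_odd {k : ℕ} (hn : 3 ≤ 2 * k + 1) (M : GL (Fin (2 * k + 1)) F) :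
    detImg M = (powMonoidHom (2 * k + 1) : Fˣ →* Fˣ).range := by
  apply le_antisymm _ (pow_le_detImg hn M)
  intro u hu
  obtain ⟨h, a, ha, hdet⟩ := (mem_detImg_iff hn M u).1 hu
  have h1 := det_sq_of_sim (gl_det_ne_zero M) ha
  have h2 := eq_pow_of_sq_odd a.ne_zero k h1
  refine ⟨Units.mk0 (h.1.det / (a : F) ^ k)
    (div_ne_zero (gl_det_ne_zero h) (pow_ne_zero _ a.ne_zero)), ?_⟩
  apply Units.ext
  rw [powMonoidHom_apply, Units.val_pow_eq_pow_val, Units.val_mk0, h2, hdet]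

theorem detImg_char2 [Finite F] [CharP F 2] (hn : 3 ≤ n) (M : GL (Fin n) F) :
    detImg M = (powMonoidHom n : Fˣ →* Fˣ).range := by
  apply le_antisymm _ (pow_le_detImg hn M)
  intro u hu
  obtain ⟨h, a, ha, hdet⟩ := (mem_detImg_iff hn M u).1 hu
  have h1 := det_sq_of_sim (gl_det_ne_zero M) ha
  obtain ⟨b, hb⟩ := FiniteField.isSquare_of_char_two (ringChar.eq F 2) (a : F)
  have hb0 : b ≠ 0 := by
    rintro rfl
    rw [mul_zero] at hb
    exact a.ne_zero hb
  refine ⟨Units.mk0 b hb0, ?_⟩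
  apply Units.ext
  rw [powMonoidHom_apply, Units.val_pow_eq_pow_val, Units.val_mk0, ← hdet]
  apply eq_of_sq_eq_char2
  rw [h1, hb]
  ring

theorem detImg_alt [Fintype F] {m : ℕ} (hn : 3 ≤ 2 * m) (M : GL (Fin (2 * m)) F)
    (hM : M.1ᵀ = -M.1) (hM0 : ∀ i, M.1 i i = 0) :
    detImg M = (powMonoidHom m : Fˣ →* Fˣ).range := by
  have key : ∀ (h : GL (Fin (2 * m)) F) (a : Fˣ), h.1 * M.1 * h.1ᵀ = (a : F) • M.1 →
      h.1.det = (a : F) ^ m := by
    intro h a ha
    rw [← det_transpose]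
    apply Cfsg.Agent.Lib.Helper66.GI.det_simB_alt M.1 hM hM0 (gl_det_ne_zero M)
    rw [transpose_transpose]
    exact ha
  apply le_antisymm
  · intro u hu
    obtain ⟨h, a, ha, hdet⟩ := (mem_detImg_iff hn M u).1 hu
    refine ⟨a, ?_⟩
    apply Units.ext
    rw [powMonoidHom_apply, Units.val_pow_eq_pow_val, ← hdet, key h a ha]
  · rintro _ ⟨c, rfl⟩
    rw [mem_detImg_iff hn]
    obtain ⟨P, hP⟩ := congr_alt_even M.1 ((c : F) • M.1) hM hM0
      (by rw [transpose_smul, hM, smul_neg])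
      (by intro i; rw [Matrix.smul_apply, hM0, smul_zero]) (gl_det_ne_zero M)
      (by rw [det_smul]; exact mul_ne_zero (pow_ne_zero _ c.ne_zero) (gl_det_ne_zero M))
    refine ⟨P, c, hP.symm, ?_⟩
    rw [key P c hP.symm, powMonoidHom_apply, Units.val_pow_eq_pow_val]

/-- a reflection for a symmetric matrix -/
theorem exists_refl [Fintype F] (h2 : (2 : F) ≠ 0) (hn : 0 < n) (N : Matrix (Fin n) (Fin n) F)
    (hN : Nᵀ = N) (hd : N.det ≠ 0) :
    ∃ r : GL (Fin n) F, r.1 * N * r.1ᵀ = N ∧ r.1.det = -1 := by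
  let i₀ : Fin n := ⟨0, hn⟩
  obtain ⟨P, hP⟩ := congr_symm h2 (dgn i₀ N.det) N (dgn_transpose _ _) hN
    (by rw [dgn_det]; exact hd) 1 one_ne_zero (by rw [dgn_det]; ring)
  have hR : (dgn i₀ (-1 : F)).det ≠ 0 := by
    rw [dgn_det]
    exact neg_ne_zero.2 one_ne_zero
  have hRR : dgn i₀ (-1 : F) * dgn i₀ N.det * (dgn i₀ (-1 : F))ᵀ = dgn i₀ N.det := by
    rw [dgn_transpose]
    unfold dgn
    rw [diagonal_mul_diagonal, diagonal_mul_diagonal]
    congr 1
    funext i
    by_cases hi : i = i₀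
    · subst hi
      simp
    · simp [Function.update_of_ne hi]
  refine ⟨P * mkGL _ hR * P⁻¹, ?_, ?_⟩
  · rw [Units.val_mul, Units.val_mul, mkGL_val]
    conv_lhs => rw [hP]
    calc P.1 * dgn i₀ (-1 : F) * P⁻¹.1 * (P.1 * dgn i₀ N.det * P.1ᵀ) *
          (P.1 * dgn i₀ (-1 : F) * P⁻¹.1)ᵀ
        = P.1 * (dgn i₀ (-1 : F) * (P⁻¹.1 * P.1) * dgn i₀ N.det * (P⁻¹.1 * P.1)ᵀ *
          (dgn i₀ (-1 : F))ᵀ) * P.1ᵀ := by
          simp only [transpose_mul, Matrix.mul_assoc]
      _ = N := by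
          rw [Units.inv_mul, transpose_one, Matrix.mul_one, Matrix.mul_one, hRR]
          exact hP.symm
  · rw [Units.val_mul, Units.val_mul, mkGL_val, det_mul, det_mul, dgn_det]
    have h1 : P.1.det * P⁻¹.1.det = 1 := by rw [← det_mul, Units.mul_inv, det_one]
    linear_combination -h1

theorem detImg_symm [Fintype F] (h2 : (2 : F) ≠ 0) {m : ℕ} (hn : 3 ≤ 2 * m)
    (M : GL (Fin (2 * m)) F) (hM : M.1ᵀ = M.1) :
    detImg M = (powMonoidHom m : Fˣ →* Fˣ).range ⊔ Subgroup.zpowers (-1) := by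
  have key : ∀ (h : GL (Fin (2 * m)) F) (a : Fˣ), h.1 * M.1 * h.1ᵀ = (a : F) • M.1 →
      h.1.det = (a : F) ^ m ∨ h.1.det = -(a : F) ^ m := by
    intro h a ha
    have h1 := det_sq_of_sim (gl_det_ne_zero M) ha
    have h3 : (h.1.det - (a : F) ^ m) * (h.1.det + (a : F) ^ m) = 0 := by
      linear_combination h1
    rcases mul_eq_zero.1 h3 with h4 | h4
    · left; exact sub_eq_zero.1 h4
    · right; exact eq_neg_of_add_eq_zero_left h4
  have hneg : (-1 : Fˣ) ∈ detImg M := by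
    obtain ⟨r, hr, hdet⟩ := exists_refl h2 (by omega) M.1 hM (gl_det_ne_zero M)
    rw [mem_detImg_iff hn]
    exact ⟨r, 1, by rw [hr, Units.val_one, one_smul], by rw [hdet]; simp⟩
  apply le_antisymm
  · intro u hu
    obtain ⟨h, a, ha, hdet⟩ := (mem_detImg_iff hn M u).1 hu
    rcases key h a ha with h1 | h1
    · apply Subgroup.mem_sup_left
      refine ⟨a, ?_⟩
      apply Units.ext
      rw [powMonoidHom_apply, Units.val_pow_eq_pow_val, ← hdet, h1]
    · have : u = a ^ m * (-1) := by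
        apply Units.ext
        rw [← hdet, h1]
        simp
      rw [this]
      exact Subgroup.mul_mem_sup ⟨a, rfl⟩ (Subgroup.mem_zpowers _)
  · apply sup_le
    · rintro _ ⟨c, rfl⟩
      obtain ⟨P, hP⟩ := congr_symm h2 M.1 ((c : F) • M.1) hM (by rw [transpose_smul, hM])
        (gl_det_ne_zero M) ((c : F) ^ m) (pow_ne_zero _ c.ne_zero)
        (by rw [det_smul, Fintype.card_fin]; ring)
      have hmem : GeneralLinearGroup.det P ∈ detImg M :=
        (mem_detImg_iff hn M _).2 ⟨P, c, hP.symm, (GeneralLinearGroup.val_det_apply P).symm⟩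
      rcases key P c hP.symm with h1 | h1
      · have : (powMonoidHom m : Fˣ →* Fˣ) c = GeneralLinearGroup.det P := by
          apply Units.ext
          rw [powMonoidHom_apply, Units.val_pow_eq_pow_val, GeneralLinearGroup.val_det_apply, h1]
        rw [this]
        exact hmem
      · have : (powMonoidHom m : Fˣ →* Fˣ) c = GeneralLinearGroup.det P * (-1) := by
          apply Units.ext
          rw [powMonoidHom_apply, Units.val_pow_eq_pow_val, Units.val_mul,
            GeneralLinearGroup.val_det_apply, h1]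
          simp
        rw [this]
        exact Subgroup.mul_mem _ hmem hneg
    · rw [Subgroup.zpowers_le]
      exact hneg

end Cfsg.Agent.Lib.Helper50.GI
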