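import Cfsg.Agent.Lib.Helper50.GIDesc3
import Cfsg.Agent.Lib.Helper50.GISplitL
import Cfsg.Agent.Lib.Helper47.AutPSUCent

set_option autoImplicit false
set_option linter.unusedSectionVars false

/-!
Graph involutions of `PSU_n`: the determinants of the centraliser.
-/

namespace Cfsg.Agent.Lib.Helper50.GI

open Matrix MatrixGroups Cfsg.Agent.Lib.Helper99.AutPSU
open Cfsg.Agent.Lib.Helper47.AutPSU (ph ph_apply ph_ph U1 mem_U1 card_U1 detU detU_val scU scU_val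
  detU_surjective det_gu)
open Cfsg.Agent.Lib.Helper18.AutPSL (mp mp_apply mp_eq_map mp_smul splitClassCount_eq)

variable {F : Type*} [Field F] [Fintype F] {q n : ℕ} {F₀ : Type*} [Field F₀]

/-- the determinants of the unitary matrices inducing elements of the centraliser of `gamU M` -/
noncomputable def detImgU (hF : Fintype.card F = q ^ 2) (M : ↥(Cfsg.GU n F q)) :
    Subgroup ↥(U1 F q) :=
  ((Subgroup.centralizer {gamU hF M}).comap
    (cG : ↥(Cfsg.GU n F q) →* MulAut (Cfsg.PSU n F q))).map (detU hF)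

/-- build an element of `U1` -/
def mkU1 (x : F) (hx : x ^ (q + 1) = 1) : ↥(U1 F q) :=
  ⟨Units.mk0 x (by
    rintro rfl
    rw [zero_pow (by omega)] at hx
    exact zero_ne_one hx), mem_U1.2 hx⟩

theorem mkU1_val (x : F) (hx : x ^ (q + 1) = 1) : (((mkU1 x hx : ↥(U1 F q)) : Fˣ) : F) = x := rfl

theorem U1_ext {a b : ↥(U1 F q)} (h : ((a : Fˣ) : F) = ((b : Fˣ) : F)) : a = b :=
  Subtype.ext (Units.ext h)

theorem U1_pow_val (a : ↥(U1 F q)) (k : ℕ) : (((a ^ k : ↥(U1 F q)) : Fˣ) : F) = ((a : Fˣ) : F) ^ k := by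
  rw [Subgroup.coe_pow, Units.val_pow_eq_pow_val]

theorem U1_norm (a : ↥(U1 F q)) : ((a : Fˣ) : F) ^ (q + 1) = 1 := mem_U1.1 a.2

theorem mem_detImgU_iff (hF : Fintype.card F = q ^ 2) (hn : 3 ≤ n) (M : ↥(Cfsg.GU n F q))
    (u : ↥(U1 F q)) :
    u ∈ detImgU hF M ↔ ∃ (h : ↥(Cfsg.GU n F q)) (a : F),
      mG h * mG M * (mG h)ᵀ = a • mG M ∧ (mG h).det = ((u : Fˣ) : F) := by
  unfold detImgU
  rw [Subgroup.mem_map]
  constructor
  · rintro ⟨h, hh, rfl⟩
    obtain ⟨a, ha⟩ := (mem_SgU_iff hF hn M h).1 hh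
    exact ⟨h, a, ha, (detU_val hF h).symm⟩
  · rintro ⟨h, a, ha, hu⟩
    refine ⟨h, (mem_SgU_iff hF hn M h).2 ⟨a, ha⟩, ?_⟩
    apply U1_ext
    rw [detU_val, ← hu]

theorem splitU_eq (hF : Fintype.card F = q ^ 2) (hn : 3 ≤ n) (M : ↥(Cfsg.GU n F q)) :
    Cfsg.splitClassCount (Cfsg.inndiagPSU n F q) (Cfsg.Inn (Cfsg.PSU n F q)) (gamU hF M) =
      (detImgU hF M).index := by
  rw [inndiag_eq, Cfsg.Agent.Lib.Helper47.AutPSU.inn_eq hF,
    splitClassCount_eq cG (detU hF) (detU_surjective hF (by omega))]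
  rfl

/-- multipliers have norm one -/
theorem mult_norm (hF : Fintype.card F = q ^ 2) (hn : 0 < n) (h M : ↥(Cfsg.GU n F q)) (a : F)
    (e : mG h * mG M * (mG h)ᵀ = a • mG M) : a ^ (q + 1) = 1 := by
  have e1 : mG (h * M * (mapGU (ph hF) h)⁻¹) = a • mG M := by
    rw [mG_mul, mG_mul, mapGU_inv_val, e]
  have e2 := gu_U hF (h * M * (mapGU (ph hF) h)⁻¹)
  rw [e1, mp_smul, transpose_smul, smul_mul_assoc, Matrix.mul_smul, smul_smul, gu_U] at e2
  have e3 := congrFun (congrFun e2 ⟨0, hn⟩) ⟨0, hn⟩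
  rw [Matrix.smul_apply, one_apply_eq, smul_eq_mul, mul_one, ph_apply, ← pow_succ'] at e3
  exact e3

theorem pow_le_detImgU (hF : Fintype.card F = q ^ 2) (hn : 3 ≤ n) (M : ↥(Cfsg.GU n F q)) :
    (powMonoidHom n : ↥(U1 F q) →* ↥(U1 F q)).range ≤ detImgU hF M := by
  rintro _ ⟨c, rfl⟩
  rw [mem_detImgU_iff hF hn]
  refine ⟨scU hF ((c : Fˣ) : F) (U1_norm c), ((c : Fˣ) : F) * ((c : Fˣ) : F), ?_, ?_⟩
  · have : mG (scU hF ((c : Fˣ) : F) (U1_norm c) : ↥(Cfsg.GU n F q)) =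
        ((c : Fˣ) : F) • (1 : Matrix (Fin n) (Fin n) F) := rfl
    rw [this, transpose_smul, transpose_one, smul_mul_assoc, Matrix.one_mul, Matrix.mul_smul,
      Matrix.mul_one, smul_smul]
  · have : mG (scU hF ((c : Fˣ) : F) (U1_norm c) : ↥(Cfsg.GU n F q)) =
        ((c : Fˣ) : F) • (1 : Matrix (Fin n) (Fin n) F) := rfl
    rw [this, det_smul, det_one, mul_one, Fintype.card_fin, powMonoidHom_apply, U1_pow_val]

theorem detImgU_odd (hF : Fintype.card F = q ^ 2) {k : ℕ} (hn : 3 ≤ 2 * k + 1)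
    (M : ↥(Cfsg.GU (2 * k + 1) F q)) :
    detImgU hF M = (powMonoidHom (2 * k + 1) : ↥(U1 F q) →* ↥(U1 F q)).range := by
  apply le_antisymm _ (pow_le_detImgU hF hn M)
  intro u hu
  obtain ⟨h, a, ha, hdet⟩ := (mem_detImgU_iff hF hn M u).1 hu
  have hna := mult_norm hF (by omega) h M a ha
  have ha0 : a ≠ 0 := by
    rintro rfl
    rw [zero_pow (by omega)] at hna
    exact zero_ne_one hna
  have h1 := det_sq_of_sim (mG_det M) ha
  have h2 := eq_pow_of_sq_odd ha0 k h1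
  refine ⟨mkU1 ((mG h).det / a ^ k) (by
    rw [div_pow, det_gu hF h, ← pow_mul, mul_comm, pow_mul, hna, one_pow, div_one]), ?_⟩
  apply U1_ext
  rw [powMonoidHom_apply, U1_pow_val, mkU1_val, h2, hdet]

theorem detImgU_char2 [CharP F 2] (hF : Fintype.card F = q ^ 2) (hn : 3 ≤ n)
    (M : ↥(Cfsg.GU n F q)) :
    detImgU hF M = (powMonoidHom n : ↥(U1 F q) →* ↥(U1 F q)).range := by
  apply le_antisymm _ (pow_le_detImgU hF hn M)
  intro u hu
  obtain ⟨h, a, ha, hdet⟩ := (mem_detImgU_iff hF hn M u).1 hu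
  have hna := mult_norm hF (by omega) h M a ha
  have h1 := det_sq_of_sim (mG_det M) ha
  obtain ⟨b, hb⟩ := FiniteField.isSquare_of_char_two (ringChar.eq F 2) a
  have hnb : b ^ (q + 1) = 1 := by
    apply eq_of_sq_eq_char2
    rw [one_pow, ← pow_mul, mul_comm, pow_mul, sq, ← hb, hna]
  refine ⟨mkU1 b hnb, ?_⟩
  apply U1_ext
  rw [powMonoidHom_apply, U1_pow_val, mkU1_val, ← hdet]
  apply eq_of_sq_eq_char2
  rw [h1, hb]
  ring

theorem detImgU_alt [Fintype F₀] (hF : Fintype.card F = q ^ 2) (j : F₀ →+* F)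
    (hj : ∀ x : F, x ^ q = x ↔ ∃ y, j y = x) {m : ℕ} (hn : 3 ≤ 2 * m)
    (M : ↥(Cfsg.GU (2 * m) F q)) (hM : (mG M)ᵀ = -mG M) (hM0 : ∀ i, mG M i i = 0)
    {e : F} {N₀ : Matrix (Fin (2 * m)) (Fin (2 * m)) F₀} (hD : DatE hF j e M N₀)
    (hN₀ : N₀ᵀ = -N₀) (hN0 : ∀ i, N₀ i i = 0) (hd : N₀.det ≠ 0) :
    detImgU hF M = (powMonoidHom m : ↥(U1 F q) →* ↥(U1 F q)).range := by
  have key : ∀ (h : ↥(Cfsg.GU (2 * m) F q)) (a : F), mG h * mG M * (mG h)ᵀ = a • mG M →
      (mG h).det = a ^ m := by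
    intro h a ha
    rw [← det_transpose]
    apply Cfsg.Agent.Lib.Helper66.GI.det_simB_alt (mG M) hM hM0 (mG_det M)
    rw [transpose_transpose]
    exact ha
  apply le_antisymm
  · intro u hu
    obtain ⟨h, a, ha, hdet⟩ := (mem_detImgU_iff hF hn M u).1 hu
    refine ⟨mkU1 a (mult_norm hF (by omega) h M a ha), ?_⟩
    apply U1_ext
    rw [powMonoidHom_apply, U1_pow_val, mkU1_val, ← hdet, key h a ha]
  · rintro _ ⟨c, rfl⟩
    rw [mem_detImgU_iff hF hn]
    obtain ⟨h, hh⟩ := exists_mult hF j hj hD (by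
      intro ν hν
      obtain ⟨P, hP⟩ := congr_alt_even N₀ (ν⁻¹ • N₀) hN₀ hN0
        (by rw [transpose_smul, hN₀, smul_neg])
        (by intro i; rw [Matrix.smul_apply, hN0, smul_zero]) hd
        (by rw [det_smul]; exact mul_ne_zero (pow_ne_zero _ (inv_ne_zero hν)) hd)
      refine ⟨P.1ᵀ, ?_⟩
      rw [transpose_transpose, ← hP, smul_smul, mul_inv_cancel₀ hν, one_smul])
      ((c : Fˣ) : F) (U1_norm c)
    refine ⟨h, _, hh, ?_⟩
    rw [key h _ hh, powMonoidHom_apply, U1_pow_val]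

theorem detImgU_symm [Fintype F₀] (hF : Fintype.card F = q ^ 2) (j : F₀ →+* F)
    (hj : ∀ x : F, x ^ q = x ↔ ∃ y, j y = x) (h2 : (2 : F₀) ≠ 0) {m : ℕ} (hn : 3 ≤ 2 * m)
    (M : ↥(Cfsg.GU (2 * m) F q))
    {e : F} {N₀ : Matrix (Fin (2 * m)) (Fin (2 * m)) F₀} (hD : DatE hF j e M N₀)
    (hN₀ : N₀ᵀ = N₀) (hd : N₀.det ≠ 0) (z : ↥(U1 F q)) (hz : ((z : Fˣ) : F) = -1) :
    detImgU hF M = (powMonoidHom m : ↥(U1 F q) →* ↥(U1 F q)).range ⊔ Subgroup.zpowers z := by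
  have key : ∀ (h : ↥(Cfsg.GU (2 * m) F q)) (a : F), mG h * mG M * (mG h)ᵀ = a • mG M →
      (mG h).det = a ^ m ∨ (mG h).det = -a ^ m := by
    intro h a ha
    have h1 := det_sq_of_sim (mG_det M) ha
    have h3 : ((mG h).det - a ^ m) * ((mG h).det + a ^ m) = 0 := by
      linear_combination h1
    rcases mul_eq_zero.1 h3 with h4 | h4
    · left; exact sub_eq_zero.1 h4
    · right; exact eq_neg_of_add_eq_zero_left h4
  have hneg : z ∈ detImgU hF M := by
    obtain ⟨r, hr, hdet⟩ := exists_refl h2 (by omega) N₀ hN₀ hd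
    obtain ⟨h, hh, hdh⟩ := exists_lift_isom hF j hj hD r.1ᵀ (by rw [transpose_transpose]; exact hr)
    rw [mem_detImgU_iff hF hn]
    exact ⟨h, 1, hh, by rw [hdh, det_transpose, hdet, hz, map_neg, map_one]⟩
  apply le_antisymm
  · intro u hu
    obtain ⟨h, a, ha, hdet⟩ := (mem_detImgU_iff hF hn M u).1 hu
    have hna := mult_norm hF (by omega) h M a ha
    rcases key h a ha with h1 | h1
    · apply Subgroup.mem_sup_left
      refine ⟨mkU1 a hna, ?_⟩
      apply U1_ext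
      rw [powMonoidHom_apply, U1_pow_val, mkU1_val, ← hdet, h1]
    · have : u = (mkU1 a hna) ^ m * z := by
        apply U1_ext
        rw [← hdet, h1, Subgroup.coe_mul, Units.val_mul, U1_pow_val, mkU1_val, hz]
        ring
      rw [this]
      exact Subgroup.mul_mem_sup ⟨mkU1 a hna, rfl⟩ (Subgroup.mem_zpowers _)
  · apply sup_le
    · rintro _ ⟨c, rfl⟩
      obtain ⟨h, hh⟩ := exists_mult hF j hj hD (by
        intro ν hν
        obtain ⟨P, hP⟩ := congr_symm h2 N₀ (ν⁻¹ • N₀) hN₀ (by rw [transpose_smul, hN₀]) hd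
          ((ν⁻¹) ^ m) (pow_ne_zero _ (inv_ne_zero hν))
          (by rw [det_smul, Fintype.card_fin]; ring)
        refine ⟨P.1ᵀ, ?_⟩
        rw [transpose_transpose, ← hP, smul_smul, mul_inv_cancel₀ hν, one_smul])
        ((c : Fˣ) : F) (U1_norm c)
      have hmem : detU hF h ∈ detImgU hF M :=
        (mem_detImgU_iff hF hn M _).2 ⟨h, _, hh, (detU_val hF h).symm⟩
      rcases key h _ hh with h1 | h1
      · have : (powMonoidHom m : ↥(U1 F q) →* ↥(U1 F q)) c = detU hF h := by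
          apply U1_ext
          rw [powMonoidHom_apply, U1_pow_val, detU_val]
          exact h1.symm
        rw [this]
        exact hmem
      · have : (powMonoidHom m : ↥(U1 F q) →* ↥(U1 F q)) c = detU hF h * z := by
          apply U1_ext
          rw [powMonoidHom_apply, U1_pow_val, Subgroup.coe_mul, Units.val_mul, detU_val, hz]
          have h1' : (h : GL (Fin (2 * m)) F).1.det = -((c : Fˣ) : F) ^ m := h1
          rw [h1']
          ring
        rw [this]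
        exact Subgroup.mul_mem _ hmem hneg
    · rw [Subgroup.zpowers_le]
      exact hneg

end Cfsg.Agent.Lib.Helper50.GI
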