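import Cfsg.Agent.Lib.Helper50.HermIso
import Cfsg.Agent.Lib.Helper50.QuadIso

set_option autoImplicit false
open Matrix QuadraticMap

namespace Cfsg.Agent.Lib.Helper50.GUE

open Cfsg.Agent.Lib.Helper50.Quad Cfsg.Agent.Lib.Helper50.Herm

variable {F K : Type*} [Field F] [Field K] [Algebra F K]

/-- coordinates of `K ^ m` over `F` with respect to `1, -θ` -/
noncomputable def G (θ : K) (m : ℕ) : (Fin m ⊕ Fin m → F) →ₗ[F] (Fin m → K) where
  toFun w i := algebraMap F K (w (.inl i)) - algebraMap F K (w (.inr i)) * θ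
  map_add' w w' := by
    ext i
    simp only [Pi.add_apply, map_add]
    ring
  map_smul' c w := by
    ext i
    simp only [Pi.smul_apply, smul_eq_mul, map_mul, RingHom.id_apply, Algebra.smul_def]
    ring

theorem G_apply (θ : K) (m : ℕ) (w : Fin m ⊕ Fin m → F) (i : Fin m) :
    G θ m w i = algebraMap F K (w (.inl i)) - algebraMap F K (w (.inr i)) * θ := rfl

variable [Fintype F] [Fintype K]

theorem G_bijective (h2 : Module.finrank F K = 2) (θ : K) (hθ : θ ^ Fintype.card F ≠ θ) (m : ℕ) :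
    Function.Bijective (G (F := F) θ m) := by
  constructor
  · intro w w' h
    have h1 : ∀ i, (w (.inl i), w (.inr i)) = (w' (.inl i), w' (.inr i)) := by
      intro i
      apply (coordEquiv h2 θ hθ).injective
      exact congrFun h i
    ext (i | i)
    · exact congrArg Prod.fst (h1 i)
    · exact congrArg Prod.snd (h1 i)
  · intro v
    refine ⟨Sum.elim (fun i => ((coordEquiv h2 θ hθ).symm (v i)).1) (fun i => ((coordEquiv h2 θ hθ).symm (v i)).2), ?_⟩
    ext i
    exact (coordEquiv h2 θ hθ).apply_symm_apply (v i)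

/-- the coordinate isomorphism -/
noncomputable def Ge (h2 : Module.finrank F K = 2) (θ : K) (hθ : θ ^ Fintype.card F ≠ θ) (m : ℕ) :
    (Fin m ⊕ Fin m → F) ≃ₗ[F] (Fin m → K) :=
  LinearEquiv.ofBijective (G θ m) (G_bijective h2 θ hθ m)

theorem Ge_apply (h2 : Module.finrank F K = 2) (θ : K) (hθ : θ ^ Fintype.card F ≠ θ) (m : ℕ)
    (w : Fin m ⊕ Fin m → F) : Ge h2 θ hθ m w = G θ m w := rfl

/-- the `F`-linear map induced by a matrix over `K` -/
noncomputable def fA (h2 : Module.finrank F K = 2) (θ : K) (hθ : θ ^ Fintype.card F ≠ θ) (m : ℕ)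
    (A : Matrix (Fin m) (Fin m) K) : (Fin m ⊕ Fin m → F) →ₗ[F] (Fin m ⊕ Fin m → F) :=
  (Ge h2 θ hθ m).symm.toLinearMap ∘ₗ (A.mulVecLin.restrictScalars F) ∘ₗ (Ge h2 θ hθ m).toLinearMap

theorem fA_apply (h2 : Module.finrank F K = 2) (θ : K) (hθ : θ ^ Fintype.card F ≠ θ) (m : ℕ)
    (A : Matrix (Fin m) (Fin m) K) (w : Fin m ⊕ Fin m → F) :
    fA h2 θ hθ m A w = (Ge h2 θ hθ m).symm (A *ᵥ G θ m w) := rfl

/-- restriction of scalars on matrices -/
noncomputable def Φ₀ (h2 : Module.finrank F K = 2) (θ : K) (hθ : θ ^ Fintype.card F ≠ θ) (m : ℕ) :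
    Matrix (Fin m) (Fin m) K →* Matrix (Fin m ⊕ Fin m) (Fin m ⊕ Fin m) F where
  toFun A := LinearMap.toMatrix' (fA h2 θ hθ m A)
  map_one' := by
    have h : fA h2 θ hθ m (1 : Matrix (Fin m) (Fin m) K) = LinearMap.id := by
      apply LinearMap.ext
      intro w
      rw [fA_apply, one_mulVec, ← Ge_apply h2 θ hθ, LinearEquiv.symm_apply_apply]
      rfl
    rw [h, LinearMap.toMatrix'_id]
  map_mul' A B := by
    have h : fA h2 θ hθ m (A * B) = fA h2 θ hθ m A ∘ₗ fA h2 θ hθ m B := by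
      apply LinearMap.ext
      intro w
      rw [LinearMap.comp_apply, fA_apply, fA_apply, fA_apply, ← Ge_apply h2 θ hθ m ((Ge h2 θ hθ m).symm _),
        LinearEquiv.apply_symm_apply, mulVec_mulVec]
    rw [h, LinearMap.toMatrix'_comp]

theorem G_Φ₀ (h2 : Module.finrank F K = 2) (θ : K) (hθ : θ ^ Fintype.card F ≠ θ) (m : ℕ)
    (A : Matrix (Fin m) (Fin m) K) (w : Fin m ⊕ Fin m → F) :
    G θ m (Φ₀ h2 θ hθ m A *ᵥ w) = A *ᵥ G θ m w := by
  change G θ m (LinearMap.toMatrix' (fA h2 θ hθ m A) *ᵥ w) = _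
  rw [LinearMap.toMatrix'_mulVec, fA_apply, ← Ge_apply h2 θ hθ, LinearEquiv.apply_symm_apply]

theorem Φ₀_injective (h2 : Module.finrank F K = 2) (θ : K) (hθ : θ ^ Fintype.card F ≠ θ) (m : ℕ) :
    Function.Injective (Φ₀ (F := F) h2 θ hθ m) := by
  intro A B h
  have h1 : ∀ v : Fin m → K, A *ᵥ v = B *ᵥ v := by
    intro v
    obtain ⟨w, rfl⟩ := (G_bijective h2 θ hθ m).2 v
    rw [← G_Φ₀ h2 θ hθ, ← G_Φ₀ h2 θ hθ, h]
  ext i j
  have := congrFun (h1 (Pi.single j 1)) i
  rwa [mulVec_single_one, mulVec_single_one] at this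

/-- the sum of `m` copies of the norm form -/
noncomputable def QN (a b : F) (m : ℕ) : QuadraticForm F (Fin m ⊕ Fin m → F) :=
  ∑ i : Fin m, (QuadraticMap.linMulLin (LinearMap.proj (Sum.inl i)) (LinearMap.proj (Sum.inl i)) +
    a • QuadraticMap.linMulLin (LinearMap.proj (Sum.inl i)) (LinearMap.proj (Sum.inr i)) +
    b • QuadraticMap.linMulLin (LinearMap.proj (Sum.inr i)) (LinearMap.proj (Sum.inr i)))

omit [Fintype F] in
theorem QN_apply (a b : F) (m : ℕ) (w : Fin m ⊕ Fin m → F) :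
    QN a b m w = ∑ i : Fin m, (w (.inl i) ^ 2 + a * w (.inl i) * w (.inr i) + b * w (.inr i) ^ 2) := by
  simp only [QN, _root_.sum_apply, _root_.add_apply, _root_.smul_apply, QuadraticMap.linMulLin_apply,
    LinearMap.proj_apply, smul_eq_mul]
  exact Finset.sum_congr rfl (fun i _ => by ring)

omit [Fintype F] in
theorem QN_polar (a b : F) (m : ℕ) (u v : Fin m ⊕ Fin m → F) :
    polar (QN a b m) u v = ∑ i : Fin m, (2 * u (.inl i) * v (.inl i) +
      a * (u (.inl i) * v (.inr i) + u (.inr i) * v (.inl i)) + 2 * b * u (.inr i) * v (.inr i)) := by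
  simp only [polar, QN_apply, Pi.add_apply]
  rw [← Finset.sum_sub_distrib, ← Finset.sum_sub_distrib]
  exact Finset.sum_congr rfl (fun i _ => by ring)

theorem G_pow (θ : K) (h2 : Module.finrank F K = 2) (m : ℕ) (w : Fin m ⊕ Fin m → F) (i : Fin m) :
    (G θ m w i) ^ Fintype.card F =
      algebraMap F K (w (.inl i)) - algebraMap F K (w (.inr i)) * θ ^ Fintype.card F := by
  rw [G_apply, sub_pow_q (card_K h2), mul_pow, algebraMap_pow_q, algebraMap_pow_q]

theorem herm_G (h2 : Module.finrank F K = 2) (θ : K) (a b : F)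
    (hs : θ + θ ^ Fintype.card F = - algebraMap F K a) (hp : θ * θ ^ Fintype.card F = algebraMap F K b) (m : ℕ)
    (w : Fin m ⊕ Fin m → F) :
    Cfsg.hermForm m K (Fintype.card F) (G θ m w) (G θ m w) = algebraMap F K (QN a b m w) := by
  rw [QN_apply, map_sum, Cfsg.hermForm]
  apply Finset.sum_congr rfl
  intro i _
  rw [G_pow θ h2, G_apply]
  simp only [map_add, map_mul, map_pow]
  rw [← hp]
  linear_combination (- algebraMap F K (w (.inl i)) * algebraMap F K (w (.inr i))) * hs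

/-- the standard alternating form, up to sign -/
def σ (m : ℕ) (u v : Fin m ⊕ Fin m → F) : F := ∑ i : Fin m, (u (.inl i) * v (.inr i) - u (.inr i) * v (.inl i))

theorem herm_G_skew (h2 : Module.finrank F K = 2) (θ : K) (m : ℕ) (u v : Fin m ⊕ Fin m → F) :
    Cfsg.hermForm m K (Fintype.card F) (G θ m u) (G θ m v) - Cfsg.hermForm m K (Fintype.card F) (G θ m v) (G θ m u) =
      (θ - θ ^ Fintype.card F) * algebraMap F K (σ m u v) := by
  rw [σ, map_sum, Cfsg.hermForm, Cfsg.hermForm, ← Finset.sum_sub_distrib, Finset.mul_sum]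
  apply Finset.sum_congr rfl
  intro i _
  rw [G_pow θ h2, G_pow θ h2, G_apply, G_apply]
  simp only [map_sub, map_mul]
  ring

theorem QN_pres (h2 : Module.finrank F K = 2) (θ : K) (hθ : θ ^ Fintype.card F ≠ θ) (a b : F)
    (hs : θ + θ ^ Fintype.card F = - algebraMap F K a) (hp : θ * θ ^ Fintype.card F = algebraMap F K b) (m : ℕ)
    (g : Matrix.GeneralLinearGroup (Fin m) K) (hg : g ∈ Cfsg.GU m K (Fintype.card F)) (w : Fin m ⊕ Fin m → F) :
    QN a b m (Φ₀ h2 θ hθ m (g : Matrix (Fin m) (Fin m) K) *ᵥ w) = QN a b m w := by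
  apply (algebraMap F K).injective
  rw [← herm_G h2 θ a b hs hp, ← herm_G h2 θ a b hs hp, G_Φ₀]
  exact (mem_GU_iff m g).1 hg _ _

theorem σ_pres (h2 : Module.finrank F K = 2) (θ : K) (hθ : θ ^ Fintype.card F ≠ θ) (m : ℕ)
    (g : Matrix.GeneralLinearGroup (Fin m) K) (hg : g ∈ Cfsg.GU m K (Fintype.card F)) (u v : Fin m ⊕ Fin m → F) :
    σ m (Φ₀ h2 θ hθ m (g : Matrix (Fin m) (Fin m) K) *ᵥ u) (Φ₀ h2 θ hθ m (g : Matrix (Fin m) (Fin m) K) *ᵥ v) =
      σ m u v := by
  apply (algebraMap F K).injective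
  have hne : θ - θ ^ Fintype.card F ≠ 0 := fun h => hθ (sub_eq_zero.1 h).symm
  apply mul_left_cancel₀ hne
  rw [← herm_G_skew h2, ← herm_G_skew h2, G_Φ₀, G_Φ₀, (mem_GU_iff m g).1 hg, (mem_GU_iff m g).1 hg]

/-- the embedding of `GL_m(K)` into `GL_2m(F)` -/
noncomputable def ΦGL (h2 : Module.finrank F K = 2) (θ : K) (hθ : θ ^ Fintype.card F ≠ θ) (m : ℕ) :
    Matrix.GeneralLinearGroup (Fin m) K →* Matrix.GeneralLinearGroup (Fin m ⊕ Fin m) F :=
  Units.map (Φ₀ h2 θ hθ m)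

theorem ΦGL_coe (h2 : Module.finrank F K = 2) (θ : K) (hθ : θ ^ Fintype.card F ≠ θ) (m : ℕ)
    (g : Matrix.GeneralLinearGroup (Fin m) K) :
    ((ΦGL h2 θ hθ m g : Matrix.GeneralLinearGroup (Fin m ⊕ Fin m) F) : Matrix (Fin m ⊕ Fin m) (Fin m ⊕ Fin m) F) =
      Φ₀ h2 θ hθ m (g : Matrix (Fin m) (Fin m) K) := rfl

theorem ΦGL_injective (h2 : Module.finrank F K = 2) (θ : K) (hθ : θ ^ Fintype.card F ≠ θ) (m : ℕ) :
    Function.Injective (ΦGL (F := F) h2 θ hθ m) := by
  intro g g' h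
  apply Units.ext
  apply Φ₀_injective h2 θ hθ m
  rw [← ΦGL_coe, ← ΦGL_coe, h]

theorem ΦGL_mem (h2 : Module.finrank F K = 2) (θ : K) (hθ : θ ^ Fintype.card F ≠ θ) (a b : F)
    (hs : θ + θ ^ Fintype.card F = - algebraMap F K a) (hp : θ * θ ^ Fintype.card F = algebraMap F K b) (m : ℕ)
    (g : Matrix.GeneralLinearGroup (Fin m) K) (hg : g ∈ Cfsg.GU m K (Fintype.card F)) :
    ΦGL h2 θ hθ m g ∈ Cfsg.isometryGroup F (fun w => QN a b m w) := by
  rw [mem_isometryGroup_iff]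
  intro w
  rw [ΦGL_coe]
  exact QN_pres h2 θ hθ a b hs hp m g hg w

omit [Fintype F] in
theorem QN_nondeg (a b : F) (hd : a ^ 2 - 4 * b ≠ 0) (m : ℕ) : Nondeg (QN a b m) ⊤ := by
  classical
  intro w _ hw
  by_contra hcon
  push Not at hcon
  apply hw
  have key : ∀ i, w (.inl i) = 0 ∧ w (.inr i) = 0 := by
    intro i
    have h0 := hcon (Pi.single (.inl i) 1) Submodule.mem_top
    have h1 := hcon (Pi.single (.inr i) 1) Submodule.mem_top
    rw [QN_polar] at h0 h1
    simp [Pi.single_apply, Finset.sum_add_distrib] at h0 h1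
    have e0 : (a ^ 2 - 4 * b) * w (.inl i) = 0 := by linear_combination a * h1 - 2 * b * h0
    have e1 : (a ^ 2 - 4 * b) * w (.inr i) = 0 := by linear_combination a * h0 - 2 * h1
    exact ⟨(mul_eq_zero.1 e0).resolve_left hd, (mul_eq_zero.1 e1).resolve_left hd⟩
  ext (i | i)
  · exact (key i).1
  · exact (key i).2

theorem card_sing_QN (h2 : Module.finrank F K = 2) (θ : K) (hθ : θ ^ Fintype.card F ≠ θ) (a b : F)
    (hs : θ + θ ^ Fintype.card F = - algebraMap F K a) (hp : θ * θ ^ Fintype.card F = algebraMap F K b) (m : ℕ) :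
    Nat.card {w : Fin m ⊕ Fin m → F // QN a b m w = 0} = zCard K (Fintype.card F) m := by
  rw [zCard]
  apply Nat.card_congr
  apply (Ge h2 θ hθ m).toEquiv.subtypeEquiv
  intro w
  change _ ↔ Cfsg.hermForm m K (Fintype.card F) (G θ m w) (G θ m w) = 0
  rw [herm_G h2 θ a b hs hp, map_eq_zero (algebraMap F K)]

end Cfsg.Agent.Lib.Helper50.GUE
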