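import Cfsg.Agent.Lib.Helper50.GUEmbed

set_option autoImplicit false
open Matrix QuadraticMap

namespace Cfsg.Agent.Lib.Helper50.GUE

open Cfsg.Agent.Lib.Helper50.Quad Cfsg.Agent.Lib.Helper50.Herm

/-- isometric forms have isomorphic isometry groups (injective homomorphism version) -/
theorem exists_hom_of_isometry {F : Type*} [Field F] {ι ι' : Type} [Fintype ι] [DecidableEq ι] [Fintype ι']
    [DecidableEq ι'] (Qf : (ι → F) → F) (Qf' : (ι' → F) → F) (g : (ι → F) ≃ₗ[F] (ι' → F))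
    (hg : ∀ v, Qf' (g v) = Qf v) :
    ∃ ψ : ↥(Cfsg.isometryGroup F Qf) →* ↥(Cfsg.isometryGroup F Qf'), Function.Injective ψ := by
  let P : Matrix ι' ι F := LinearMap.toMatrix' g.toLinearMap
  let P' : Matrix ι ι' F := LinearMap.toMatrix' g.symm.toLinearMap
  have h1 : P * P' = 1 := by
    rw [← LinearMap.toMatrix'_comp, ← LinearMap.toMatrix'_id]
    congr 1
    apply LinearMap.ext
    intro v
    simp
  have h2 : P' * P = 1 := by
    rw [← LinearMap.toMatrix'_comp, ← LinearMap.toMatrix'_id]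
    congr 1
    apply LinearMap.ext
    intro v
    simp
  have hQ : ∀ v, Qf' (P *ᵥ v) = Qf v := by
    intro v
    rw [LinearMap.toMatrix'_mulVec]
    exact hg v
  refine ⟨((Cfsg.Agent.S2679.conjHom P P' h1 h2).comp (Cfsg.isometryGroup F Qf).subtype).codRestrict _
    (fun x => Cfsg.Agent.S2679.conjHom_mem P P' h1 h2 Qf Qf' hQ x.1 x.2), ?_⟩
  intro x y hxy
  apply Subtype.ext
  apply Cfsg.Agent.S2679.conjHom_injective P P' h1 h2
  exact congrArg Subtype.val hxy

variable {F K : Type*} [Field F] [Field K] [Fintype F] [Fintype K]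

/-- `GU_m(q)` embeds in the isometry group of any non-degenerate quadratic form in `2m` variables over `F_q`
with the right number of singular vectors -/
theorem exists_embed (hK : Fintype.card K = Fintype.card F ^ 2) {ι' : Type} [Fintype ι'] [DecidableEq ι']
    (S : QuadraticForm F (ι' → F)) (d : ℕ) (hfin : Module.finrank F (ι' → F) = 2 * (d + 1)) (hS : Nondeg S ⊤)
    (hcard : Nat.card {v : ι' → F // S v = 0} = zCard K (Fintype.card F) (d + 1)) :
    ∃ φ : ↥(Cfsg.GU (d + 1) K (Fintype.card F)) →* ↥(Cfsg.isometryGroup F (fun v => S v)), Function.Injective φ := by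
  obtain ⟨_, h2⟩ := exists_algebra_of_card_pow (F := F) (K := K) 2 hK
  obtain ⟨ζ, hζ⟩ := exists_noroot (F := F)
  have hab := aniso_of_noroot' ζ hζ
  obtain ⟨θ, hθ, hs, hp⟩ := exists_root_conj (K := K) h2 1 ζ hab
  have hfin0 : Module.finrank F (Fin (d + 1) ⊕ Fin (d + 1) → F) = 2 * (d + 1) := by
    rw [Module.finrank_fintype_fun_eq_card]; simp; ring
  obtain ⟨g, hg⟩ := iso_of_card_sing (Q := QN 1 ζ (d + 1)) (Q' := S) d hfin0 hfin
    (QN_nondeg 1 ζ (disc_ne_zero 1 ζ hab) (d + 1)) hS (by rw [card_sing_QN h2 θ hθ 1 ζ hs hp, hcard])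
  obtain ⟨ψ, hψ⟩ := exists_hom_of_isometry (fun w => QN 1 ζ (d + 1) w) (fun v => S v) g hg
  let φ₁ : ↥(Cfsg.GU (d + 1) K (Fintype.card F)) →* ↥(Cfsg.isometryGroup F (fun w => QN 1 ζ (d + 1) w)) :=
    ((ΦGL h2 θ hθ (d + 1)).comp (Cfsg.GU (d + 1) K (Fintype.card F)).subtype).codRestrict _
      (fun x => ΦGL_mem h2 θ hθ 1 ζ hs hp (d + 1) x.1 x.2)
  refine ⟨ψ.comp φ₁, hψ.comp ?_⟩
  intro x y hxy
  apply Subtype.ext
  apply ΦGL_injective h2 θ hθ (d + 1)
  exact congrArg Subtype.val hxy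

end Cfsg.Agent.Lib.Helper50.GUE
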