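import Cfsg.Agent.Lib.Helper48.FieldAutFix
import Cfsg.Agent.Lib.Helper50.GUConj
import Cfsg.Agent.Lib.Helper50.GUFrames

set_option autoImplicit false
open Matrix

/-! Unitary matrices fixed (up to scalars) by a field automorphism of odd order. -/

namespace Cfsg.Agent.Lib.Helper50.GUFix

open Cfsg.Agent.Lib.Helper50 Cfsg.Agent.Lib.Helper50.Herm Cfsg.Agent.Lib.Helper50.GUConj Cfsg.Agent.Lib.Helper48

variable {K : Type*} [Field K] [Fintype K] {q₀ q r n : ℕ}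

/-- the fixed field -/
abbrev Fx (σ : K ≃+* K) : Subfield K := FixedPoints.subfield (Subgroup.zpowers σ) K

noncomputable instance (σ : K ≃+* K) : Fintype (Fx σ) := Fintype.ofFinite _

theorem card_Fx (hr : r ≠ 0) (hq : q = q₀ ^ r) (hK : Fintype.card K = q ^ 2) (σ : K ≃+* K)
    (hσ : orderOf σ = r) : Fintype.card (Fx σ) = q₀ ^ 2 := by
  rw [← Nat.card_eq_fintype_card]
  apply card_fixed_zpowers hr _ σ hσ
  rw [hK, hq, ← pow_mul, ← pow_mul, mul_comm]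

theorem pow_q_of_fixed (hr : Odd r) (hq : q = q₀ ^ r) (σ : K ≃+* K) (h0 : Fintype.card (Fx σ) = q₀ ^ 2)
    (x : K) (hx : σ x = x) : x ^ q = x ^ q₀ := by
  have h1 : x ^ (q₀ ^ 2) = x := by
    have := FiniteField.pow_card (⟨x, (mem_fixed_zpowers_iff σ x).2 hx⟩ : Fx σ)
    rw [h0] at this
    exact congrArg Subtype.val this
  have h2 : ∀ k : ℕ, x ^ ((q₀ ^ 2) ^ k) = x := by
    intro k
    induction k with
    | zero => simp
    | succ k ih => rw [pow_succ, pow_mul, ih, h1]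
  obtain ⟨k, rfl⟩ := hr
  rw [hq, pow_succ, pow_mul, pow_mul, h2]

theorem scGL_val (a : Kˣ) : ((scGL n a : GL (Fin n) K) : Matrix (Fin n) (Fin n) K) = Matrix.scalar (Fin n) (a : K) :=
  rfl

theorem scGL_mem_GU (hK : Fintype.card K = q ^ 2) (a : Kˣ) (ha : (a : K) ^ (q + 1) = 1) :
    scGL n a ∈ Cfsg.GU n K q := by
  rw [mem_GU_iff_dag hK, scGL_val, dag_scalar, ← map_mul, ← pow_succ, ha, map_one]

/-- a unitary matrix which is `σ`-fixed up to a scalar is a unitary scalar times a `σ`-fixed unitary matrix -/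
theorem exists_unitary_scalar (hr : Odd r) (hq : q = q₀ ^ r) (hK : Fintype.card K = q ^ 2) (σ : K ≃+* K)
    (h0 : Fintype.card (Fx σ) = q₀ ^ 2) (hn : 1 ≤ n) (g : GL (Fin n) K) (hg : g ∈ Cfsg.GU n K q)
    (hc : ∃ c : K, c ≠ 0 ∧ (g : Matrix (Fin n) (Fin n) K).map σ = c • (g : Matrix (Fin n) (Fin n) K)) :
    ∃ a : Kˣ, (a : K) ^ (q + 1) = 1 ∧
      ((scGL n a⁻¹ * g : GL (Fin n) K) : Matrix (Fin n) (Fin n) K).map σ =
        ((scGL n a⁻¹ * g : GL (Fin n) K) : Matrix (Fin n) (Fin n) K) := by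
  obtain ⟨a, ha⟩ := exists_fixed_scGL_mul σ hn g hc
  set g₁ : Matrix (Fin n) (Fin n) K := ((scGL n a⁻¹ * g : GL (Fin n) K) : Matrix (Fin n) (Fin n) K) with hg₁
  have hg₁' : g₁ = ((a⁻¹ : Kˣ) : K) • (g : Matrix (Fin n) (Fin n) K) := scGL_mul_val _ _
  have hfix : ∀ i j, σ (g₁ i j) = g₁ i j := fun i j => congrFun (congrFun ha i) j
  -- the norm of `a`
  have hN : dag hK g₁ * g₁ = (((a⁻¹ : Kˣ) : K) ^ (q + 1)) • (1 : Matrix (Fin n) (Fin n) K) := by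
    have e : dag hK g₁ = (((a⁻¹ : Kˣ) : K) ^ q) • dag hK (g : Matrix (Fin n) (Fin n) K) := by
      rw [hg₁']
      ext i j
      simp only [dag_apply, Matrix.smul_apply, smul_eq_mul, mul_pow]
    rw [e, hg₁', Matrix.smul_mul, Matrix.mul_smul, (mem_GU_iff_dag hK g).1 hg, smul_smul, ← pow_succ]
  set c₁ : K := ((a⁻¹ : Kˣ) : K) ^ (q + 1) with hc₁
  have hc₁0 : c₁ ≠ 0 := pow_ne_zero _ (Units.ne_zero _)
  have hc₁σ : σ c₁ = c₁ := by
    have h1 := congrFun (congrFun hN ⟨0, hn⟩) ⟨0, hn⟩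
    rw [Matrix.smul_apply, Matrix.one_apply_eq, smul_eq_mul, mul_one, Matrix.mul_apply] at h1
    rw [← h1, map_sum]
    apply Finset.sum_congr rfl
    intro k _
    rw [map_mul, dag_apply, map_pow, hfix]
  have hc₁q : c₁ ^ q = c₁ := by
    rw [hc₁, ← pow_mul, mul_comm, pow_mul, pow_succ (((a⁻¹ : Kˣ) : K) ^ q), pow_q_sq hK, pow_succ, mul_comm]
  -- a fixed element with the inverse norm
  have hc₁q₀ : c₁ ^ q₀ = c₁ := by rw [← pow_q_of_fixed hr hq σ h0 c₁ hc₁σ, hc₁q]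
  obtain ⟨l, hl0, hl⟩ := exists_norm_eq h0 (⟨c₁, (mem_fixed_zpowers_iff σ c₁).2 hc₁σ⟩ : Fx σ)
    (fun h => hc₁0 (congrArg Subtype.val h)) (Subtype.ext hc₁q₀)
  have hlσ : σ (l : K) = l := (mem_fixed_zpowers_iff σ _).1 l.2
  have hl0' : (l : K) ≠ 0 := fun h => hl0 (Subtype.ext h)
  have hl' : (l : K) ^ (q + 1) = c₁ := by
    rw [pow_succ, pow_q_of_fixed hr hq σ h0 _ hlσ, ← pow_succ]
    exact congrArg Subtype.val hl
  refine ⟨a * Units.mk0 (l : K) hl0', ?_, ?_⟩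
  · rw [Units.val_mul, Units.val_mk0, mul_pow, hl', hc₁, ← mul_pow, Units.mul_inv, one_pow]
  · have e : scGL n (a * Units.mk0 (l : K) hl0')⁻¹ * g = scGL n (Units.mk0 (l : K) hl0')⁻¹ * (scGL n a⁻¹ * g) := by
      rw [_root_.mul_inv_rev, map_mul, mul_assoc]
    rw [e]
    apply fixed_scGL_mul σ _ ha
    rw [Units.val_inv_eq_inv_val, Units.val_mk0, map_inv₀, hlσ]

end Cfsg.Agent.Lib.Helper50.GUFix
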