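import Cfsg.Agent.Lib.Helper50.GUFix1

set_option autoImplicit false
open Matrix

/-! Counting unitary matrices fixed up to scalars by a field automorphism of odd order. -/

namespace Cfsg.Agent.Lib.Helper50.GUFix

open Cfsg.Agent.Lib.Helper50 Cfsg.Agent.Lib.Helper50.Herm Cfsg.Agent.Lib.Helper50.GUConj Cfsg.Agent.Lib.Helper48

variable {K : Type*} [Field K] [Fintype K] {q₀ q r n : ℕ}

theorem card_mul (hr : Odd r) (hq : q = q₀ ^ r) (hK : Fintype.card K = q ^ 2) (σ : K ≃+* K)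
    (h0 : Fintype.card (Fx σ) = q₀ ^ 2) (hn : 1 ≤ n) :
    Nat.card {g : GL (Fin n) K // g ∈ Cfsg.GU n K q ∧ ∃ c : K, c ≠ 0 ∧ (g : Matrix (Fin n) (Fin n) K).map σ =
      c • (g : Matrix (Fin n) (Fin n) K)} * Nat.card {k : Kˣ // σ (k : K) = k ∧ (k : K) ^ (q + 1) = 1} =
    Nat.card {μ : Kˣ // (μ : K) ^ (q + 1) = 1} *
      Nat.card {g : GL (Fin n) K // g ∈ Cfsg.GU n K q ∧ (g : Matrix (Fin n) (Fin n) K).map σ =
        (g : Matrix (Fin n) (Fin n) K)} := by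
  classical
  rw [← Nat.card_prod, ← Nat.card_prod]
  have hgood := fun g : {g : GL (Fin n) K // g ∈ Cfsg.GU n K q ∧ ∃ c : K, c ≠ 0 ∧
      (g : Matrix (Fin n) (Fin n) K).map σ = c • (g : Matrix (Fin n) (Fin n) K)} =>
    exists_unitary_scalar hr hq hK σ h0 hn g.1 g.2.1 g.2.2
  choose a ha1 ha using hgood
  have hinvN : ∀ k : Kˣ, (k : K) ^ (q + 1) = 1 → ((k⁻¹ : Kˣ) : K) ^ (q + 1) = 1 := by
    intro k hk
    rw [Units.val_inv_eq_inv_val, inv_pow, hk, inv_one]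
  have hinv : ∀ k : Kˣ, σ (k : K) = k → σ ((k⁻¹ : Kˣ) : K) = ((k⁻¹ : Kˣ) : K) := by
    intro k hk
    rw [Units.val_inv_eq_inv_val, map_inv₀, hk]
  let E : {g : GL (Fin n) K // g ∈ Cfsg.GU n K q ∧ ∃ c : K, c ≠ 0 ∧ (g : Matrix (Fin n) (Fin n) K).map σ =
      c • (g : Matrix (Fin n) (Fin n) K)} × {k : Kˣ // σ (k : K) = k ∧ (k : K) ^ (q + 1) = 1} →
      {μ : Kˣ // (μ : K) ^ (q + 1) = 1} × {g : GL (Fin n) K // g ∈ Cfsg.GU n K q ∧
        (g : Matrix (Fin n) (Fin n) K).map σ = (g : Matrix (Fin n) (Fin n) K)} := fun x =>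
    (⟨a x.1 * x.2.1, by rw [Units.val_mul, mul_pow, ha1, x.2.2.2, one_mul]⟩,
      ⟨scGL n (x.2.1)⁻¹ * (scGL n (a x.1)⁻¹ * x.1.1),
        (Cfsg.GU n K q).mul_mem (scGL_mem_GU hK _ (hinvN _ x.2.2.2))
          ((Cfsg.GU n K q).mul_mem (scGL_mem_GU hK _ (hinvN _ (ha1 x.1))) x.1.2.1),
        fixed_scGL_mul σ (hinv _ x.2.2.1) (ha x.1)⟩)
  refine Nat.card_congr (Equiv.ofBijective E ⟨?_, ?_⟩)
  · rintro ⟨g, k⟩ ⟨g', k'⟩ e
    have e1 : a g * k.1 = a g' * k'.1 := congrArg (fun y => (y.1 : Kˣ)) e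
    have e2 : scGL n (k.1)⁻¹ * (scGL n (a g)⁻¹ * g.1) = scGL n (k'.1)⁻¹ * (scGL n (a g')⁻¹ * g'.1) :=
      congrArg (fun y => (y.2 : GL (Fin n) K)) e
    rw [← mul_assoc, ← mul_assoc, ← map_mul, ← map_mul, ← _root_.mul_inv_rev, ← _root_.mul_inv_rev, e1] at e2
    have e3 : g = g' := Subtype.ext (mul_left_cancel e2)
    subst e3
    have e4 : k = k' := Subtype.ext (mul_left_cancel e1)
    rw [e4]
  · rintro ⟨μ, h⟩
    let g : {g : GL (Fin n) K // g ∈ Cfsg.GU n K q ∧ ∃ c : K, c ≠ 0 ∧ (g : Matrix (Fin n) (Fin n) K).map σ =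
      c • (g : Matrix (Fin n) (Fin n) K)} :=
      ⟨scGL n μ.1 * h.1, (Cfsg.GU n K q).mul_mem (scGL_mem_GU hK _ μ.2) h.2.1, scalar_scGL_mul σ μ.1 h.2.2⟩
    have hk : σ ((((a g)⁻¹ * μ.1 : Kˣ)) : K) = (((a g)⁻¹ * μ.1 : Kˣ) : K) := by
      apply fixed_of_fixed_scGL_mul σ hn h.2.2
      have := ha g
      rwa [show scGL n (a g)⁻¹ * g.1 = scGL n ((a g)⁻¹ * μ.1) * h.1 by
        rw [map_mul, mul_assoc]] at this
    have hk2 : ((((a g)⁻¹ * μ.1 : Kˣ)) : K) ^ (q + 1) = 1 := by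
      rw [Units.val_mul, mul_pow, hinvN _ (ha1 g), μ.2, one_mul]
    refine ⟨(g, ⟨(a g)⁻¹ * μ.1, hk, hk2⟩), ?_⟩
    apply Prod.ext
    · apply Subtype.ext
      change a g * ((a g)⁻¹ * μ.1) = μ.1
      rw [mul_inv_cancel_left]
    · apply Subtype.ext
      change scGL n ((a g)⁻¹ * μ.1)⁻¹ * (scGL n (a g)⁻¹ * (scGL n μ.1 * h.1)) = h.1
      rw [← mul_assoc, ← mul_assoc, ← map_mul, ← map_mul]
      have : ((a g)⁻¹ * μ.1)⁻¹ * (a g)⁻¹ * μ.1 = 1 := by group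
      rw [this, map_one, one_mul]

theorem card_U1 (hK : Fintype.card K = q ^ 2) : Nat.card {μ : Kˣ // (μ : K) ^ (q + 1) = 1} = q + 1 := by
  refine Eq.trans (Nat.card_congr ?_) (card_norm_one hK)
  exact
    { toFun := fun μ => ⟨μ.1.1, μ.2⟩
      invFun := fun x => ⟨Units.mk0 x.1 (fun h => by
          have := x.2; rw [h, zero_pow (Nat.succ_ne_zero q)] at this; exact zero_ne_one this), x.2⟩
      left_inv := fun μ => by ext; rfl
      right_inv := fun x => rfl }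

theorem card_U0 (hr : Odd r) (hq : q = q₀ ^ r) (σ : K ≃+* K) (h0 : Fintype.card (Fx σ) = q₀ ^ 2) :
    Nat.card {k : Kˣ // σ (k : K) = k ∧ (k : K) ^ (q + 1) = 1} = q₀ + 1 := by
  refine Eq.trans (Nat.card_congr ?_) (card_norm_one h0)
  exact
    { toFun := fun k => ⟨⟨k.1.1, (mem_fixed_zpowers_iff σ _).2 k.2.1⟩, by
        apply Subtype.ext
        have := k.2.2
        rw [pow_succ, pow_q_of_fixed hr hq σ h0 _ k.2.1, ← pow_succ] at this
        exact this⟩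
      invFun := fun x => ⟨Units.mk0 x.1.1 (fun h => by
          have := congrArg Subtype.val x.2
          have e : ((x.1 ^ (q₀ + 1) : Fx σ) : K) = (x.1 : K) ^ (q₀ + 1) := rfl
          rw [e, h, zero_pow (Nat.succ_ne_zero q₀)] at this
          exact zero_ne_one this), (mem_fixed_zpowers_iff σ _).1 x.1.2, by
          have := congrArg Subtype.val x.2
          have e : ((x.1 ^ (q₀ + 1) : Fx σ) : K) = (x.1 : K) ^ (q₀ + 1) := rfl
          rw [e] at this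
          rw [Units.val_mk0, pow_succ, pow_q_of_fixed hr hq σ h0 _ ((mem_fixed_zpowers_iff σ _).1 x.1.2), ← pow_succ]
          exact this⟩
      left_inv := fun μ => by ext; rfl
      right_inv := fun x => rfl }

end Cfsg.Agent.Lib.Helper50.GUFix
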