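import Cfsg.Agent.Lib.Helper50.GUFix2

set_option autoImplicit false
open Matrix

/-! The `σ`-fixed unitary matrices are the unitary matrices over the fixed field. -/

namespace Cfsg.Agent.Lib.Helper50.GUFix

open Cfsg.Agent.Lib.Helper50 Cfsg.Agent.Lib.Helper50.Herm Cfsg.Agent.Lib.Helper50.GUConj Cfsg.Agent.Lib.Helper48

variable {K : Type*} [Field K] [Fintype K] {q₀ q r n : ℕ}

theorem mem_GU_map_iff (hr : Odd r) (hq : q = q₀ ^ r) (hK : Fintype.card K = q ^ 2) (σ : K ≃+* K)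
    (h0 : Fintype.card (Fx σ) = q₀ ^ 2) (h : GL (Fin n) (Fx σ)) :
    Matrix.GeneralLinearGroup.map (Fx σ).subtype h ∈ Cfsg.GU n K q ↔ h ∈ Cfsg.GU n (Fx σ) q₀ := by
  rw [mem_GU_iff_dag hK, mem_GU_iff_dag h0]
  have e1 : ((Matrix.GeneralLinearGroup.map (Fx σ).subtype h : GL (Fin n) K) : Matrix (Fin n) (Fin n) K) =
      (h : Matrix (Fin n) (Fin n) (Fx σ)).map (Fx σ).subtype := rfl
  have e2 : dag hK ((h : Matrix (Fin n) (Fin n) (Fx σ)).map (Fx σ).subtype) =
      (dag h0 (h : Matrix (Fin n) (Fin n) (Fx σ))).map (Fx σ).subtype := by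
    ext i j
    simp only [dag_apply, Matrix.map_apply]
    exact pow_q_of_fixed hr hq σ h0 _ ((mem_fixed_zpowers_iff σ _).1 (h.val j i).2)
  rw [e1, e2, ← Matrix.map_mul]
  constructor
  · intro h1
    apply Matrix.map_injective (Fx σ).subtype.injective
    show (dag h0 (h : Matrix (Fin n) (Fin n) (Fx σ)) * (h : Matrix (Fin n) (Fin n) (Fx σ))).map (Fx σ).subtype =
      (1 : Matrix (Fin n) (Fin n) (Fx σ)).map (Fx σ).subtype
    rw [h1, Matrix.map_one _ (map_zero _) (map_one _)]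
  · intro h1
    rw [h1, Matrix.map_one _ (map_zero _) (map_one _)]

theorem card_fixed_GU (hr : Odd r) (hq : q = q₀ ^ r) (hK : Fintype.card K = q ^ 2) (σ : K ≃+* K)
    (h0 : Fintype.card (Fx σ) = q₀ ^ 2) :
    Nat.card {g : GL (Fin n) K // g ∈ Cfsg.GU n K q ∧ (g : Matrix (Fin n) (Fin n) K).map σ =
        (g : Matrix (Fin n) (Fin n) K)} = Nat.card (Cfsg.GU n (Fx σ) q₀) := by
  classical
  symm
  let Φ : ↥(Cfsg.GU n (Fx σ) q₀) → {g : GL (Fin n) K // g ∈ Cfsg.GU n K q ∧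
      (g : Matrix (Fin n) (Fin n) K).map σ = (g : Matrix (Fin n) (Fin n) K)} := fun h =>
    ⟨Matrix.GeneralLinearGroup.map (Fx σ).subtype h.1, (mem_GU_map_iff hr hq hK σ h0 h.1).2 h.2, by
      ext i j
      simp only [Matrix.map_apply, Matrix.GeneralLinearGroup.map_apply]
      exact (mem_fixed_zpowers_iff σ _).1 (h.1.val i j).2⟩
  refine Nat.card_congr (Equiv.ofBijective Φ ⟨?_, ?_⟩)
  · intro h h' e
    have e' := congrArg (fun g : {g : GL (Fin n) K // g ∈ Cfsg.GU n K q ∧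
      (g : Matrix (Fin n) (Fin n) K).map σ = (g : Matrix (Fin n) (Fin n) K)} =>
        ((g : GL (Fin n) K) : Matrix (Fin n) (Fin n) K)) e
    apply Subtype.ext
    apply Units.ext
    ext i j
    have := congrFun (congrFun e' i) j
    simpa [Φ] using this
  · rintro ⟨g, hgU, hg⟩
    let A : Matrix (Fin n) (Fin n) (Fx σ) := fun i j => ⟨(g : Matrix (Fin n) (Fin n) K) i j,
      (mem_fixed_zpowers_iff σ _).2 (by
        have := congrFun (congrFun hg i) j
        simpa using this)⟩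
    have hA : A.map (Fx σ).subtype = (g : Matrix (Fin n) (Fin n) K) := by
      ext i j
      rfl
    have hdet : A.det ≠ 0 := by
      intro h0
      have h1 : (Fx σ).subtype A.det = (g : Matrix (Fin n) (Fin n) K).det := by
        rw [RingHom.map_det, RingHom.mapMatrix_apply, hA]
      rw [h0, map_zero] at h1
      have h2 : IsUnit (g : Matrix (Fin n) (Fin n) K).det :=
        (Matrix.isUnit_iff_isUnit_det _).1 g.isUnit
      rw [← h1] at h2
      exact not_isUnit_zero h2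
    have hmap : Matrix.GeneralLinearGroup.map (Fx σ).subtype (Matrix.GeneralLinearGroup.mkOfDetNeZero A hdet) = g := by
      apply Units.ext
      ext i j
      rfl
    refine ⟨⟨Matrix.GeneralLinearGroup.mkOfDetNeZero A hdet, ?_⟩, ?_⟩
    · rw [← mem_GU_map_iff hr hq hK σ h0, hmap]
      exact hgU
    · apply Subtype.ext
      exact hmap

/-- the count in natural numbers -/
theorem card_scalar_fixed_GU (hr : Odd r) (hq : q = q₀ ^ r) (hK : Fintype.card K = q ^ 2) (σ : K ≃+* K)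
    (hσ : orderOf σ = r) (hn : 1 ≤ n) :
    Nat.card {g : ↥(Cfsg.GU n K q) // ∃ c : K, c ≠ 0 ∧ ((g : GL (Fin n) K) : Matrix (Fin n) (Fin n) K).map σ =
      c • ((g : GL (Fin n) K) : Matrix (Fin n) (Fin n) K)} =
      (q + 1) / (q₀ + 1) * (q₀ ^ (n * (n - 1) / 2) *
        ∏ i ∈ Finset.range n, (if Even i then q₀ ^ (i + 1) + 1 else q₀ ^ (i + 1) - 1)) := by
  have hr0 : r ≠ 0 := by
    rintro rfl
    simp at hr
  have h0 := card_Fx hr0 hq hK σ hσ
  have h := card_mul hr hq hK σ h0 hn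
  rw [card_U1 hK, card_U0 hr hq σ h0, card_fixed_GU hr hq hK σ h0, card_GU h0 n] at h
  have e : Nat.card {g : ↥(Cfsg.GU n K q) // ∃ c : K, c ≠ 0 ∧
      ((g : GL (Fin n) K) : Matrix (Fin n) (Fin n) K).map σ =
      c • ((g : GL (Fin n) K) : Matrix (Fin n) (Fin n) K)} =
      Nat.card {g : GL (Fin n) K // g ∈ Cfsg.GU n K q ∧ ∃ c : K, c ≠ 0 ∧ (g : Matrix (Fin n) (Fin n) K).map σ =
      c • (g : Matrix (Fin n) (Fin n) K)} := by
    apply Nat.card_congr
    exact
      { toFun := fun g => ⟨g.1.1, g.1.2, g.2⟩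
        invFun := fun g => ⟨⟨g.1, g.2.1⟩, g.2.2⟩
        left_inv := fun g => rfl
        right_inv := fun g => rfl }
  rw [e]
  obtain ⟨d, hd⟩ : (q₀ + 1) ∣ (q + 1) := by
    have := Odd.nat_add_dvd_pow_add_pow q₀ 1 hr
    rwa [one_pow, ← hq] at this
  rw [hd, Nat.mul_div_cancel_left _ (Nat.succ_pos q₀)]
  rw [hd, mul_comm, mul_assoc] at h
  exact Nat.eq_of_mul_eq_mul_left (Nat.succ_pos q₀) h

end Cfsg.Agent.Lib.Helper50.GUFix
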