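import Cfsg.Agent.Lib.Helper50.InvReduce

set_option autoImplicit false

/-! Corner facts for a unitary element of odd order prime to the characteristic. -/

namespace Cfsg.Agent.Lib.Helper50.InvCorner

open Cfsg.Agent.Lib.Helper50

universe u

variable {F : Type*} [Field F]
variable {M : Type u} [Ring M] [Finite M] [Algebra F M]
variable (τ : M → M) (hadd : ∀ x y, τ (x + y) = τ x + τ y) (hmul : ∀ x y, τ (x * y) = τ y * τ x)
  (hone : τ 1 = 1) (hττ : ∀ x, τ (τ x) = x)

include hadd hmul hone hττ in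
theorem exists_corner_odd (A a : M) (hA : τ A * A = 1) (hA' : A * τ A = 1) (ha : IsUnit a) (haτ : τ a = a)
    (haA : a * A = A * a) (k : ℕ) (hk : (k : F) ≠ 0) (hodd : Odd k) (hAk : A ^ k = 1) :
    ∃ f c c' r : M, f * f = f ∧ τ f = f ∧ f * A = A * f ∧ f * a = a * f ∧ c * A = A * c ∧ f * c = c ∧
      c * f = c ∧ τ c * c = f * a ∧ f = (A - 1) * r ∧ A * (1 - f) = 1 - f ∧ c * c' = f ∧
      (c + (1 - f)) * (c' + (1 - f)) = 1 ∧ (c' + (1 - f)) * (c + (1 - f)) = 1 := by
  obtain ⟨j, f, c, hf, hff, hτf, hfA, hfa, hcA, hfc, hcf, hn⟩ :=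
    exists_corner τ hadd hmul hone hττ A a hA hA' ha haτ haA
  obtain ⟨e, he⟩ : ∃ e, e = 1 - f := ⟨_, rfl⟩
  have hee : e * e = e := by
    simp only [he, sub_mul, mul_sub, one_mul, mul_one, hff]; abel
  have hef : e * f = 0 := by simp only [he, sub_mul, one_mul, hff, sub_self]
  have hfe : f * e = 0 := by simp only [he, mul_sub, mul_one, hff, sub_self]
  have hτe : τ e = e := by
    rw [he, sub_eq_add_neg, hadd, InvRing.tau_neg τ hadd, hone, hτf]
  have hea : a * e = e * a := by simp only [he, sub_mul, mul_sub, one_mul, mul_one, hfa]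
  have hcomm : Commute A (A - τ A) := by
    show A * (A - τ A) = (A - τ A) * A
    rw [mul_sub, sub_mul, hA, hA']
  have hkey : (A ^ 2 - 1) * e = 0 := by
    apply sub_one_mul_eq_zero (F := F) (A ^ 2) e k (j + 1) hk (by rw [← pow_mul, mul_comm, pow_mul, hAk, one_pow])
    have : A ^ 2 - 1 = A * (A - τ A) := by rw [mul_sub, hA', sq]
    rw [this, hcomm.mul_pow, ← hf, mul_assoc, hfe, mul_zero]
  have hAAe : A ^ 2 * e = e := by
    rw [sub_mul, one_mul, sub_eq_zero] at hkey
    exact hkey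
  obtain ⟨l, rfl⟩ := hodd
  have hpow : ∀ i : ℕ, (A ^ 2) ^ i * e = e := by
    intro i
    induction i with
    | zero => simp
    | succ i ih => rw [pow_succ, mul_assoc, hAAe, ih]
  have hAe : A * e = e := by
    calc A * e = A * ((A ^ 2) ^ l * e) := by rw [hpow]
      _ = A ^ (2 * l + 1) * e := by rw [pow_succ' A (2 * l), pow_mul, mul_assoc]
      _ = e := by rw [hAk, one_mul]
  obtain ⟨au, rfl⟩ := ha
  obtain ⟨ai, hai⟩ : ∃ ai : M, ai = ↑au⁻¹ := ⟨_, rfl⟩
  have h1 : ai * au = 1 := by rw [hai, Units.inv_mul]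
  have h2 : (au : M) * ai = 1 := by rw [hai, Units.mul_inv]
  have haie : ai * e = e * ai := by
    calc ai * e = ai * (e * au) * ai := by rw [mul_assoc, mul_assoc, h2, mul_one]
      _ = ai * (au * e) * ai := by rw [hea]
      _ = e * ai := by rw [← mul_assoc, h1, one_mul]
  have hec : e * c = 0 := by rw [← hfc, ← mul_assoc, hef, zero_mul]
  have hce : c * e = 0 := by rw [← hcf, mul_assoc, hfe, mul_zero]
  have hτ0 : τ 0 = 0 := InvRing.tau_zero τ hadd
  have hτce : τ c * e = 0 := by rw [← hτe, ← hmul, hec, hτ0]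
  have heτc : e * τ c = 0 := by rw [← hτe, ← hmul, hce, hτ0]
  have hL : (ai * τ c + e) * (c + e) = 1 := by
    have e1 : ai * τ c * c = f := by rw [mul_assoc, hn, hfa, ← mul_assoc, h1, one_mul]
    have e2 : ai * τ c * e = 0 := by rw [mul_assoc, hτce, mul_zero]
    rw [add_mul, mul_add, mul_add, e1, e2, hec, hee, he]
    abel
  have hR : (c + e) * (ai * τ c + e) = 1 := mul_eq_one_comm.1 hL
  have hcc : c * (ai * τ c) = f := by
    have e3 : e * (ai * τ c) = 0 := by rw [← mul_assoc, ← haie, mul_assoc, heτc, mul_zero]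
    rw [add_mul, mul_add, mul_add, hce, e3, hee, he] at hR
    rw [add_zero, zero_add] at hR
    have : c * (ai * τ c) = 1 - (1 - f) := eq_sub_of_add_eq hR
    rw [this]; abel
  refine ⟨f, c, ai * τ c, (1 + τ A) * (A - τ A) ^ j, hff, hτf, hfA, hfa, hcA, hfc, hcf, hn, ?_, he ▸ hAe, hcc,
    he ▸ hR, he ▸ hL⟩
  rw [hf, pow_succ', ← mul_assoc]
  congr 1
  rw [sub_mul, mul_add, mul_one, one_mul, hA']
  abel

end Cfsg.Agent.Lib.Helper50.InvCorner
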