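import Cfsg.Agent.Lib.Helper50.InvCorner

set_option autoImplicit false

/-! Reduction of `τ c * c = a` in the centraliser of a semisimple unitary element `A` to the `±1`-eigenspaces. -/

namespace Cfsg.Agent.Lib.Helper50.InvCorner

open Cfsg.Agent.Lib.Helper50

universe u

variable {F : Type*} [Field F]

open Polynomial in
/-- `B ^ k = 1` with `k` invertible: the generalised fixed space is the fixed space -/
theorem sub_one_mul_eq_zero {M : Type*} [Ring M] [Algebra F M] (B e : M) (k j : ℕ) (hk : (k : F) ≠ 0)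
    (hB : B ^ k = 1) (h : (B - 1) ^ j * e = 0) : (B - 1) * e = 0 := by
  have hsep : (X ^ k - C (1 : F)).Separable := separable_X_pow_sub_C 1 hk one_ne_zero
  have hfac : (∑ i ∈ Finset.range k, (X : F[X]) ^ i) * (X - 1) = X ^ k - C 1 := by
    rw [geom_sum_mul, map_one]
  rw [← hfac] at hsep
  obtain ⟨u, v, huv⟩ := hsep.isCoprime.pow_right (n := j)
  have h1 := congrArg (aeval B) huv
  simp only [map_add, map_mul, map_sum, map_pow, aeval_X, map_sub, map_one] at h1
  calc (B - 1) * e = (aeval B u * (∑ i ∈ Finset.range k, B ^ i) + aeval B v * (B - 1) ^ j) * ((B - 1) * e) := by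
        rw [h1, one_mul]
    _ = aeval B u * ((∑ i ∈ Finset.range k, B ^ i) * (B - 1)) * e
        + aeval B v * ((B - 1) * ((B - 1) ^ j * e)) := by
        rw [add_mul]
        congr 1
        · simp only [mul_assoc]
        · rw [← mul_assoc (B - 1), ← pow_succ', pow_succ]
          simp only [mul_assoc]
    _ = 0 := by rw [geom_sum_mul, hB, sub_self, h]; simp

theorem split_invol {M : Type*} [Ring M] [Algebra F M] (h2 : (2 : F) ≠ 0) (e s : M) (hee : e * e = e)
    (hes : e * s = s) (hse : s * e = s) (hss : s * s = e) :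
    ∃ e₁ e₂ : M, e₁ = (2 : F)⁻¹ • (e + s) ∧ e₂ = (2 : F)⁻¹ • (e - s) ∧ e₁ + e₂ = e ∧ e₁ * e₁ = e₁ ∧
      e₂ * e₂ = e₂ ∧ e₁ * e₂ = 0 ∧ e₂ * e₁ = 0 ∧ s * e₁ = e₁ ∧ e₁ * s = e₁ ∧ s * e₂ = -e₂ ∧ e₂ * s = -e₂ := by
  have huu : (e + s) * (e + s) = (2 : F) • (e + s) := by
    simp only [add_mul, mul_add, hee, hes, hse, hss, two_smul]; abel
  have hvv : (e - s) * (e - s) = (2 : F) • (e - s) := by
    simp only [sub_mul, mul_sub, hee, hes, hse, hss, two_smul]; abel
  have huv : (e + s) * (e - s) = 0 := by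
    simp only [add_mul, mul_sub, hee, hes, hse, hss]; abel
  have hvu : (e - s) * (e + s) = 0 := by
    simp only [sub_mul, mul_add, hee, hes, hse, hss]; abel
  have hh : (2 : F)⁻¹ * (2 : F)⁻¹ * 2 = (2 : F)⁻¹ := by field_simp
  refine ⟨_, _, rfl, rfl, ?_, ?_, ?_, ?_, ?_, ?_, ?_, ?_, ?_⟩
  · rw [← smul_add]
    have : e + s + (e - s) = (2 : F) • e := by rw [two_smul]; abel
    rw [this, smul_smul, inv_mul_cancel₀ h2, one_smul]
  · rw [smul_mul_smul_comm, huu, smul_smul, hh]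
  · rw [smul_mul_smul_comm, hvv, smul_smul, hh]
  · rw [smul_mul_smul_comm, huv, smul_zero]
  · rw [smul_mul_smul_comm, hvu, smul_zero]
  · rw [mul_smul_comm, mul_add, hse, hss, add_comm]
  · rw [smul_mul_assoc, add_mul, hes, hss, add_comm]
  · rw [mul_smul_comm, mul_sub, hse, hss, ← smul_neg, neg_sub]
  · rw [smul_mul_assoc, sub_mul, hes, hss, ← smul_neg, neg_sub]

section sub

variable {M : Type u} [Ring M]
variable (τ : M → M) (hadd : ∀ x y, τ (x + y) = τ x + τ y) (hmul : ∀ x y, τ (x * y) = τ y * τ x)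

include hadd hmul in
theorem assemble (a e₁ e₂ f c₁ c₂ c₃ : M) (hsum : e₁ + e₂ + f = 1)
    (h12 : e₁ * e₂ = 0) (h21 : e₂ * e₁ = 0) (h1f : e₁ * f = 0) (hf1 : f * e₁ = 0) (h2f : e₂ * f = 0)
    (hf2 : f * e₂ = 0) (ht1 : τ e₁ = e₁) (ht2 : τ e₂ = e₂) (htf : τ f = f)
    (hc1 : e₁ * c₁ = c₁) (hc2 : e₂ * c₂ = c₂) (hc3 : f * c₃ = c₃)
    (n1 : τ c₁ * c₁ = e₁ * a) (n2 : τ c₂ * c₂ = e₂ * a) (n3 : τ c₃ * c₃ = f * a) :
    τ (c₁ + c₂ + c₃) * (c₁ + c₂ + c₃) = a := by
  have cross : ∀ g g' c c' : M, τ g = g → g * c = c → g' * c' = c' → g * g' = 0 → τ c * c' = 0 := by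
    intro g g' c c' h1 h2 h3 h4
    rw [← h2, ← h3, hmul, h1, mul_assoc, ← mul_assoc g, h4, zero_mul, mul_zero]
  rw [hadd, hadd]
  simp only [add_mul, mul_add, n1, n2, n3, cross e₁ e₂ c₁ c₂ ht1 hc1 hc2 h12,
    cross e₁ f c₁ c₃ ht1 hc1 hc3 h1f, cross e₂ e₁ c₂ c₁ ht2 hc2 hc1 h21, cross e₂ f c₂ c₃ ht2 hc2 hc3 h2f,
    cross f e₁ c₃ c₁ htf hc3 hc1 hf1, cross f e₂ c₃ c₂ htf hc3 hc2 hf2, add_zero, zero_add]
  rw [← add_mul, ← add_mul, hsum, one_mul]

variable [Finite M] [Algebra F M] (hone : τ 1 = 1) (hττ : ∀ x, τ (τ x) = x)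
  (hsmul : ∀ (c : F) x, τ (c • x) = c • τ x)

include hadd hmul hone hττ hsmul in
/-- If `τ c * c = e * a` is solvable in every corner `e M e` (`e` a symmetric idempotent commuting with `a`)
then `τ c * c = a` is solvable in the centraliser of the semisimple unitary element `A`. -/
theorem reduction (A a : M) (hA : τ A * A = 1) (hA' : A * τ A = 1) (ha : IsUnit a) (haτ : τ a = a)
    (haA : a * A = A * a) (k : ℕ) (hk : (k : F) ≠ 0) (hAk : A ^ k = 1)
    (hE : ∀ e : M, e * e = e → τ e = e → a * e = e * a → ∃ c, e * c = c ∧ c * e = c ∧ τ c * c = e * a) :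
    ∃ c, c * A = A * c ∧ τ c * c = a := by
  obtain ⟨j, f, c₃, hf, hff, hτf, hfA, hfa, hc3A, hfc3, hc3f, hn3⟩ :=
    exists_corner τ hadd hmul hone hττ A a hA hA' ha haτ haA
  set e := 1 - f with he
  have hee : e * e = e := by
    simp only [he, sub_mul, mul_sub, one_mul, mul_one, hff]; abel
  have hef : e * f = 0 := by simp only [he, sub_mul, one_mul, hff, sub_self]
  have hfe : f * e = 0 := by simp only [he, mul_sub, mul_one, hff, sub_self]
  have hτe : τ e = e := by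
    rw [he, sub_eq_add_neg, hadd, InvRing.tau_neg τ hadd, hone, hτf]
  have heA : e * A = A * e := by simp only [he, sub_mul, mul_sub, one_mul, mul_one, hfA]
  have hea : a * e = e * a := by simp only [he, sub_mul, mul_sub, one_mul, mul_one, hfa]
  have hcomm : Commute A (A - τ A) := by
    show A * (A - τ A) = (A - τ A) * A
    rw [mul_sub, sub_mul, hA, hA']
  have hkey : (A ^ 2 - 1) * e = 0 := by
    apply sub_one_mul_eq_zero (F := F) (A ^ 2) e k (j + 1) hk (by rw [← pow_mul, mul_comm, pow_mul, hAk, one_pow])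
    have : A ^ 2 - 1 = A * (A - τ A) := by rw [mul_sub, hA', sq]
    rw [this, hcomm.mul_pow, ← hf, mul_assoc, hfe, mul_zero]
  have hAAe : A * (A * e) = e := by
    rw [sub_mul, one_mul, sub_eq_zero, sq, mul_assoc] at hkey
    exact hkey
  obtain ⟨s, hs⟩ : ∃ s, s = A * e := ⟨_, rfl⟩
  have hes : e * s = s := by rw [hs, ← mul_assoc, heA, mul_assoc, hee]
  have hse : s * e = s := by rw [hs, mul_assoc, hee]
  have hss : s * s = e := by
    calc s * s = A * (e * A) * e := by rw [hs]; simp only [mul_assoc]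
      _ = A * (A * (e * e)) := by rw [heA]; simp only [mul_assoc]
      _ = e := by rw [hee, hAAe]
  have hτs : τ s = s := by
    have h1 : τ A * e = s := by
      calc τ A * e = τ A * (A * (A * e)) := by rw [hAAe]
        _ = s := by rw [← mul_assoc, hA, one_mul, hs]
    have h2 : e * τ A = τ A * e := by
      calc e * τ A = τ A * (A * e) * τ A := by rw [← mul_assoc, hA, one_mul]
        _ = τ A * (e * A) * τ A := by rw [heA]
        _ = τ A * e := by rw [mul_assoc, mul_assoc, hA', mul_one]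
    rw [hs, hmul, hτe, h2, h1, hs]
  have has : a * s = s * a := by
    rw [hs, ← mul_assoc, haA, mul_assoc, hea, mul_assoc]
  obtain ⟨e₁, e₂, hsum, h11, h22, h12, h21, hA1, h1A, hA2, h2A, ht1, ht2, ha1, ha2⟩ :
      ∃ e₁ e₂ : M, e₁ + e₂ = e ∧ e₁ * e₁ = e₁ ∧ e₂ * e₂ = e₂ ∧ e₁ * e₂ = 0 ∧ e₂ * e₁ = 0 ∧
        A * e₁ = e₁ ∧ e₁ * A = e₁ ∧ A * e₂ = -e₂ ∧ e₂ * A = -e₂ ∧ τ e₁ = e₁ ∧ τ e₂ = e₂ ∧
        a * e₁ = e₁ * a ∧ a * e₂ = e₂ * a := by
    by_cases h2 : (2 : F) = 0
    · have hodd : Odd k := by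
        rcases Nat.even_or_odd k with hev | hodd
        · exfalso
          obtain ⟨r, rfl⟩ := hev
          apply hk
          rw [← two_mul, Nat.cast_mul, Nat.cast_two, h2, zero_mul]
        · exact hodd
      obtain ⟨l, rfl⟩ := hodd
      have hpow : ∀ i : ℕ, (A ^ 2) ^ i * e = e := by
        intro i
        induction i with
        | zero => simp
        | succ i ih =>
          have h3 : A ^ 2 * e = e := by rw [sq, mul_assoc, hAAe]
          rw [pow_succ, mul_assoc, h3, ih]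
      have hse' : s = e := by
        calc s = A * ((A ^ 2) ^ l * e) := by rw [hpow, hs]
          _ = A ^ (2 * l + 1) * e := by rw [pow_succ' A (2 * l), pow_mul, mul_assoc]
          _ = e := by rw [hAk, one_mul]
      refine ⟨e, 0, add_zero _, hee, by simp, by simp, by simp, hs ▸ hse', ?_, by simp, by simp, hτe,
        InvRing.tau_zero τ hadd, hea, by simp⟩
      rw [heA]; exact hs ▸ hse'
    · obtain ⟨e₁, e₂, hd1, hd2, hsum, h11, h22, h12, h21, hs1, h1s, hs2, h2s⟩ :=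
        split_invol (F := F) h2 e s hee hes hse hss
      have hee1 : e * e₁ = e₁ := by rw [← hsum, add_mul, h11, h21, add_zero]
      have hee2 : e * e₂ = e₂ := by rw [← hsum, add_mul, h12, h22, zero_add]
      have he1e : e₁ * e = e₁ := by rw [← hsum, mul_add, h11, h12, add_zero]
      have he2e : e₂ * e = e₂ := by rw [← hsum, mul_add, h21, h22, zero_add]
      refine ⟨e₁, e₂, hsum, h11, h22, h12, h21, ?_, ?_, ?_, ?_, ?_, ?_, ?_, ?_⟩
      · rw [← hee1, ← mul_assoc, hee1, ← hs]; exact hs1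
      · rw [← he1e, mul_assoc, heA, he1e, ← hs]; exact h1s
      · rw [← hee2, ← mul_assoc, hee2, ← hs]; exact hs2
      · rw [← he2e, mul_assoc, heA, he2e, ← hs]; exact h2s
      · rw [hd1, hsmul, hadd, hτe, hτs]
      · rw [hd2, hsmul, sub_eq_add_neg, hadd, InvRing.tau_neg τ hadd, hτe, hτs]
      · rw [hd1, mul_smul_comm, smul_mul_assoc, mul_add, add_mul, hea, has]
      · rw [hd2, mul_smul_comm, smul_mul_assoc, mul_sub, sub_mul, hea, has]
  have hee1 : e * e₁ = e₁ := by rw [← hsum, add_mul, h11, h21, add_zero]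
  have hee2 : e * e₂ = e₂ := by rw [← hsum, add_mul, h12, h22, zero_add]
  have he1e : e₁ * e = e₁ := by rw [← hsum, mul_add, h11, h12, add_zero]
  have he2e : e₂ * e = e₂ := by rw [← hsum, mul_add, h21, h22, zero_add]
  obtain ⟨c₁, hc1, hc1', n1⟩ := hE e₁ h11 ht1 ha1
  obtain ⟨c₂, hc2, hc2', n2⟩ := hE e₂ h22 ht2 ha2
  refine ⟨c₁ + c₂ + c₃, ?_, ?_⟩
  · have k1 : c₁ * A = A * c₁ := by
      calc c₁ * A = c₁ * (e₁ * A) := by rw [← mul_assoc, hc1']
        _ = c₁ := by rw [h1A, hc1']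
        _ = A * e₁ * c₁ := by rw [hA1, hc1]
        _ = A * c₁ := by rw [mul_assoc, hc1]
    have k2 : c₂ * A = A * c₂ := by
      calc c₂ * A = c₂ * (e₂ * A) := by rw [← mul_assoc, hc2']
        _ = -c₂ := by rw [h2A, mul_neg, hc2']
        _ = A * e₂ * c₂ := by rw [hA2, neg_mul, hc2]
        _ = A * c₂ := by rw [mul_assoc, hc2]
    rw [add_mul, add_mul, mul_add, mul_add, k1, k2, hc3A]
  · apply assemble τ hadd hmul a e₁ e₂ f c₁ c₂ c₃ (by rw [hsum, he]; abel) h12 h21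
      (by rw [← he1e, mul_assoc, hef, mul_zero]) (by rw [← hee1, ← mul_assoc, hfe, zero_mul])
      (by rw [← he2e, mul_assoc, hef, mul_zero]) (by rw [← hee2, ← mul_assoc, hfe, zero_mul])
      ht1 ht2 hτf hc1 hc2 hfc3 n1 n2 hn3

end sub

end Cfsg.Agent.Lib.Helper50.InvCorner
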