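import Cfsg.Agent.Lib.Helper50.InvOdd
import Cfsg.Agent.Lib.Helper50.SpConj
import Cfsg.Agent.Lib.Helper50.QuadStd
import Cfsg.Agent.S0750

set_option autoImplicit false

/-! Semisimple elements of odd order of an orthogonal group conjugate in `GL` are conjugate in the orthogonal group. -/

namespace Cfsg.Agent.Lib.Helper50.OConj

open Cfsg.Agent.Lib.Helper50 Matrix QuadraticMap
open Cfsg.Agent.Lib.Helper50.SpConj (adj adj_add adj_mul adj_one adj_adj adj_smul ext_mulVec ext_bilin)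

variable {F : Type*} [Field F] [Finite F]

theorem conj_O {n : ℕ} (Q : QuadraticForm F (Fin n → F)) (hQ : (polarBilin Q).Nondegenerate)
    (A B : ↥(Cfsg.isometryGroup F ⇑Q)) (k : ℕ) (hk : (k : F) ≠ 0) (hodd : Odd k) (hAk : A ^ k = 1)
    (g : (Matrix (Fin n) (Fin n) F)ˣ)
    (hg : (g : Matrix (Fin n) (Fin n) F) * A.1.1 = B.1.1 * g) : IsConj A B := by
  set G := LinearMap.BilinForm.toMatrix' (polarBilin Q) with hGdef
  have hβ : ∀ u v, polar Q u v = u ⬝ᵥ G *ᵥ v := by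
    intro u v
    rw [← Matrix.toBilin'_apply', hGdef, Matrix.toBilin'_toMatrix', polarBilin_apply_apply]
  have hdet : G.det ≠ 0 := by
    rw [← LinearMap.BilinForm.nondegenerate_toBilin'_iff_det_ne_zero, hGdef, Matrix.toBilin'_toMatrix']
    exact hQ
  have hGu : IsUnit G.det := isUnit_iff_ne_zero.2 hdet
  obtain ⟨G', hG'⟩ : ∃ G', G' = G⁻¹ := ⟨_, rfl⟩
  have h1 : G * G' = 1 := by rw [hG']; exact Matrix.mul_nonsing_inv _ hGu
  have h2 : G' * G = 1 := by rw [hG']; exact Matrix.nonsing_inv_mul _ hGu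
  have hGt : Gᵀ = G := by
    apply ext_bilin
    intro x y
    rw [mulVec_transpose, ← hβ x y, polar_comm, hβ, dotProduct_mulVec, dotProduct_comm]
  have hGt' : G'ᵀ = G' := by rw [hG', Matrix.transpose_nonsing_inv, hGt]
  set τ := adj G G' with hτ
  have hadd : ∀ X Y, τ (X + Y) = τ X + τ Y := adj_add G G'
  have hmul : ∀ X Y, τ (X * Y) = τ Y * τ X := adj_mul G G' h1
  have hone : τ 1 = 1 := adj_one G G' h2
  have hττ : ∀ X, τ (τ X) = X :=
    adj_adj G G' h1 h2 1 (by ring) (by rw [hGt, one_smul]) (by rw [hGt', one_smul])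
  have hadj : ∀ (X : Matrix (Fin n) (Fin n) F) u v, polar Q (X *ᵥ u) v = polar Q u (τ X *ᵥ v) := by
    intro X u v
    rw [hβ, hβ, mulVec_mulVec]
    have : G * τ X = Xᵀ * G := by
      show G * (G' * Xᵀ * G) = _
      rw [← mul_assoc, ← mul_assoc, h1, one_mul]
    rw [this, ← mulVec_mulVec, dotProduct_mulVec u, vecMul_transpose]
  have hiso : ∀ (X : ↥(Cfsg.isometryGroup F ⇑Q)) v, Q (X.1.1 *ᵥ v) = Q v :=
    fun X => (Quad.mem_isometryGroup_iff _ _).1 X.2
  have hunit : ∀ X : ↥(Cfsg.isometryGroup F ⇑Q), τ X.1.1 * X.1.1 = 1 := by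
    intro X
    have h3 : X.1.1ᵀ * G * X.1.1 = G := by
      apply ext_bilin
      intro x y
      rw [mul_assoc, ← mulVec_mulVec, dotProduct_mulVec, vecMul_transpose, ← mulVec_mulVec, ← hβ, ← hβ]
      unfold polar
      rw [← mulVec_add, hiso, hiso, hiso]
    show G' * X.1.1ᵀ * G * X.1.1 = 1
    rw [mul_assoc, mul_assoc, ← mul_assoc _ G, h3, h2]
  have hunit' : ∀ X : ↥(Cfsg.isometryGroup F ⇑Q), X.1.1 * τ X.1.1 = 1 := fun X => mul_eq_one_comm.1 (hunit X)
  set A' : Matrix (Fin n) (Fin n) F := A.1.1 with hA'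
  set B' : Matrix (Fin n) (Fin n) F := B.1.1 with hB'
  set g' : Matrix (Fin n) (Fin n) F := g.1 with hg'
  obtain ⟨gi, hgi⟩ : ∃ gi : Matrix (Fin n) (Fin n) F, gi = ↑g⁻¹ := ⟨_, rfl⟩
  have hggi : g' * gi = 1 := by rw [hgi, hg']; exact Units.mul_inv g
  have hgig : gi * g' = 1 := by rw [hgi, hg']; exact Units.inv_mul g
  obtain ⟨a, ha⟩ : ∃ a, a = τ g' * g' := ⟨_, rfl⟩
  have hτgu : IsUnit (τ g') := IsUnit.of_mul_eq_one (τ gi) (by rw [← hmul, hgig, hone])
  have hau : IsUnit a := ha ▸ hτgu.mul g.isUnit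
  have haτ : τ a = a := by rw [ha, hmul, hττ]
  have h3 : τ g' * B' = A' * τ g' := by
    have h4 : τ A' * τ g' = τ g' * τ B' := by rw [← hmul, ← hmul, hg]
    calc τ g' * B' = A' * (τ A' * τ g') * B' := by rw [← mul_assoc, hunit' A, one_mul]
      _ = A' * τ g' * (τ B' * B') := by rw [h4]; simp only [mul_assoc]
      _ = A' * τ g' := by rw [hunit B, mul_one]
  have haA : a * A' = A' * a := by
    rw [ha, mul_assoc, hg, ← mul_assoc, h3, mul_assoc]
  have hAk' : A' ^ k = 1 := by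
    have := congrArg (fun X : ↥(Cfsg.isometryGroup F ⇑Q) => X.1.1) hAk
    simpa using this
  obtain ⟨f, c, c', r, hff, hτf, hfA, hfa, hcA, hfc, hcf, hn, hfr, hAe, hcc, hR, hL⟩ :=
    InvCorner.exists_corner_odd (F := F) τ hadd hmul hone hττ A' a (hunit A) (hunit' A) hau haτ haA k hk hodd hAk'
  have hef : (1 - f) * f = 0 := by rw [sub_mul, one_mul, hff, sub_self]
  have hfe : f * (1 - f) = 0 := by rw [mul_sub, mul_one, hff, sub_self]
  -- the partial isometry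
  obtain ⟨Pm, hPm⟩ : ∃ Pm, Pm = (c + (1 - f)) * gi := ⟨_, rfl⟩
  obtain ⟨Pi, hPi⟩ : ∃ Pi, Pi = g' * (c' + (1 - f)) := ⟨_, rfl⟩
  have hPiPm : Pi * Pm = 1 := by
    rw [hPi, hPm, mul_assoc, ← mul_assoc _ _ gi, hL, one_mul, hggi]
  have hPmPi : Pm * Pi = 1 := by
    rw [hPi, hPm, mul_assoc, ← mul_assoc gi, hgig, one_mul, hR]
  set PL := Matrix.toLin'OfInv hPiPm hPmPi with hPLdef
  have hPL : ∀ v, PL v = Pm *ᵥ v := fun v => rfl
  have hPgf : Pm * (g' * f) = c := by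
    rw [hPm, mul_assoc, ← mul_assoc gi, hgig, one_mul, add_mul, hcf, hef, add_zero]
  have hkeyQ : ∀ X : Matrix (Fin n) (Fin n) F, (∀ v, Q (X *ᵥ v) = Q v) →
      ∀ z, Q ((X - 1) *ᵥ z) = - polar Q ((X - 1) *ᵥ z) z := by
    intro X hX z
    have h4 := QuadraticMap.map_add Q ((X - 1) *ᵥ z) z
    have h5 : (X - 1) *ᵥ z + z = X *ᵥ z := by rw [sub_mulVec, one_mulVec, sub_add_cancel]
    rw [h5, hX] at h4
    linear_combination -h4
  have hc_eq : c = (A' - 1) * (c * r) := by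
    calc c = c * ((A' - 1) * r) := by rw [← hfr, hcf]
      _ = (c * A' - c) * r := by rw [← mul_assoc, mul_sub, mul_one]
      _ = (A' - 1) * (c * r) := by rw [hcA, ← mul_assoc, sub_mul A' 1 c, one_mul]
  have hgf_eq : g' * f = (B' - 1) * (g' * r) := by
    calc g' * f = g' * ((A' - 1) * r) := by rw [← hfr]
      _ = (g' * A' - g') * r := by rw [← mul_assoc, mul_sub, mul_one]
      _ = (B' - 1) * (g' * r) := by rw [hg, ← mul_assoc, sub_mul B' 1 g', one_mul]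
  have hQc : ∀ w, Q (c *ᵥ w) = Q ((g' * f) *ᵥ w) := by
    intro w
    have e1 : Q (c *ᵥ w) = - polar Q w ((f * a * r) *ᵥ w) := by
      have h := hkeyQ A' (hiso A) ((c * r) *ᵥ w)
      rw [mulVec_mulVec, ← hc_eq] at h
      rw [h, hadj, mulVec_mulVec, ← mul_assoc, hn]
    have e2 : Q ((g' * f) *ᵥ w) = - polar Q w ((f * a * r) *ᵥ w) := by
      have h := hkeyQ B' (hiso B) ((g' * r) *ᵥ w)
      rw [mulVec_mulVec, ← hgf_eq] at h
      rw [h, hadj, mulVec_mulVec, hmul, hτf, ha]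
      simp only [mul_assoc]
    rw [e1, e2]
  set Y := LinearMap.range (Matrix.mulVecLin (g' * f)) with hY
  obtain ⟨h', hh'Q, hh'Y⟩ := Cfsg.Agent.S0750.result Q hQ Y _ (PL.submoduleMap Y) (by
    rintro ⟨_, w, rfl⟩
    rw [LinearEquiv.submoduleMap_apply, hPL]
    show Q (Pm *ᵥ ((g' * f) *ᵥ w)) = Q ((g' * f) *ᵥ w)
    rw [mulVec_mulVec, hPgf, hQc])
  have hh'gf : ∀ w, h' ((g' * f) *ᵥ w) = c *ᵥ w := by
    intro w
    have := hh'Y ⟨(g' * f) *ᵥ w, w, rfl⟩
    rw [LinearEquiv.submoduleMap_apply, hPL] at this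
    rw [this, mulVec_mulVec, hPgf]
  have hh'pol : ∀ u v, polar Q (h' u) (h' v) = polar Q u v := by
    intro u v
    unfold polar
    rw [← map_add, hh'Q, hh'Q, hh'Q]
  have hmain : ∀ v, h' (B' *ᵥ v) = A' *ᵥ (h' v) := by
    intro v
    obtain ⟨w, hw⟩ : ∃ w, w = gi *ᵥ v := ⟨_, rfl⟩
    have hv : v = (g' * f) *ᵥ w + (g' * (1 - f)) *ᵥ w := by
      rw [← add_mulVec, ← mul_add, add_sub_cancel, mul_one, hw, mulVec_mulVec, hggi, one_mulVec]
    rw [hv, mulVec_add, map_add, map_add, mulVec_add]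
    congr 1
    · have h5 : B' * (g' * f) = (g' * f) * A' := by
        rw [← mul_assoc, ← hg, mul_assoc, mul_assoc, hfA]
      rw [mulVec_mulVec, h5, ← mulVec_mulVec, hh'gf, hh'gf, mulVec_mulVec, mulVec_mulVec, hcA]
    · have h5 : B' * (g' * (1 - f)) = g' * (1 - f) := by
        rw [← mul_assoc, ← hg, mul_assoc, hAe]
      rw [mulVec_mulVec, h5]
      obtain ⟨z, hz⟩ : ∃ z, z = h' ((g' * (1 - f)) *ᵥ w) := ⟨_, rfl⟩
      rw [← hz]
      have hfz : f *ᵥ z = 0 := by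
        apply hQ.1
        intro t
        rw [polarBilin_apply_apply, hadj, hτf, ← hcc, ← mulVec_mulVec, ← hh'gf, hz, hh'pol, polar_comm, hadj,
          mulVec_mulVec, hmul, hτf]
        have h6 : f * τ g' * (g' * (1 - f)) = 0 := by
          calc f * τ g' * (g' * (1 - f)) = f * a * (1 - f) := by rw [ha]; simp only [mul_assoc]
            _ = 0 := by rw [hfa, mul_assoc, hfe, mul_zero]
        rw [h6, zero_mulVec]
        simp [polar]
      have hz2 : z = (1 - f) *ᵥ z := by rw [sub_mulVec, one_mulVec, hfz, sub_zero]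
      rw [hz2, mulVec_mulVec, hAe]
  -- back to matrices
  have hH1 : LinearMap.toMatrix' h'.toLinearMap * LinearMap.toMatrix' h'.symm.toLinearMap = 1 := by
    rw [← LinearMap.toMatrix'_comp]; simp
  have hH2 : LinearMap.toMatrix' h'.symm.toLinearMap * LinearMap.toMatrix' h'.toLinearMap = 1 := by
    rw [← LinearMap.toMatrix'_comp]; simp
  set H : Matrix.GeneralLinearGroup (Fin n) F := ⟨_, _, hH1, hH2⟩ with hH
  have hHv : ∀ v, H.1 *ᵥ v = h' v := fun v => LinearMap.toMatrix'_mulVec _ _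
  have hHmem : H ∈ Cfsg.isometryGroup F ⇑Q := by
    rw [Quad.mem_isometryGroup_iff]
    intro u
    show Q (H.1 *ᵥ u) = Q u
    rw [hHv, hh'Q]
  apply IsConj.symm
  rw [isConj_iff]
  refine ⟨⟨H, hHmem⟩, ?_⟩
  rw [mul_inv_eq_iff_eq_mul]
  apply Subtype.ext
  apply Units.ext
  show H.1 * B' = A' * H.1
  apply ext_mulVec
  intro v
  rw [← mulVec_mulVec, ← mulVec_mulVec, hHv, hHv, hmain]

end Cfsg.Agent.Lib.Helper50.OConj
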