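import Cfsg.Agent.Lib.Helper50.QuadIso

set_option autoImplicit false
open QuadraticMap Matrix

namespace Cfsg.Agent.Lib.Helper50.Quad

section disc
variable {F : Type*} [Field F]

/-- Gram matrix of the polar form in the standard basis -/
def gram {ι : Type*} [DecidableEq ι] (Q : QuadraticForm F (ι → F)) : Matrix ι ι F :=
  Matrix.of fun i j => polar Q (Pi.single i 1) (Pi.single j 1)

theorem gram_eq_toMatrix' {ι : Type*} [DecidableEq ι] [Fintype ι] (Q : QuadraticForm F (ι → F)) :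
    gram Q = LinearMap.BilinForm.toMatrix' Q.polarBilin := by
  ext i j
  rw [LinearMap.BilinForm.toMatrix'_apply]
  rfl

theorem gram_det_ne_zero {ι : Type*} [DecidableEq ι] [Fintype ι] (Q : QuadraticForm F (ι → F))
    (hQ : (QuadraticMap.polarBilin Q).Nondegenerate) : (gram Q).det ≠ 0 := by
  rw [gram_eq_toMatrix', ← Matrix.nondegenerate_iff_det_ne_zero, LinearMap.BilinForm.nondegenerate_toMatrix'_iff]
  exact hQ

theorem gram_comp {ι₁ ι₂ : Type*} [DecidableEq ι₁] [Fintype ι₁] [DecidableEq ι₂] [Fintype ι₂]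
    (Q : QuadraticForm F (ι₁ → F)) (S : QuadraticForm F (ι₂ → F)) (g : (ι₁ → F) →ₗ[F] (ι₂ → F))
    (hg : ∀ v, S (g v) = Q v) :
    gram Q = (LinearMap.toMatrix' g)ᵀ * gram S * LinearMap.toMatrix' g := by
  rw [gram_eq_toMatrix', gram_eq_toMatrix', ← LinearMap.BilinForm.toMatrix'_comp]
  congr 1
  have key : ∀ u v, Q.polarBilin u v = (LinearMap.BilinForm.comp S.polarBilin g g) u v := by
    intro u v
    rw [LinearMap.BilinForm.comp_apply, polarBilin_apply_apply, polarBilin_apply_apply]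
    simp only [polar]
    rw [← map_add, hg, hg, hg]
  exact LinearMap.ext (fun u => LinearMap.ext (fun v => key u v))

theorem det_gram_comp {ι₁ ι₂ : Type*} [DecidableEq ι₁] [Fintype ι₁] [DecidableEq ι₂] [Fintype ι₂]
    (Q : QuadraticForm F (ι₁ → F)) (S : QuadraticForm F (ι₂ → F)) (g : (ι₁ → F) →ₗ[F] (ι₂ → F))
    (hg : ∀ v, S (g v) = Q v) (ε : ι₁ ≃ ι₂) :
    (gram Q).det = ((LinearMap.toMatrix' g).submatrix ε id).det ^ 2 * (gram S).det := by
  have h1 : gram Q = ((LinearMap.toMatrix' g).submatrix ε id)ᵀ * (gram S).submatrix ε ε *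
      (LinearMap.toMatrix' g).submatrix ε id := by
    rw [gram_comp Q S g hg, transpose_submatrix, submatrix_mul_equiv, submatrix_mul_equiv]
    rfl
  rw [h1, det_mul, det_mul, det_transpose, det_submatrix_equiv_self]
  ring

theorem det_swap (m : ℕ) : (fromBlocks 0 1 1 0 : Matrix (Fin m ⊕ Fin m) (Fin m ⊕ Fin m) F).det = (-1) ^ m := by
  have h1 : (fromBlocks 0 1 1 0 : Matrix (Fin m ⊕ Fin m) (Fin m ⊕ Fin m) F) * fromBlocks 1 0 1 1 =
      fromBlocks 1 1 1 0 := by
    rw [fromBlocks_multiply]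
    simp
  have h2 := congrArg det h1
  rw [det_mul, det_fromBlocks_zero₁₂, det_one, mul_one, mul_one, det_fromBlocks_one₁₁] at h2
  rw [h2]
  simp [det_neg]

variable {τ : Type} [DecidableEq τ] [Fintype τ]

omit [Fintype τ] in
theorem gram_Qgen (m : ℕ) (T : QuadraticForm F (τ → F)) :
    gram (Qgen m T) = fromBlocks (fromBlocks 0 1 1 0) 0 0 (gram T) := by
  ext s t
  rcases s with (i | i) | k <;> rcases t with (j | j) | l <;>
    simp only [gram, of_apply, fromBlocks_apply₁₁, fromBlocks_apply₁₂, fromBlocks_apply₂₁, fromBlocks_apply₂₂,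
      Matrix.zero_apply]
  · rw [Qgen_polar_inl_inl]; simp
  · rw [Qgen_polar_inl_inr]; simp [Pi.single_apply, one_apply, eq_comm]
  · rw [Qgen_polar_inr, inr_single_inl, polar_zero_left]
  · rw [Qgen_polar_inl_inl]; simp [Pi.single_apply, one_apply, eq_comm]
  · rw [Qgen_polar_inl_inr]; simp
  · rw [Qgen_polar_inr, inr_single_inl, polar_zero_left]
  · rw [Qgen_polar_inl_inl]; simp
  · rw [Qgen_polar_inl_inr]; simp
  · rw [Qgen_polar_inr, inr_single_inr]

theorem det_gram_Qgen (m : ℕ) (T : QuadraticForm F (τ → F)) :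
    (gram (Qgen m T)).det = (-1) ^ m * (gram T).det := by
  rw [gram_Qgen, det_fromBlocks_zero₂₁, det_swap]

/-- the discriminant of a form isometric to `Qgen m T` -/
theorem disc_eq {n : ℕ} (Q : QuadraticForm F (Fin n → F)) (hQ : (QuadraticMap.polarBilin Q).Nondegenerate)
    (m : ℕ) (T : QuadraticForm F (τ → F)) (g : (Fin n → F) ≃ₗ[F] ((Fin m ⊕ Fin m) ⊕ τ → F))
    (hg : ∀ v, Qgen m T (g v) = Q v) :
    ∃ p : F, p ≠ 0 ∧ (gram Q).det = p ^ 2 * ((-1) ^ m * (gram T).det) := by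
  have hcard : Fintype.card (Fin n) = Fintype.card ((Fin m ⊕ Fin m) ⊕ τ) := by
    have := g.finrank_eq
    rwa [Module.finrank_fintype_fun_eq_card, Module.finrank_fintype_fun_eq_card] at this
  have h1 := det_gram_comp Q (Qgen m T) g.toLinearMap hg (Fintype.equivOfCardEq hcard)
  rw [det_gram_Qgen] at h1
  refine ⟨_, ?_, h1⟩
  intro h0
  rw [h0] at h1
  apply gram_det_ne_zero Q hQ
  rw [h1]; ring

omit [Fintype τ] [DecidableEq τ] in
theorem isSquare_of_sq_mul (x y : F) (hx : x ≠ 0) (h : IsSquare (x ^ 2 * y)) : IsSquare y := by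
  obtain ⟨r, hr⟩ := h
  refine ⟨r / x, ?_⟩
  field_simp
  linear_combination hr

end disc

end Cfsg.Agent.Lib.Helper50.Quad
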