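import Cfsg.Agent.Lib.Helper50.QuadStd

set_option autoImplicit false
open Matrix

namespace Cfsg.Agent.Lib.Helper50.Quad

variable {F : Type*} [Field F]

/-- reindexing the coordinates gives an isomorphic isometry group -/
noncomputable def isoReindex {ι ι' : Type} [Fintype ι] [DecidableEq ι] [Fintype ι'] [DecidableEq ι'] (e : ι ≃ ι')
    (Qf : (ι → F) → F) (Qf' : (ι' → F) → F) (h : ∀ v, Qf' v = Qf (v ∘ e)) :
    Cfsg.isometryGroup F Qf ≃* Cfsg.isometryGroup F Qf' :=
  let E : Matrix.GeneralLinearGroup ι F ≃* Matrix.GeneralLinearGroup ι' F :=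
    Units.mapEquiv (Matrix.reindexAlgEquiv F F e).toMulEquiv
  { toEquiv := E.toEquiv.subtypeEquiv (by
      intro g
      have hE : ((E g : Matrix.GeneralLinearGroup ι' F) : Matrix ι' ι' F) =
          (g : Matrix ι ι F).submatrix e.symm e.symm := rfl
      change g ∈ Cfsg.isometryGroup F Qf ↔ E g ∈ Cfsg.isometryGroup F Qf'
      rw [mem_isometryGroup_iff, mem_isometryGroup_iff, hE]
      have key : ∀ u : ι' → F,
          ((g : Matrix ι ι F).submatrix e.symm e.symm *ᵥ u) ∘ e = (g : Matrix ι ι F) *ᵥ (u ∘ e) := by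
        intro u
        rw [Matrix.submatrix_mulVec_equiv]
        ext r
        simp
      constructor
      · intro hg u
        rw [h, h, key, hg]
      · intro hg u
        have := hg (u ∘ e.symm)
        rw [h, h, key] at this
        simpa [Function.comp_assoc] using this)
    map_mul' := fun x y => Subtype.ext (map_mul E _ _) }

theorem isoReindex_coe {ι ι' : Type} [Fintype ι] [DecidableEq ι] [Fintype ι'] [DecidableEq ι'] (e : ι ≃ ι')
    (Qf : (ι → F) → F) (Qf' : (ι' → F) → F) (h : ∀ v, Qf' v = Qf (v ∘ e)) (g : Cfsg.isometryGroup F Qf) :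
    (((isoReindex e Qf Qf' h g : Cfsg.isometryGroup F Qf') : Matrix.GeneralLinearGroup ι' F) : Matrix ι' ι' F) =
      ((g : Matrix.GeneralLinearGroup ι F) : Matrix ι ι F).submatrix e.symm e.symm := rfl

end Cfsg.Agent.Lib.Helper50.Quad
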