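import Cfsg.Agent.Lib.Helper50.RU.Defs
import Cfsg.Agent.Lib.Helper65.UU.Reg

/-!
# Ladder RU, all rungs in one file (private copy used by `S2643`, so that nobody overwrites a rung it depends on).
`reg_conj reg_gl_conj reg_iff_conj scalar_mem mem_range_detGU exists_reg`: helper50; `charpoly_of_commute det_of_charpoly`: helper65.
-/

set_option autoImplicit false

namespace Cfsg.Agent.Lib.Helper50.RUAll

open Cfsg.Agent.Lib.Helper50.RU
open Cfsg.Agent.Lib.Helper50.Herm Cfsg.Agent.Lib.Helper50.GUConj Cfsg.Agent.Lib.Helper50.CC Cfsg.Agent.Lib.Helper48 Matrix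

variable {K : Type*} [Field K] [Fintype K] {q n : ℕ}


/-- CJI. -/
theorem reg_conj (z A : Matrix.GeneralLinearGroup (Fin n) K) (hA : Reg (A : Matrix (Fin n) (Fin n) K)) :
    Reg ((z * A * z⁻¹ : Matrix.GeneralLinearGroup (Fin n) K) : Matrix (Fin n) (Fin n) K) := by
  have hg' : ((z * A * z⁻¹ : Matrix.GeneralLinearGroup (Fin n) K) : Matrix (Fin n) (Fin n) K) - 1 =
      (z : Matrix (Fin n) (Fin n) K) * ((A : Matrix (Fin n) (Fin n) K) - 1) *
        ((z⁻¹ : Matrix.GeneralLinearGroup (Fin n) K) : Matrix (Fin n) (Fin n) K) := by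
    rw [Units.val_mul, Units.val_mul, Matrix.mul_sub, Matrix.sub_mul, Matrix.mul_one]
    congr 1
    rw [← Units.val_mul, mul_inv_cancel]; rfl
  constructor
  · rw [hg']
    have := Units.conj_pow z ((A : Matrix (Fin n) (Fin n) K) - 1) n
    rw [this, hA.1]
    simp
  · rw [hg', Matrix.rank_mul_eq_left_of_isUnit_det, Matrix.rank_mul_eq_right_of_isUnit_det, hA.2]
    · exact (Matrix.isUnit_iff_isUnit_det _).1 z.isUnit
    · exact (Matrix.isUnit_iff_isUnit_det _).1 (z⁻¹).isUnit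

/-- CJG. -/
theorem reg_gl_conj (hn : 1 ≤ n) (A B : Matrix.GeneralLinearGroup (Fin n) K)
    (hA : Reg (A : Matrix (Fin n) (Fin n) K)) (hB : Reg (B : Matrix (Fin n) (Fin n) K)) :
    ∃ g : Matrix.GeneralLinearGroup (Fin n) K, g * A * g⁻¹ = B := by
  obtain ⟨g, hg⟩ := Cfsg.Agent.S2578.conj_of_reg hn ((A : Matrix (Fin n) (Fin n) K) - 1)
    ((B : Matrix (Fin n) (Fin n) K) - 1) hA.1 hA.2 hB.1 hB.2
  refine ⟨g, ?_⟩
  rw [mul_inv_eq_iff_eq_mul]
  apply Units.ext
  rw [Units.val_mul, Units.val_mul]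
  rw [Matrix.mul_sub, Matrix.sub_mul, Matrix.mul_one, Matrix.one_mul] at hg
  exact sub_left_injective hg


/-- HX. -/
theorem reg_iff_conj (hK : Fintype.card K = q ^ 2) (hn : 1 ≤ n) (u₀ u : ↥(Cfsg.SU n K q))
    (h0 : Reg ((Matrix.SpecialLinearGroup.toGL u₀.1 : Matrix.GeneralLinearGroup (Fin n) K) :
      Matrix (Fin n) (Fin n) K)) :
    Reg ((Matrix.SpecialLinearGroup.toGL u.1 : Matrix.GeneralLinearGroup (Fin n) K) : Matrix (Fin n) (Fin n) K) ↔
      ∃ g : ↥(Cfsg.GU n K q), g * suToGU n u₀ * g⁻¹ = suToGU n u := by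
  constructor
  · intro hu
    obtain ⟨x, hx⟩ := reg_gl_conj hn _ _ h0 hu
    obtain ⟨z, hz, hzc⟩ := conj_GU hK _ _ x (suToGU n u₀).2 (suToGU n u).2 hx
    exact ⟨⟨z, hz⟩, Subtype.ext hzc⟩
  · rintro ⟨g, hg⟩
    have h1 := congrArg Subtype.val hg
    have h2 := reg_conj g.1 _ h0
    have h3 : g.1 * Matrix.SpecialLinearGroup.toGL u₀.1 * g.1⁻¹ = Matrix.SpecialLinearGroup.toGL u.1 := h1
    rw [h3] at h2
    exact h2

/-- SCA. -/
theorem scalar_mem (hK : Fintype.card K = q ^ 2) (c : Kˣ) (hc : c ^ (q + 1) = 1) :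
    Matrix.GeneralLinearGroup.scalar (Fin n) c ∈ Cfsg.GU n K q := by
  rw [mem_GU_iff_dag hK]
  have h1 : ((Matrix.GeneralLinearGroup.scalar (Fin n) c : Matrix.GeneralLinearGroup (Fin n) K) :
      Matrix (Fin n) (Fin n) K) = Matrix.scalar (Fin n) (c : K) := rfl
  rw [h1, dag_scalar, ← map_mul, ← pow_succ]
  have h2 : (c : K) ^ (q + 1) = 1 := by
    have := congrArg Units.val hc
    simpa using this
  rw [h2, map_one]

/-- RNG. -/
theorem mem_range_detGU (hK : Fintype.card K = q ^ 2) (hn : 1 ≤ n) (c : Kˣ) (hc : c ^ (q + 1) = 1) :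
    c ∈ (detGU (K := K) (q := q) n).range := by
  classical
  obtain ⟨k, rfl⟩ : ∃ k, n = k + 1 := ⟨n - 1, by omega⟩
  obtain ⟨x, hxc⟩ : ∃ x : K, x = c := ⟨_, rfl⟩
  have hx : x ^ (q + 1) = 1 := by
    have := congrArg Units.val hc
    rw [hxc]
    simpa using this
  have hx0 : x ≠ 0 := by rw [hxc]; exact c.ne_zero
  let d : Fin (k + 1) → K := Function.update (fun _ => 1) 0 x
  have hd : ∀ i, d i ≠ 0 := by
    intro i
    by_cases hi : i = 0
    · subst hi; simpa [d] using hx0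
    · simp [d, hi]
  have hdn : ∀ i, d i * d i ^ q = 1 := by
    intro i
    by_cases hi : i = 0
    · subst hi; simpa [d, pow_succ'] using hx
    · simp [d, hi]
  have hdet : (Matrix.diagonal d).det = x := by
    rw [Matrix.det_diagonal, Fin.prod_univ_succ]
    simp [d]
  let g : Matrix.GeneralLinearGroup (Fin (k + 1)) K :=
    Matrix.GeneralLinearGroup.mkOfDetNeZero (Matrix.diagonal d) (by rw [hdet]; exact hx0)
  have hg : g ∈ Cfsg.GU (k + 1) K q := by
    apply mem_GU_of_gram hK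
    change (Matrix.diagonal d)ᵀ * (Matrix.diagonal d).map (frobQ hK) = 1
    rw [Matrix.diagonal_transpose, Matrix.diagonal_map (map_zero _), Matrix.diagonal_mul_diagonal,
      ← Matrix.diagonal_one]
    congr 1
    ext i
    exact hdn i
  refine ⟨⟨g, hg⟩, ?_⟩
  apply Units.ext
  rw [← hxc]
  exact hdet


/-- EX. -/
theorem exists_reg (hK : Fintype.card K = q ^ 2) (hn : 1 ≤ n) :
    ∃ u : ↥(Cfsg.SU n K q), Reg ((Matrix.SpecialLinearGroup.toGL u.1 : Matrix.GeneralLinearGroup (Fin n) K) :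
      Matrix (Fin n) (Fin n) K) := by
  have h2 := two_le_q hK
  obtain ⟨Am, hAm⟩ : ∃ Am : Matrix (Fin n) (Fin n) K, Am = Cfsg.jordanBlock n K := ⟨_, rfl⟩
  have hdet : Am.det = 1 := by rw [hAm]; exact jordanBlock_det
  have hreg : Reg Am := by rw [hAm]; exact ⟨jordanBlock_sub_one_pow, jordanBlock_sub_one_rank⟩
  have hdag : dag hK Am = Amᵀ := by
    ext i j
    rw [dag_apply, transpose_apply, hAm]
    unfold Cfsg.jordanBlock
    rw [Matrix.of_apply]
    split_ifs
    · simp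
    · simp
    · rw [zero_pow (by omega)]
  let A : Matrix.GeneralLinearGroup (Fin n) K :=
    Matrix.GeneralLinearGroup.mkOfDetNeZero Am (by rw [hdet]; exact one_ne_zero)
  let B : Matrix.GeneralLinearGroup (Fin n) K :=
    Matrix.GeneralLinearGroup.mkOfDetNeZero Amᵀ (by rw [det_transpose, hdet]; exact one_ne_zero)
  have hA : (A : Matrix (Fin n) (Fin n) K) = Am := rfl
  have hB : (B : Matrix (Fin n) (Fin n) K) = Amᵀ := rfl
  have hregB : Reg (B : Matrix (Fin n) (Fin n) K) := by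
    have h1 : Amᵀ - 1 = (Am - 1)ᵀ := by rw [transpose_sub, transpose_one]
    rw [hB]
    exact ⟨by rw [h1, ← transpose_pow, hreg.1, transpose_zero], by rw [h1, rank_transpose, hreg.2]⟩
  obtain ⟨Ai, hAi⟩ : ∃ Ai : Matrix (Fin n) (Fin n) K, Ai = ((A⁻¹ : Matrix.GeneralLinearGroup (Fin n) K) :
      Matrix (Fin n) (Fin n) K) := ⟨_, rfl⟩
  have hAiA : Ai * Am = 1 := by rw [hAi, ← hA, ← Units.val_mul, inv_mul_cancel]; rfl
  have hAAi : Am * Ai = 1 := by rw [hAi, ← hA, ← Units.val_mul, mul_inv_cancel]; rfl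
  have hregI : Reg ((A⁻¹ : Matrix.GeneralLinearGroup (Fin n) K) : Matrix (Fin n) (Fin n) K) := by
    rw [← hAi]
    have h1 : Ai - 1 = (-Ai) * (Am - 1) := by
      rw [mul_sub, neg_mul, hAiA, mul_one]; abel
    have hcomm : Commute (-Ai) (Am - 1) := by
      show (-Ai) * (Am - 1) = (Am - 1) * (-Ai)
      rw [mul_sub, sub_mul, neg_mul, mul_neg, hAiA, hAAi, mul_one, one_mul]
    constructor
    · rw [h1, hcomm.mul_pow, hreg.1, mul_zero]
    · rw [h1, rank_mul_eq_right_of_isUnit_det, hreg.2]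
      rw [← Matrix.isUnit_iff_isUnit_det]
      exact IsUnit.neg (by rw [hAi]; exact (A⁻¹).isUnit)
  obtain ⟨x, hx⟩ := reg_gl_conj hn _ _ hregI hregB
  have hx' : dag hK (A : Matrix (Fin n) (Fin n) K) * (x : Matrix (Fin n) (Fin n) K) *
      (A : Matrix (Fin n) (Fin n) K) = (x : Matrix (Fin n) (Fin n) K) := by
    rw [hA, hdag, ← hB, ← hA, ← Units.val_mul, ← Units.val_mul, ← hx]
    congr 1
    group
  obtain ⟨z, hz⟩ := exists_conj_mem_GU hK A x hx'
  have hd1 : detGU n ⟨z * A * z⁻¹, hz⟩ = 1 := by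
    show Matrix.GeneralLinearGroup.det (z * A * z⁻¹) = 1
    rw [map_mul, map_mul, map_inv, mul_comm, ← mul_assoc, inv_mul_cancel, one_mul]
    apply Units.ext
    exact hdet
  obtain ⟨s, hs⟩ := (detGU_eq_one_iff n _).1 hd1
  refine ⟨s, ?_⟩
  have h3 : Matrix.SpecialLinearGroup.toGL s.1 = z * A * z⁻¹ := congrArg Subtype.val hs
  rw [h3]
  exact reg_conj z A hreg


open Module LinearMap Polynomial in
theorem cen1_nilp (hn : 1 ≤ n) (u g : Matrix.GeneralLinearGroup (Fin n) K)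
    (h1 : (u.1 - 1) ^ n = 0) (h2 : (u.1 - 1).rank = n - 1) (hc : Commute g u) :
    ∃ c : K, IsNilpotent (g.1 - c • (1 : Matrix (Fin n) (Fin n) K)) := by
  have hc' : g ∈ Subgroup.centralizer ({u} : Set (Matrix.GeneralLinearGroup (Fin n) K)) := by
    rw [Subgroup.mem_centralizer_singleton_iff]; exact hc.eq
  rw [mem_centralizer_iff_commute] at hc'
  obtain ⟨a1, a2⟩ := Cfsg.Agent.S2578.reg_end (u.1 - 1) h1 h2
  obtain ⟨P, hP⟩ := exists_eq_aeval_of_commute _ a1 a2 (by rw [Module.finrank_fin_fun]; omega) _ hc'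
  refine ⟨P.coeff 0, ?_⟩
  set N : End K (Fin n → K) := Matrix.mulVecLin (u.1 - 1) with hN
  have e1 : aeval N P = algebraMap K (End K (Fin n → K)) (P.coeff 0) + aeval N (divX P) * N := by
    conv_lhs => rw [← divX_mul_X_add P]
    rw [map_add, map_mul, aeval_X, aeval_C, add_comm]
  have hnilE : IsNilpotent (aeval N (divX P) * N) :=
    (commute_aeval (Commute.refl N) (divX P)).symm.isNilpotent_mul_left ⟨_, a2⟩
  obtain ⟨k, hk⟩ := hnilE
  refine ⟨k, ?_⟩
  apply (Matrix.toLinAlgEquiv' (R := K) (n := Fin n)).injective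
  rw [map_pow, map_sub, map_smul, map_one, map_zero, ← hk]
  congr 1
  have e2 : Matrix.toLinAlgEquiv' (R := K) (n := Fin n) g.1 = aeval N P := by rw [← hP]; rfl
  rw [e2, e1, Algebra.algebraMap_eq_smul_one, add_sub_cancel_left]

open Polynomial in
/-- CEN1. -/
theorem charpoly_of_commute (hn : 1 ≤ n) (u₀ g : Matrix.GeneralLinearGroup (Fin n) K)
    (h0 : Reg (u₀ : Matrix (Fin n) (Fin n) K)) (hc : Commute g u₀) :
    ∃ c : K, (g : Matrix (Fin n) (Fin n) K).charpoly = (Polynomial.X - Polynomial.C c) ^ n := by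
  obtain ⟨c, hM⟩ := cen1_nilp hn u₀ g h0.1 h0.2 hc
  refine ⟨c, ?_⟩
  have h1 := Matrix.isNilpotent_charpoly_sub_pow_of_isNilpotent hM
  have h2 : (g.1 - c • (1 : Matrix (Fin n) (Fin n) K)).charpoly = X ^ n := by
    have := h1.eq_zero
    rw [Fintype.card_fin] at this
    exact sub_eq_zero.mp this
  have h3 : c • (1 : Matrix (Fin n) (Fin n) K) = Matrix.scalar (Fin n) c := by
    rw [Matrix.smul_one_eq_diagonal]; rfl
  rw [h3, Matrix.charpoly_sub_scalar] at h2
  have h4 := congrArg (fun f : K[X] => f.comp (X - C c)) h2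
  simp only [comp_assoc, add_comp, X_comp, C_comp, sub_add_cancel, comp_X, pow_comp] at h4
  exact h4


open Polynomial in
/-- CEN2. -/
theorem det_of_charpoly (hK : Fintype.card K = q ^ 2) (hn : 1 ≤ n) (g : Matrix.GeneralLinearGroup (Fin n) K)
    (hg : g ∈ Cfsg.GU n K q) (c : K)
    (hc : (g : Matrix (Fin n) (Fin n) K).charpoly = (Polynomial.X - Polynomial.C c) ^ n) :
    ∃ c' : Kˣ, c' ^ (q + 1) = 1 ∧ Matrix.GeneralLinearGroup.det g = c' ^ n := by
  have h1 := Matrix.aeval_self_charpoly (g : Matrix (Fin n) (Fin n) K)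
  rw [hc, map_pow, map_sub, aeval_X, aeval_C, Algebra.algebraMap_eq_smul_one] at h1
  have h2 : c ^ (q + 1) = 1 := Cfsg.Agent.Lib.Helper65.UU.norm_one_of_nilp hK hn g.1
    ((mem_GU_iff_dag hK g).mp hg) c ⟨n, h1⟩
  have hc0 : c ≠ 0 := by
    rintro rfl
    rw [zero_pow (by omega)] at h2
    exact zero_ne_one h2
  refine ⟨Units.mk0 c hc0, Units.ext (by simpa using h2), ?_⟩
  apply Units.ext
  have h3 : (g : Matrix (Fin n) (Fin n) K).det = c ^ n := by
    rw [Matrix.det_eq_sign_charpoly_coeff, hc, coeff_zero_eq_eval_zero, eval_pow, eval_sub, eval_X,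
      eval_C, Fintype.card_fin, ← mul_pow]
    simp
  simpa using h3

end Cfsg.Agent.Lib.Helper50.RUAll
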