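import Cfsg.Agent.Lib.Helper50.STBMain2
import Cfsg.Agent.Lib.Helper72.STBST2

/-!
# STB ladder: the main theorem for groups which are not transitive on chambers (thin last panels)
-/

set_option autoImplicit false

namespace Cfsg.Agent.Lib.Helper50.STB

variable {F V : Type*} [Field F] [AddCommGroup V] [Module F V]

theorem main3 (P : Polar F V) [Finite F] [FiniteDimensional F V] (m N₀ : ℕ)
    (hb : ∀ X, P.TS X → Module.finrank F X ≤ m) (hP : PolarCount P N₀) (Φ : Frame P m)
    {G : Type*} [Group G] [Finite G] (ρ : G →* (V ≃ₗ[F] V)) (hρ : Pres P ρ)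
    (hT1 : ∀ Φ' : Frame P m, flagOf m Φ'.e = flagOf (F := F) m Φ.e → ∃ g, ∀ i,
      ρ g (Φ.e i) ∈ Submodule.span F {Φ'.e i} ∧ ρ g (Φ.f i) ∈ Submodule.span F {Φ'.f i})
    (hT2 : (∃ g, ∀ i, ρ g (Φ.e i) ∈ Submodule.span F {Φ.f i}) ∨
      ∃ (i₀ : Fin m) (g : G), i₀.val + 1 = m ∧
        (∀ i, i ≠ i₀ → ρ g (Φ.e i) ∈ Submodule.span F {Φ.f i}) ∧
        ρ g (Φ.e i₀) ∈ Submodule.span F {Φ.e i₀} ∧
        ∀ y, IsCh P m y → (∀ j, j ≠ m → y j = flagOf m Φ.f j) →
          y = flagOf m Φ.f ∨ y = flagOf m (fun i => if i = i₀ then Φ.e i else Φ.f i))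
    (N : Subgroup G) [N.Normal] (hN : ∀ z ∈ N, ∀ v, P.sing v → ∃ a : F, ρ z v = a • v) :
    ∃ χ : G ⧸ N → ℂ, Cfsg.IsIrrCharacter (G ⧸ N) χ ∧ ∃ D : ℕ, χ 1 = (D : ℂ) ∧
      D * Nat.card F ^ (m * (m + 1)) = Nat.card F ^ (Module.finrank F V * m) * N₀ ^ m := by
  classical
  obtain ⟨φ₀, hφ₀⟩ := exists_chPerm P m ρ hρ
  have hker : N ≤ φ₀.ker := by
    intro z hz
    rw [MonoidHom.mem_ker]
    ext d : 1
    apply Subtype.ext
    funext k
    rw [hφ₀]
    show _ = d.1 k
    by_cases hk : k ≤ m
    · have hts := d.2.ts hk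
      apply le_antisymm
      · rintro _ ⟨v, hv, rfl⟩
        show ρ z v ∈ d.1 k
        obtain ⟨a, ha⟩ := hN z hz v (hts.1 v hv)
        rw [ha]
        exact Submodule.smul_mem _ _ hv
      · intro v hv
        obtain ⟨b, hb⟩ := hN z⁻¹ (inv_mem hz) v (hts.1 v hv)
        refine ⟨b • v, Submodule.smul_mem _ _ hv, ?_⟩
        show ρ z (b • v) = v
        rw [← hb, ← LinearEquiv.mul_apply, ← map_mul, mul_inv_cancel, map_one]
        rfl
    · rw [d.2.2.2.2 k (by omega)]
      rw [Submodule.map_top]
      exact LinearMap.range_eq_top.2 (ρ z).surjective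
  set φ : G ⧸ N →* Equiv.Perm (Ch P m) := QuotientGroup.lift N φ₀ hker with hφ
  have hφmk : ∀ g : G, φ (QuotientGroup.mk g) = φ₀ g := fun g => rfl
  set c : Ch P m := ⟨flagOf m Φ.e, by rw [← vec_false]; exact isCh_vec Φ _⟩ with hc
  obtain ⟨ι, hι1, hι2, hι3⟩ := exists_invol (F := F) Φ
  set fl : Equiv.Perm (Fin m) × (Fin m → Bool) → Ch P m := fun a => ⟨flagOf m (Φ.vec a), isCh_vec Φ a⟩
    with hfl
  have key := Cfsg.Agent.Lib.Helper72.STB.steinberg_abstract' (G := G ⧸ N) (Ω := Ch P m) (I := Fin m)
    (A := Equiv.Perm (Fin m) × (Fin m → Bool)) φ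
    (fun i d d' => ∀ j, j ≠ i.val + 1 → d.1 j = d'.1 j)
    (fun i => ⟨fun _ _ _ => rfl, fun h j hj => (h j hj).symm,
      fun h h' j hj => (h j hj).trans (h' j hj)⟩)
    (by
      intro g i x y h j hj
      induction g using QuotientGroup.induction_on with | _ g =>
      rw [hφmk, hφ₀, hφ₀, h j hj])
    c {d | Opp P m c.1 d.1}
    (by
      intro Z hZ h0 x
      have := det P m hb c.1 c.2 (fun d => ∀ hd : IsCh P m d, Z ⟨d, hd⟩)
        (by
          intro d hd k hk1 hk h hd'
          apply hZ ⟨d, hd'⟩ ⟨k - 1, by omega⟩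
          intro d' hadj hne
          apply h d'.1 d'.2
          · intro j hj
            exact (hadj j (by simp only; omega)).symm
          · intro h'
            exact hne (Subtype.ext h'))
        (by
          intro d hd ho hd'
          exact h0 _ ho)
      exact this x.1 x.2 x.2)
    (by
      intro g hg x hx
      induction g using QuotientGroup.induction_on with | _ g =>
      rw [hφmk] at hg ⊢
      have h1 := opp_map P m ρ hρ g hx
      have h2 : (fun k => (c.1 k).map (ρ g).toLinearMap) = c.1 := by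
        funext k; rw [← hφ₀, hg]
      have h3 : (fun k => (x.1 k).map (ρ g).toLinearMap) = (φ₀ g x).1 := by
        funext k; rw [← hφ₀]
      rw [h2, h3] at h1
      exact h1)
    fl sgnA ι hι1 hι2
    (by
      intro i a j hj
      exact (hι3 i a j hj).symm)
    (1, fun _ => true)
    (by
      show Opp P m (flagOf m Φ.e) (flagOf m (Φ.vec (1, fun _ => true)))
      rw [vec_true]; exact opp_frame Φ)
    (by
      intro a ha
      exact eq_of_opp_vec Φ a ha)
    (by
      intro x hx
      obtain ⟨Φ', h1, h2⟩ := exists_frame_of_opp P m c.2 x.2 hx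
      obtain ⟨g, hg⟩ := hT1 Φ' h1
      refine ⟨QuotientGroup.mk g, ?_, ?_⟩
      · rw [hφmk]
        apply Subtype.ext
        funext k
        rw [hφ₀]
        show (flagOf m Φ.e k).map _ = flagOf m Φ.e k
        rw [flagOf_map m Φ.e Φ'.e (ρ g) Φ.e_ne (fun i => (hg i).1) k, h1]
      · rw [hφmk]
        apply Subtype.ext
        funext k
        rw [hφ₀]
        show (flagOf m (Φ.vec (1, fun _ => true)) k).map _ = x.1 k
        rw [vec_true, flagOf_map m Φ.f Φ'.f (ρ g) Φ.f_ne (fun i => (hg i).2) k, h2])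
    (by
      rcases hT2 with ⟨g, hg⟩ | ⟨i₀, g, hi₀, hg1, hg2, hthin⟩
      · refine ⟨QuotientGroup.mk g, Or.inl ?_⟩
        rw [hφmk]
        apply Subtype.ext
        funext k
        rw [hφ₀]
        show (flagOf m Φ.e k).map _ = flagOf m (Φ.vec (1, fun _ => true)) k
        rw [vec_true, flagOf_map m Φ.e Φ.f (ρ g) Φ.e_ne hg k]
      · have hgc : (φ₀ g c).1 = flagOf m (fun i => if i = i₀ then Φ.e i else Φ.f i) := by
          funext k
          rw [hφ₀]
          show (flagOf m Φ.e k).map _ = _
          apply flagOf_map m Φ.e _ (ρ g) Φ.e_ne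
          intro i
          by_cases hi : i = i₀
          · subst hi
            simpa using hg2
          · simpa [hi] using hg1 i hi
        refine ⟨QuotientGroup.mk g, Or.inr ⟨i₀, ?_, ?_⟩⟩
        · intro j hj
          rw [hφmk, hgc]
          show flagOf m (Φ.vec (1, fun _ => true)) j = _
          rw [vec_true]
          by_cases hjm : j ≤ m
          · rw [flagOf_of_le _ _ _ hjm, flagOf_of_le _ _ _ hjm]
            congr 1
            apply Set.image_congr
            intro i hi
            have hi' : i.val < j := hi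
            have : i ≠ i₀ := by
              intro h
              rw [h] at hi'
              omega
            simp [this]
          · unfold flagOf
            rw [if_neg hjm, if_neg hjm]
        · intro y hy
          rw [hφmk]
          have := hthin y.1 y.2 (by
            intro j hj
            have h3 := hy j (by omega)
            rw [← h3]
            show flagOf m (Φ.vec (1, fun _ => true)) j = _
            rw [vec_true])
          rcases this with h | h
          · left
            apply Subtype.ext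
            rw [h]
            show _ = flagOf m (Φ.vec (1, fun _ => true))
            rw [vec_true]
          · right
            apply Subtype.ext
            rw [h, hgc])
  obtain ⟨χ, hχ, h1⟩ := key
  refine ⟨χ, hχ, _, h1, ?_⟩
  exact card_opp P N₀ hP m c.1 c.2


end Cfsg.Agent.Lib.Helper50.STB
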