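import Cfsg.Agent.Lib.Helper50.STBMain2
import Cfsg.Agent.Lib.Helper50.STBLines
import Cfsg.Agent.Lib.Helper50.QuadStd
import Cfsg.Agent.Lib.Helper49.OmegaTrans
import Cfsg.Agent.Lib.Helper49.OmegaTrans2
import Cfsg.Agent.Lib.Helper49.WittOmega

/-!
# STB ladder: orthogonal groups, general part
-/

set_option autoImplicit false

namespace Cfsg.Agent.Lib.Helper50.STB

open QuadraticMap Module Cfsg.Agent.Lib.Helper49

section Gen

variable {F V : Type*} [Field F] [AddCommGroup V] [Module F V] (Q : QuadraticForm F V)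

theorem mem_perp_polQ (x y : V) : y ∈ (polQ Q).perp x ↔ polar Q x y = 0 := Iff.rfl

theorem sing_polQ (x : V) : (polQ Q).sing x ↔ Q x = 0 := Iff.rfl

theorem Q_add_smul (v y : V) (a : F) (hy : Q y = 0) : Q (v + a • y) = Q v + a * polar Q y v := by
  have h := QuadraticMap.map_add Q v (a • y)
  rw [h, QuadraticMap.map_smul, hy, polar_smul_right, polar_comm]
  simp

theorem polQ_count (hQ : (polarBilin Q).Nondegenerate) : PolarCount (polQ Q) 1 := by
  constructor
  · intro x hx
    exact hQ.1 x (fun y => hx y)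
  · intro y v hy hv
    rw [sing_polQ] at hy
    rw [mem_perp_polQ] at hv
    rw [Nat.card_eq_one_iff_unique]
    refine ⟨⟨?_⟩, ⟨⟨- Q v / polar Q y v, ?_⟩⟩⟩
    · rintro ⟨a, ha⟩ ⟨b, hb⟩
      apply Subtype.ext
      show a = b
      rw [sing_polQ, Q_add_smul Q v y _ hy] at ha hb
      have : (a - b) * polar Q y v = 0 := by linear_combination ha - hb
      rcases mul_eq_zero.1 this with h | h
      · exact sub_eq_zero.1 h
      · exact absurd h hv
    · rw [sing_polQ, Q_add_smul Q v y _ hy]
      field_simp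
      ring

theorem exists_nonsing_perp [FiniteDimensional F V] (hQ : (polarBilin Q).Nondegenerate)
    (hd : 3 ≤ finrank F V) (u : V) : ∃ w, polar Q u w = 0 ∧ Q w ≠ 0 := by
  by_contra hcon
  push Not at hcon
  have h1 := (polQ Q).codim u
  have h2 := two_mul_finrank_le_of_le_orthogonal Q hQ ((polQ Q).perp u) (by
    intro x hx y hy
    have hx' := hcon x hx
    have hy' := hcon y hy
    have hxy := hcon (x + y) (Submodule.add_mem _ hx hy)
    simp only [polar, hx', hy', hxy, sub_zero])
  omega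

end Gen

section Fin

variable {F V : Type*} [Field F] [Fintype F] [AddCommGroup V] [Module F V] [FiniteDimensional F V]
  (Q : QuadraticForm F V)

/-- a central element of the commutator subgroup fixes the singular lines -/
theorem center_sing (hQ : (polarBilin Q).Nondegenerate) (z : OG Q)
    (hz : ∀ k ∈ commutator (OG Q), z * k = k * z) (u w : V) (hu : Q u = 0) (hu0 : u ≠ 0)
    (huw : polar Q u w = 0) (hw : Q w ≠ 0) : ∃ a : F, z.1 u = a • u := by
  have hwu : Q (w + u) = Q w := by
    rw [QuadraticMap.map_add Q, hu, polar_comm, huw]; simp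
  have hk := refl_mul_refl_mem_commutator_of_eq Q hQ w (w + u) hw hwu.symm
  set k := refl Q w * refl Q (w + u) with hkdef
  have hgen : ∀ y, ∃ α β : F, k.1 y = y + α • w + β • u := by
    intro y
    have : k.1 y = reflLin Q w (reflLin Q (w + u) y) := rfl
    rw [this, reflLin_apply, reflLin_apply]
    set c₁ := (Q (w + u))⁻¹ * polar Q (w + u) y
    set c₂ := (Q w)⁻¹ * polar Q w (y - c₁ • (w + u))
    refine ⟨- c₁ - c₂, - c₁, ?_⟩
    simp only [smul_add, sub_smul, neg_smul]
    abel
  obtain ⟨x, hx1, hx2⟩ := exists_dual_pair Q hQ hu0 (z := w) (by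
    intro c hc
    apply hw
    rw [hc, QuadraticMap.map_smul, hu]; simp) 0 1
  have hkx : k.1 x = x - ((Q (w + u))⁻¹ * polar Q w x) • u :=
    reflLin_reflLin_add Q w u x hw hu hx1 (by rw [hwu]; exact hw)
  rw [hx2, mul_one, hwu] at hkx
  obtain ⟨α, β, hαβ⟩ := hgen (z.1 x)
  have hcomm : z.1 (k.1 x) = k.1 (z.1 x) := by
    have := congrArg (fun g : OG Q => g.1 x) (hz k hk)
    exact this
  rw [hkx, hαβ, map_sub, map_smul] at hcomm
  have hzu : z.1 u = (- Q w * α) • w + (- Q w * β) • u := by
    have h3 : (Q w)⁻¹ • z.1 u = - (α • w + β • u) := by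
      have : z.1 x - (Q w)⁻¹ • z.1 u = z.1 x + (α • w + β • u) := by rw [hcomm]; abel
      have h4 : - ((Q w)⁻¹ • z.1 u) = α • w + β • u := by
        have := sub_eq_iff_eq_add'.1 (sub_eq_of_eq_add' this)
        simpa [sub_eq_add_neg] using add_left_cancel (a := z.1 x) (by simpa [sub_eq_add_neg] using ‹z.1 x - (Q w)⁻¹ • z.1 u = z.1 x + (α • w + β • u)›)
      rw [← h4, neg_neg]
    have h5 : z.1 u = Q w • ((Q w)⁻¹ • z.1 u) := by
      rw [smul_smul, mul_inv_cancel₀ hw, one_smul]
    rw [h5, h3]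
    simp only [smul_neg, smul_add, smul_smul, neg_mul, neg_smul, neg_add]
  have hQz : Q (z.1 u) = 0 := by rw [OG_apply, hu]
  rw [hzu, QuadraticMap.map_add Q, QuadraticMap.map_smul, QuadraticMap.map_smul, hu,
    polar_smul_left, polar_smul_right, polar_comm, huw] at hQz
  simp only [smul_eq_mul, mul_zero, add_zero] at hQz
  have hα : α = 0 := by
    by_contra hα
    apply absurd hQz
    have : - Q w * α ≠ 0 := mul_ne_zero (neg_ne_zero.2 hw) hα
    exact mul_ne_zero (mul_ne_zero this this) hw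
  refine ⟨- Q w * β, ?_⟩
  rw [hzu, hα]; simp

end Fin

end Cfsg.Agent.Lib.Helper50.STB
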