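import Cfsg.Agent.Lib.Helper50.STBOrth1

/-!
# STB ladder: orthogonal groups, frame transitivity of the commutator subgroup
-/

set_option autoImplicit false

namespace Cfsg.Agent.Lib.Helper50.STB

open QuadraticMap Module Cfsg.Agent.Lib.Helper49

variable {F V : Type*} [Field F] [Fintype F] [AddCommGroup V] [Module F V] [FiniteDimensional F V]
  (Q : QuadraticForm F V)

/-- Witt: the orthogonal group is transitive on frames up to scalars -/
theorem exists_OG_frame (hQ : (polarBilin Q).Nondegenerate) {m : ℕ} (Φ Φ' : Frame (polQ Q) m) :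
    ∃ g : OG Q, ∀ i, g.1 (Φ.e i) ∈ Submodule.span F {Φ'.e i} ∧
      g.1 (Φ.f i) ∈ Submodule.span F {Φ'.f i} := by
  classical
  set b : Fin m ⊕ Fin m → V := Sum.elim Φ.e Φ.f with hb
  set w : Fin m ⊕ Fin m → F :=
    Sum.elim (fun i => polar Q (Φ.e i) (Φ.f i) / polar Q (Φ'.e i) (Φ'.f i)) (fun _ => 1) with hw
  have hne : ∀ i, polar Q (Φ.e i) (Φ.f i) ≠ 0 := fun i => Φ.ne i
  have hne' : ∀ i, polar Q (Φ'.e i) (Φ'.f i) ≠ 0 := fun i => Φ'.ne i
  have hw0 : ∀ s, w s ≠ 0 := by
    rintro (i | i)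
    · exact div_ne_zero (hne i) (hne' i)
    · exact one_ne_zero
  set b' : Fin m ⊕ Fin m → V := fun s => w s • Sum.elim Φ'.e Φ'.f s with hb'
  have hli : LinearIndependent F b := Φ.linearIndependent
  have hli' : LinearIndependent F b' :=
    Φ'.linearIndependent.units_smul (fun s => Units.mk0 (w s) (hw0 s))
  have hq : ∀ s, Q (b s) = Q (b' s) := by
    rintro (i | i)
    · have h1 : Q (Φ.e i) = 0 := Φ.sing_e i
      have h2 : Q (Φ'.e i) = 0 := Φ'.sing_e i
      simp [hb, hb', QuadraticMap.map_smul, h1, h2]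
    · have h1 : Q (Φ.f i) = 0 := Φ.sing_f i
      have h2 : Q (Φ'.f i) = 0 := Φ'.sing_f i
      simp [hb, hb', QuadraticMap.map_smul, h1, h2]
  have hpol : ∀ s t, polar Q (b s) (b t) = polar Q (b' s) (b' t) := by
    rintro (i | i) (j | j)
    · have h1 : polar Q (Φ.e i) (Φ.e j) = 0 := Φ.ee i j
      have h2 : polar Q (Φ'.e i) (Φ'.e j) = 0 := Φ'.ee i j
      simp [hb, hb', polar_smul_left, polar_smul_right, h1, h2]
    · by_cases hij : i = j
      · subst hij
        simp only [hb, hb', hw, Sum.elim_inl, Sum.elim_inr, polar_smul_left, polar_smul_right,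
          smul_eq_mul, one_mul]
        rw [div_mul_cancel₀ _ (hne' i)]
      · have h1 : polar Q (Φ.e i) (Φ.f j) = 0 := Φ.ef i j hij
        have h2 : polar Q (Φ'.e i) (Φ'.f j) = 0 := Φ'.ef i j hij
        simp [hb, hb', polar_smul_left, polar_smul_right, h1, h2]
    · by_cases hij : j = i
      · subst hij
        simp only [hb, hb', hw, Sum.elim_inl, Sum.elim_inr, polar_smul_left, polar_smul_right,
          smul_eq_mul, one_mul]
        rw [polar_comm Q (Φ.f j), polar_comm Q (Φ'.f j), div_mul_cancel₀ _ (hne' j)]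
      · have h1 : polar Q (Φ.f i) (Φ.e j) = 0 := by rw [polar_comm]; exact Φ.ef j i hij
        have h2 : polar Q (Φ'.f i) (Φ'.e j) = 0 := by rw [polar_comm]; exact Φ'.ef j i hij
        simp [hb, hb', polar_smul_left, polar_smul_right, h1, h2]
    · have h1 : polar Q (Φ.f i) (Φ.f j) = 0 := Φ.ff i j
      have h2 : polar Q (Φ'.f i) (Φ'.f j) = 0 := Φ'.ff i j
      simp [hb, hb', polar_smul_left, polar_smul_right, h1, h2]
  let B := Basis.span hli
  let B' := Basis.span hli'
  let φ := B.equiv B' (Equiv.refl _)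
  have hB : ∀ s, ((B s : Submodule.span F (Set.range b)) : V) = b s := fun s => by
    rw [show B s = _ from Basis.span_apply hli s]
  have hB' : ∀ s, ((B' s : Submodule.span F (Set.range b')) : V) = b' s :=
    fun s => by rw [show B' s = _ from Basis.span_apply hli' s]
  have hφB : ∀ s, φ (B s) = B' s := fun s => by simp [φ]
  have hφ : ∀ x, Q (φ x : V) = Q (x : V) := by
    intro x
    have h1 : (x : V) = ∑ s, B.repr x s • b s := by
      conv_lhs => rw [← B.sum_repr x]
      rw [Submodule.coe_sum]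
      exact Finset.sum_congr rfl fun s _ => by rw [Submodule.coe_smul, hB]
    have h2 : (φ x : V) = ∑ s, B.repr x s • b' s := by
      conv_lhs => rw [← B.sum_repr x]
      rw [map_sum, Submodule.coe_sum]
      exact Finset.sum_congr rfl fun s _ => by rw [map_smul, hφB, Submodule.coe_smul, hB']
    rw [h1, h2]
    exact (Quad.map_sum_eq Q Q b b' hq hpol _ Finset.univ).symm
  obtain ⟨g, hg⟩ := witt_OG Q hQ _ _ φ hφ
  refine ⟨g, fun i => ⟨?_, ?_⟩⟩
  · have := hg (B (Sum.inl i))
    rw [hB, hφB, hB'] at this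
    have h3 : g.1 (Φ.e i) = w (Sum.inl i) • Φ'.e i := this
    rw [h3]
    exact Submodule.smul_mem _ _ (Submodule.mem_span_singleton_self _)
  · have := hg (B (Sum.inr i))
    rw [hB, hφB, hB'] at this
    have h3 : g.1 (Φ.f i) = w (Sum.inr i) • Φ'.f i := this
    rw [h3]
    exact Submodule.smul_mem _ _ (Submodule.mem_span_singleton_self _)

/-- `exists_mul_mem_commutator` of helper49, with generation by reflections as a hypothesis -/
theorem exists_mul_mem_commutator_gen (hQ : (polarBilin Q).Nondegenerate)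
    (hgen : ∀ g : OG Q, ∃ vs : List V, (∀ v ∈ vs, Q v ≠ 0) ∧ g = reflProd Q vs)
    (H : Subgroup (OG Q)) (ys₁ ys₂ : List V)
    (h1 : ∀ y ∈ ys₁, Q y ≠ 0) (h1' : reflProd Q ys₁ ∈ H) (h1o : ¬ Even ys₁.length)
    (h2 : ∀ y ∈ ys₂, Q y ≠ 0) (h2' : reflProd Q ys₂ ∈ H) (h2e : Even ys₂.length)
    (h2s : (2 : F) = 0 ∨ ¬ IsSquare (ys₂.map Q).prod) (g : OG Q) :
    ∃ k ∈ H, g * k ∈ commutator (OG Q) := by
  obtain ⟨vs, hvs, rfl⟩ := hgen g
  obtain ⟨ws, hws, hwsH, hwe⟩ : ∃ ws : List V, (∀ y ∈ ws, Q y ≠ 0) ∧ reflProd Q ws ∈ H ∧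
      Even (vs.length + ws.length) := by
    by_cases he : Even vs.length
    · exact ⟨[], by simp, by simp, by simpa using he⟩
    · refine ⟨ys₁, h1, h1', ?_⟩
      rw [Nat.even_add]
      tauto
  have hvw : ∀ y ∈ vs ++ ws, Q y ≠ 0 := by
    intro y hy
    rcases List.mem_append.1 hy with h | h
    · exact hvs y h
    · exact hws y h
  by_cases hs : IsSquare ((vs ++ ws).map Q).prod
  · refine ⟨reflProd Q ws, hwsH, ?_⟩
    rw [← reflProd_append]
    exact reflProd_mem_commutator_of_even_of_isSquare Q hQ _ hvw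
      (by rw [List.length_append]; exact hwe) hs
  · have h20 : (2 : F) ≠ 0 := fun h20 => hs (isSquare_of_two_eq_zero h20 _)
    have h2s' : ¬ IsSquare (ys₂.map Q).prod := by tauto
    refine ⟨reflProd Q ws * reflProd Q ys₂, H.mul_mem hwsH h2', ?_⟩
    rw [← mul_assoc, ← reflProd_append, ← reflProd_append]
    apply reflProd_mem_commutator_of_even_of_isSquare Q hQ
    · intro y hy
      rcases List.mem_append.1 hy with h | h
      · exact hvw y h
      · exact h2 y h
    · rw [List.length_append, List.length_append]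
      exact hwe.add h2e
    · rw [List.map_append, List.prod_append]
      exact isSquare_mul_of_not_isSquare h20 hs h2s'

/-- the stabiliser of the lines of a frame -/
def frameStab {m : ℕ} (Φ : Frame (polQ Q) m) : Subgroup (OG Q) :=
  ⨅ i, stabSub Q (Submodule.span F {Φ.e i}) ⊓ stabSub Q (Submodule.span F {Φ.f i})

theorem mem_frameStab_of {m : ℕ} (Φ : Frame (polQ Q) m) (g : OG Q)
    (h : ∀ i, (∃ a : F, g.1 (Φ.e i) = a • Φ.e i) ∧ ∃ a : F, g.1 (Φ.f i) = a • Φ.f i) :
    g ∈ frameStab Q Φ := by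
  rw [frameStab, Subgroup.mem_iInf]
  intro i
  obtain ⟨⟨a, ha⟩, b, hb⟩ := h i
  constructor
  · apply mem_stabSub_of_forall
    intro x hx
    obtain ⟨c, rfl⟩ := Submodule.mem_span_singleton.1 hx
    rw [map_smul, ha]
    exact Submodule.smul_mem _ _ (Submodule.smul_mem _ _ (Submodule.mem_span_singleton_self _))
  · apply mem_stabSub_of_forall
    intro x hx
    obtain ⟨c, rfl⟩ := Submodule.mem_span_singleton.1 hx
    rw [map_smul, hb]
    exact Submodule.smul_mem _ _ (Submodule.smul_mem _ _ (Submodule.mem_span_singleton_self _))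

theorem frameStab_apply {m : ℕ} (Φ : Frame (polQ Q) m) (g : OG Q) (hg : g ∈ frameStab Q Φ)
    (i : Fin m) : g.1 (Φ.e i) ∈ Submodule.span F {Φ.e i} ∧ g.1 (Φ.f i) ∈ Submodule.span F {Φ.f i} := by
  rw [frameStab, Subgroup.mem_iInf] at hg
  obtain ⟨h1, h2⟩ := hg i
  replace h1 := (mem_stabSub Q).1 h1
  replace h2 := (mem_stabSub Q).1 h2
  constructor
  · have h3 : g.1 (Φ.e i) ∈ Submodule.map (g.1 : V →ₗ[F] V) (Submodule.span F {Φ.e i}) :=
      Submodule.mem_map_of_mem (Submodule.mem_span_singleton_self _)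
    rwa [h1] at h3
  · have h3 : g.1 (Φ.f i) ∈ Submodule.map (g.1 : V →ₗ[F] V) (Submodule.span F {Φ.f i}) :=
      Submodule.mem_map_of_mem (Submodule.mem_span_singleton_self _)
    rwa [h2] at h3

theorem refl_hyp_e {e f : V} (he : Q e = 0) (hf : Q f = 0) (hef : polar Q e f ≠ 0) (c : F)
    (hc : c ≠ 0) : reflLin Q (e + c • f) e = (-c) • f := by
  have hQ' : Q (e + c • f) = c * polar Q e f := by
    rw [Q_add_smul Q e f c hf, he, polar_comm]; simp
  have hp : polar Q (e + c • f) e = c * polar Q e f := by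
    rw [polar_add_left, polar_smul_left, polar_self, he, polar_comm Q f e]; simp
  rw [reflLin_apply, hQ', hp, inv_mul_cancel₀ (mul_ne_zero hc hef), one_smul, neg_smul]
  abel

theorem refl_hyp_f {e f : V} (he : Q e = 0) (hf : Q f = 0) (hef : polar Q e f ≠ 0) (c : F)
    (hc : c ≠ 0) : reflLin Q (e + c • f) f = (-c⁻¹) • e := by
  have hQ' : Q (e + c • f) = c * polar Q e f := by
    rw [Q_add_smul Q e f c hf, he, polar_comm]; simp
  have hp : polar Q (e + c • f) f = polar Q e f := by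
    rw [polar_add_left, polar_smul_left, polar_self, hf]; simp
  rw [reflLin_apply, hQ', hp, mul_inv, mul_assoc, inv_mul_cancel₀ hef, mul_one, smul_add, smul_smul,
    inv_mul_cancel₀ hc, one_smul, neg_smul]
  abel

/-- frame transitivity of the commutator subgroup -/
theorem ft_comm (hQ : (polarBilin Q).Nondegenerate)
    (hgen : ∀ g : OG Q, ∃ vs : List V, (∀ v ∈ vs, Q v ≠ 0) ∧ g = reflProd Q vs)
    {m : ℕ} (Φ : Frame (polQ Q) m) (y₁ : V) (hy₁ : Q y₁ ≠ 0)
    (hye : ∀ i, polar Q y₁ (Φ.e i) = 0) (hyf : ∀ i, polar Q y₁ (Φ.f i) = 0)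
    (Φ' : Frame (polQ Q) m) :
    ∃ g ∈ commutator (OG Q), ∀ i, g.1 (Φ.e i) ∈ Submodule.span F {Φ'.e i} ∧
      g.1 (Φ.f i) ∈ Submodule.span F {Φ'.f i} := by
  rcases Nat.eq_zero_or_pos m with rfl | hm
  · exact ⟨1, one_mem _, fun i => i.elim0⟩
  obtain ⟨g, hg⟩ := exists_OG_frame Q hQ Φ Φ'
  obtain ⟨δ, hδ0, hδ⟩ := exists_nonsquare_or (F := F)
  set e := Φ.e ⟨0, hm⟩ with he'
  set f := Φ.f ⟨0, hm⟩ with hf'
  have he : Q e = 0 := Φ.sing_e _
  have hf : Q f = 0 := Φ.sing_f _
  have hef : polar Q e f ≠ 0 := Φ.ne _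
  have hQc : ∀ c : F, Q (e + c • f) = c * polar Q e f := by
    intro c
    rw [Q_add_smul Q e f c hf, he, polar_comm]; simp
  have m1 : reflProd Q [y₁] ∈ frameStab Q Φ := by
    apply mem_frameStab_of
    intro i
    refine ⟨⟨1, ?_⟩, ⟨1, ?_⟩⟩
    · simp [reflLin_of_polar_eq_zero Q _ _ (hye i)]
    · simp [reflLin_of_polar_eq_zero Q _ _ (hyf i)]
  have m2 : reflProd Q [e + (1 : F) • f, e + δ • f] ∈ frameStab Q Φ := by
    apply mem_frameStab_of
    intro i
    have hap : ∀ x, (reflProd Q [e + (1 : F) • f, e + δ • f]).1 x =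
        reflLin Q (e + (1 : F) • f) (reflLin Q (e + δ • f) x) := by
      intro x; simp
    by_cases hi : i = ⟨0, hm⟩
    · subst hi
      refine ⟨⟨δ, ?_⟩, ⟨δ⁻¹, ?_⟩⟩
      · rw [hap, refl_hyp_e Q he hf hef δ hδ0, map_smul, refl_hyp_f Q he hf hef 1 one_ne_zero,
          smul_smul]
        simp [he']
      · rw [hap, refl_hyp_f Q he hf hef δ hδ0, map_smul, refl_hyp_e Q he hf hef 1 one_ne_zero,
          smul_smul]
        simp [hf']
    · have h1 : ∀ c : F, polar Q (e + c • f) (Φ.e i) = 0 := by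
        intro c
        have a1 : polar Q e (Φ.e i) = 0 := Φ.ee _ _
        have a2 : polar Q f (Φ.e i) = 0 := by rw [polar_comm]; exact Φ.ef i _ hi
        rw [polar_add_left, polar_smul_left, a1, a2]; simp
      have h2 : ∀ c : F, polar Q (e + c • f) (Φ.f i) = 0 := by
        intro c
        have a1 : polar Q e (Φ.f i) = 0 := Φ.ef _ i (Ne.symm hi)
        have a2 : polar Q f (Φ.f i) = 0 := Φ.ff _ _
        rw [polar_add_left, polar_smul_left, a1, a2]; simp
      refine ⟨⟨1, ?_⟩, ⟨1, ?_⟩⟩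
      · rw [hap, reflLin_of_polar_eq_zero Q _ _ (h1 δ), reflLin_of_polar_eq_zero Q _ _ (h1 1),
          one_smul]
      · rw [hap, reflLin_of_polar_eq_zero Q _ _ (h2 δ), reflLin_of_polar_eq_zero Q _ _ (h2 1),
          one_smul]
  obtain ⟨k, hk, hgk⟩ := exists_mul_mem_commutator_gen Q hQ hgen (frameStab Q Φ) [y₁]
    [e + (1 : F) • f, e + δ • f]
    (by simpa using hy₁) m1 (by simp)
    (by
      intro z hz
      simp only [List.mem_cons, List.not_mem_nil, or_false] at hz
      rcases hz with rfl | rfl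
      · rw [hQc]; exact mul_ne_zero one_ne_zero hef
      · rw [hQc]; exact mul_ne_zero hδ0 hef)
    m2 ⟨1, rfl⟩
    (by
      rcases hδ with h | h
      · exact Or.inl h
      · right
        simp only [List.map_cons, List.map_nil, List.prod_cons, List.prod_nil, mul_one, hQc, one_mul]
        rintro ⟨t, ht⟩
        apply h
        refine ⟨t / polar Q e f, ?_⟩
        field_simp
        linear_combination ht) g
  refine ⟨g * k, hgk, fun i => ?_⟩
  obtain ⟨h1, h2⟩ := frameStab_apply Q Φ k hk i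
  obtain ⟨a, ha⟩ := Submodule.mem_span_singleton.1 h1
  obtain ⟨b, hb⟩ := Submodule.mem_span_singleton.1 h2
  constructor
  · show g.1 (k.1 (Φ.e i)) ∈ _
    rw [← ha, map_smul]
    exact Submodule.smul_mem _ _ (hg i).1
  · show g.1 (k.1 (Φ.f i)) ∈ _
    rw [← hb, map_smul]
    exact Submodule.smul_mem _ _ (hg i).2

end Cfsg.Agent.Lib.Helper50.STB
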