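import Cfsg.Agent.Lib.Helper50.STBOrth2
import Cfsg.Agent.Lib.Helper50.STBSp
import Cfsg.Agent.Lib.Helper49.Transfer

/-!
# STB ladder: orthogonal groups, the Steinberg character of `PΩ(Q)`
-/

set_option autoImplicit false

namespace Cfsg.Agent.Lib.Helper50.STB

open QuadraticMap Module Cfsg.Agent.Lib.Helper49

variable {ι : Type} [Fintype ι] [DecidableEq ι] {F : Type*} [Field F] [Fintype F]
variable (Q : QuadraticForm F (ι → F))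

omit [Fintype F] in
theorem rhoOmega_apply (g : ↥(Cfsg.Omega F ⇑Q)) (v : ι → F) :
    rhoOmega F ⇑Q g v = (isoEquiv Q g.1).1 v := by
  rw [isoEquiv_apply]
  exact linRep_apply _ _ v

omit [Fintype F] in
theorem omega_pres : Pres (polQ Q) (rhoOmega F ⇑Q) := by
  constructor
  · intro g x y h
    rw [mem_perp_polQ] at h ⊢
    rw [rhoOmega_apply, rhoOmega_apply, OG_polar, h]
  · intro g x h
    rw [sing_polQ] at h ⊢
    rw [rhoOmega_apply, OG_apply, h]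

theorem omega_ft (hQ : (polarBilin Q).Nondegenerate)
    (hgen : ∀ g : OG Q, ∃ vs : List (ι → F), (∀ v ∈ vs, Q v ≠ 0) ∧ g = reflProd Q vs)
    {m : ℕ} (Φ : Frame (polQ Q) m) (y₁ : ι → F) (hy₁ : Q y₁ ≠ 0)
    (hye : ∀ i, polar Q y₁ (Φ.e i) = 0) (hyf : ∀ i, polar Q y₁ (Φ.f i) = 0) :
    FT (polQ Q) Φ (rhoOmega F ⇑Q) := by
  intro Φ'
  obtain ⟨g, hg, h⟩ := ft_comm Q hQ hgen Φ y₁ hy₁ hye hyf Φ'
  refine ⟨⟨(isoEquiv Q).symm g, (mem_Omega_iff Q _).2 (by rwa [MulEquiv.apply_symm_apply])⟩,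
    fun i => ?_⟩
  rw [rhoOmega_apply, rhoOmega_apply]
  simp only [MulEquiv.apply_symm_apply]
  exact h i

theorem omega_center (hQ : (polarBilin Q).Nondegenerate)
    (hcen : ∀ u, Q u = 0 → u ≠ 0 → ∃ w, polar Q u w = 0 ∧ Q w ≠ 0)
    (z : ↥(Cfsg.Omega F ⇑Q)) (hz : z ∈ Subgroup.center ↥(Cfsg.Omega F ⇑Q)) (v : ι → F)
    (hv : (polQ Q).sing v) : ∃ a : F, rhoOmega F ⇑Q z v = a • v := by
  by_cases hv0 : v = 0
  · exact ⟨0, by rw [hv0]; simp⟩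
  have hz' : ∀ k ∈ commutator (OG Q), isoEquiv Q z.1 * k = k * isoEquiv Q z.1 := by
    intro k hk
    obtain ⟨k', rfl⟩ := (isoEquiv Q).surjective k
    have hk' : k' ∈ Cfsg.Omega F ⇑Q := (mem_Omega_iff Q k').2 hk
    have := (Subgroup.mem_center_iff.1 hz) ⟨k', hk'⟩
    have h2 : k' * z.1 = z.1 * k' := congrArg Subtype.val this
    rw [← map_mul, ← map_mul, h2]
  obtain ⟨w, hw1, hw2⟩ := hcen v hv hv0
  obtain ⟨a, ha⟩ := center_sing Q hQ (isoEquiv Q z.1) hz' v w hv hv0 hw1 hw2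
  exact ⟨a, by rw [rhoOmega_apply, ha]⟩

/-- the Steinberg character of `PΩ(Q)` -/
theorem steinberg_orth (p : ℕ) [Fact p.Prime] [CharP F p] (hQ : (polarBilin Q).Nondegenerate)
    (hgen : ∀ g : OG Q, ∃ vs : List (ι → F), (∀ v ∈ vs, Q v ≠ 0) ∧ g = reflProd Q vs)
    (m : ℕ) (hb : ∀ X, (polQ Q).TS X → finrank F X ≤ m)
    (Φ : Frame (polQ Q) m) (y₁ : ι → F) (hy₁ : Q y₁ ≠ 0)
    (hye : ∀ i, polar Q y₁ (Φ.e i) = 0) (hyf : ∀ i, polar Q y₁ (Φ.f i) = 0)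
    (hcen : ∀ u, Q u = 0 → u ≠ 0 → ∃ w, polar Q u w = 0 ∧ Q w ≠ 0)
    (N r₀ : ℕ) (hN : N + m * (m + 1) = Fintype.card ι * m) (hr₀ : ¬ p ∣ r₀)
    (hord : Nat.card (Cfsg.POmega F ⇑Q) ∣ Fintype.card F ^ N * r₀) :
    ∃ χ : Cfsg.POmega F ⇑Q → ℂ, Cfsg.IsIrrCharacter (Cfsg.POmega F ⇑Q) χ ∧
      ∀ P : Sylow p (Cfsg.POmega F ⇑Q), χ 1 = Nat.card P ∧
        ∀ x : Cfsg.POmega F ⇑Q, x ∈ P → x ≠ 1 → χ x = 0 := by
  have hfr : finrank F (ι → F) = Fintype.card ι := by simp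
  obtain ⟨χ, hχ, D, h1, hD⟩ := main2 (polQ Q) m 1 hb (polQ_count Q hQ) Φ (rhoOmega F ⇑Q)
    (omega_pres Q) (omega_ft Q hQ hgen Φ y₁ hy₁ hye hyf)
    (Subgroup.center ↥(Cfsg.Omega F ⇑Q)) (fun z hz v hv => omega_center Q hQ hcen z hz v hv)
  have hq : 0 < Nat.card F := Nat.card_pos
  have hD' : D = Nat.card F ^ N := by
    apply Nat.eq_of_mul_eq_mul_right (pow_pos hq (m * (m + 1)))
    rw [hD, hfr, ← pow_add, hN]
    simp
  obtain ⟨a, -, ha⟩ := exists_pow_of_card F p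
  rw [← Nat.card_eq_fintype_card] at hord
  exact ⟨χ, hχ, final_of_degree_dvd p (Nat.card F ^ N) r₀ ⟨a * N, by rw [ha, pow_mul]⟩ hord hr₀
    χ hχ (by rw [h1, hD'])⟩

end Cfsg.Agent.Lib.Helper50.STB
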