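import Cfsg.Agent.Lib.Helper50.STBOrth3
import Cfsg.Agent.Lib.Helper49.HypPairs
import Cfsg.Agent.Lib.Helper49.MinusNoLagr
import Cfsg.Agent.Lib.Helper49.RankParity
import Cfsg.Agent.Lib.Helper18.OmegaCenterMat
import Cfsg.Agent.S0286
import Cfsg.Agent.S0288

/-!
# STB ladder: the standard frames of the odd and minus type forms
-/

set_option autoImplicit false

namespace Cfsg.Agent.Lib.Helper50.STB

open QuadraticMap Module Cfsg.Agent.Lib.Helper49

variable (m : ℕ) (F : Type*) [Field F]

/-- the standard frame of the odd-dimensional form -/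
def frameOdd : Frame (polQ (oddQF m F)) m where
  e := fun i => Pi.single (Sum.inr (Sum.inl i)) 1
  f := fun i => Pi.single (Sum.inr (Sum.inr i)) 1
  sing_e := fun i => by rw [sing_polQ, oddQF_coe]; simp [Cfsg.quadFormOdd]
  sing_f := fun i => by rw [sing_polQ, oddQF_coe]; simp [Cfsg.quadFormOdd]
  ee := fun i j => by
    rw [mem_perp_polQ, oddQF_coe, polar_quadFormOdd]
    simp [Pi.single_apply]
  ff := fun i j => by
    rw [mem_perp_polQ, oddQF_coe, polar_quadFormOdd]
    simp [Pi.single_apply]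
  ef := fun i j h => by
    rw [mem_perp_polQ, oddQF_coe, polar_quadFormOdd]
    simp [Pi.single_apply, Ne.symm h]
  ne := fun i => by
    rw [mem_perp_polQ, oddQF_coe, polar_quadFormOdd]
    simp [Pi.single_apply]

/-- the standard frame of the minus type form -/
def frameMinus (a b : F) : Frame (polQ (minusQF m F a b)) m where
  e := fun i => Pi.single (Sum.inl (Sum.inl i)) 1
  f := fun i => Pi.single (Sum.inl (Sum.inr i)) 1
  sing_e := fun i => by rw [sing_polQ, minusQF_coe]; simp [Cfsg.quadFormMinus]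
  sing_f := fun i => by rw [sing_polQ, minusQF_coe]; simp [Cfsg.quadFormMinus]
  ee := fun i j => by
    rw [mem_perp_polQ, minusQF_coe, polar_quadFormMinus]
    simp [Pi.single_apply]
  ff := fun i j => by
    rw [mem_perp_polQ, minusQF_coe, polar_quadFormMinus]
    simp [Pi.single_apply]
  ef := fun i j h => by
    rw [mem_perp_polQ, minusQF_coe, polar_quadFormMinus]
    simp [Pi.single_apply, Ne.symm h]
  ne := fun i => by
    rw [mem_perp_polQ, minusQF_coe, polar_quadFormMinus]
    simp [Pi.single_apply]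

theorem odd_y : oddQF m F (Pi.single (Sum.inl ()) 1) ≠ 0 ∧
    (∀ i, polar (oddQF m F) (Pi.single (Sum.inl ()) 1) ((frameOdd m F).e i) = 0) ∧
    (∀ i, polar (oddQF m F) (Pi.single (Sum.inl ()) 1) ((frameOdd m F).f i) = 0) := by
  refine ⟨?_, fun i => ?_, fun i => ?_⟩
  · rw [oddQF_coe]; simp [Cfsg.quadFormOdd]
  · rw [oddQF_coe, polar_quadFormOdd]; simp [frameOdd, Pi.single_apply]
  · rw [oddQF_coe, polar_quadFormOdd]; simp [frameOdd, Pi.single_apply]

theorem minus_y (a b : F) : minusQF m F a b (Pi.single (Sum.inr 0) 1) ≠ 0 ∧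
    (∀ i, polar (minusQF m F a b) (Pi.single (Sum.inr 0) 1) ((frameMinus m F a b).e i) = 0) ∧
    (∀ i, polar (minusQF m F a b) (Pi.single (Sum.inr 0) 1) ((frameMinus m F a b).f i) = 0) := by
  refine ⟨?_, fun i => ?_, fun i => ?_⟩
  · rw [minusQF_coe]; simp [Cfsg.quadFormMinus]
  · rw [minusQF_coe, polar_quadFormMinus]; simp [frameMinus, Pi.single_apply]
  · rw [minusQF_coe, polar_quadFormMinus]; simp [frameMinus, Pi.single_apply]

end Cfsg.Agent.Lib.Helper50.STB
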