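import Cfsg.Agent.Lib.Helper50.STBOrth4
import Cfsg.Agent.Lib.Helper49.OmegaCrit
import Cfsg.Agent.Lib.Helper49.STBGen24

/-!
# STB ladder: index of `Ω` in characteristic two from generation by reflections; minus type bound
-/

set_option autoImplicit false

namespace Cfsg.Agent.Lib.Helper50.STB

open QuadraticMap Module Cfsg.Agent.Lib.Helper49

section Abs

variable {F V : Type*} [Field F] [Fintype F] [AddCommGroup V] [Module F V] [FiniteDimensional F V]
  (Q : QuadraticForm F V)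

theorem reflProd_mem_commutator_iff_gen (hQ : (polarBilin Q).Nondegenerate)
    (hgen : ∀ g : OG Q, ∃ vs : List V, (∀ v ∈ vs, Q v ≠ 0) ∧ g = reflProd Q vs)
    (vs : List V) (hvs : ∀ v ∈ vs, Q v ≠ 0) :
    reflProd Q vs ∈ commutator (OG Q) ↔ Even vs.length ∧ IsSquare (vs.map Q).prod := by
  constructor
  · intro hm
    obtain ⟨ws, k1, k2, k3, k4⟩ := commutator_le_spinKer Q hgen hm
    obtain ⟨e1, e2⟩ := reflProd_eq_reflProd Q hQ vs ws hvs k1 k4
    refine ⟨?_, ?_⟩
    · exact (Nat.even_add.1 e1).2 k2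
    · rw [mul_comm] at e2
      exact (isSquare_mul_iff_of_isSquare k3 (prod_Q_ne_zero Q ws k1)).1 e2
  · rintro ⟨h1, h3⟩
    exact reflProd_mem_commutator_of_even_of_isSquare Q hQ vs hvs h1 h3

theorem index_commutator_char_two_gen (h2 : (2 : F) = 0) (hQ : (polarBilin Q).Nondegenerate)
    (hgen : ∀ g : OG Q, ∃ vs : List V, (∀ v ∈ vs, Q v ≠ 0) ∧ g = reflProd Q vs)
    (hV : ∃ x : V, x ≠ 0) : (commutator (OG Q)).index = 2 := by
  have key : ∀ (vs : List V), (∀ v ∈ vs, Q v ≠ 0) →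
      (reflProd Q vs ∈ commutator (OG Q) ↔ Even vs.length) := by
    intro vs hvs
    rw [reflProd_mem_commutator_iff_gen Q hQ hgen vs hvs]
    exact ⟨fun h => h.1, fun h => ⟨h, isSquare_of_two_eq_zero h2 _⟩⟩
  obtain ⟨x, hx⟩ := hV
  obtain ⟨u₀, -, hu₀, -⟩ := exists_nonsingular_pair Q h2 hQ hx
  rw [Subgroup.index_eq_two_iff]
  refine ⟨refl Q u₀, fun b => ?_⟩
  obtain ⟨vs, hvs, rfl⟩ := hgen b
  have e : reflProd Q vs * refl Q u₀ = reflProd Q (vs ++ [u₀]) := by simp
  rw [e, key vs hvs, key (vs ++ [u₀]) (by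
      intro v hv
      rcases List.mem_append.1 hv with h | h
      · exact hvs v h
      · simp only [List.mem_cons, List.not_mem_nil, or_false] at h
        rw [h]; exact hu₀)]
  simp only [List.length_append, List.length_cons, List.length_nil, zero_add]
  rw [Nat.even_add_one]
  by_cases he : Even vs.length
  · exact Or.inr ⟨he, by simpa using he⟩
  · exact Or.inl ⟨he, he⟩

end Abs

section Mat

variable {ι : Type} [Fintype ι] [DecidableEq ι] {F : Type*} [Field F] [Fintype F]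
variable (Q : QuadraticForm F (ι → F))

theorem index_Omega_char_two_gen (h2 : (2 : F) = 0) (hQ : (polarBilin Q).Nondegenerate)
    (hgen : ∀ g : OG Q, ∃ vs : List (ι → F), (∀ v ∈ vs, Q v ≠ 0) ∧ g = reflProd Q vs)
    [Nonempty ι] : (Cfsg.Omega F ⇑Q).index = 2 := by
  have h1 := index_commutator_char_two_gen Q h2 hQ hgen
    ⟨fun _ => 1, fun h0 => one_ne_zero (congrFun h0 (Classical.arbitrary ι))⟩
  rw [← h1]
  exact index_eq_of_mulEquiv (isoEquiv Q)

end Mat

/-- the Witt index of the minus type form is at most `m` -/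
theorem minus_bound {F : Type*} [Field F] [Fintype F] (m : ℕ) (a b : F)
    (hab : ∀ z₁ z₂ : F, z₁ ^ 2 + a * z₁ * z₂ + b * z₂ ^ 2 = 0 → z₁ = 0 ∧ z₂ = 0)
    (X : Submodule F ((Fin m ⊕ Fin m) ⊕ Fin 2 → F)) (hX : (polQ (minusQF m F a b)).TS X) :
    finrank F X ≤ m := by
  have hQ := minusQF_nondegenerate m F a b (minus_disc_ne_zero a b hab)
  have h1 := hX.two_mul_finrank_le (polQ_count _ hQ).nondeg
  have hfr : finrank F ((Fin m ⊕ Fin m) ⊕ Fin 2 → F) = 2 * m + 2 := by simp; ring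
  by_contra hcon
  have h2 : 2 * finrank F X = finrank F ((Fin m ⊕ Fin m) ⊕ Fin 2 → F) := by omega
  exact not_isLagr_minusQF a b hab hQ X (isLagr_of_finrank hQ (fun u hu => hX.1 u hu) h2)

end Cfsg.Agent.Lib.Helper50.STB
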