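import Cfsg.Agent.Lib.Helper50.STBMain3
import Cfsg.Agent.Lib.Helper50.STBOrth3

/-!
# STB ladder: plus type, thin panels
-/

set_option autoImplicit false

namespace Cfsg.Agent.Lib.Helper50.STB

open QuadraticMap Module Cfsg.Agent.Lib.Helper49

variable {F V : Type*} [Field F] [AddCommGroup V] [Module F V] (Q : QuadraticForm F V)

/-- in dimension `2m` the panels of the last level have at most two chambers -/
theorem thin_polQ [FiniteDimensional F V] (hQ : (polarBilin Q).Nondegenerate) (m : ℕ) (hm : 0 < m)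
    (hV : finrank F V = 2 * m) (x x' y : ℕ → Submodule F V) (hx : IsCh (polQ Q) m x)
    (hx' : IsCh (polQ Q) m x') (hy : IsCh (polQ Q) m y) (hxx' : ∀ j, j ≠ m → x' j = x j)
    (hne : x' ≠ x) (hyx : ∀ j, j ≠ m → y j = x j) : y = x ∨ y = x' := by
  have hnd := (polQ_count Q hQ).nondeg
  obtain ⟨k, rfl⟩ : ∃ k, m = k + 1 := ⟨m - 1, by omega⟩
  set P := polQ Q with hP
  set W := x k with hW
  have hW1 : W ≤ x (k + 1) := hx.mono (Nat.le_succ k) le_rfl
  have hW2 : W ≤ x' (k + 1) := by
    rw [hW, ← hxx' k (by omega)]; exact hx'.mono (Nat.le_succ k) le_rfl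
  have hW3 : W ≤ y (k + 1) := by
    rw [hW, ← hyx k (by omega)]; exact hy.mono (Nat.le_succ k) le_rfl
  have hx'k : x' k = W := hxx' k (by omega)
  have hyk : y k = W := hyx k (by omega)
  have hM12 : x' (k + 1) ≠ x (k + 1) := by
    intro h
    apply hne
    funext j
    by_cases hj : j = k + 1
    · rw [hj, h]
    · exact hxx' j hj
  have ts1 := hx.ts (le_refl (k + 1))
  have ts2 := hx'.ts (le_refl (k + 1))
  have ts3 := hy.ts (le_refl (k + 1))
  have hWd : finrank F W = k := hx.finrank (by omega)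
  have ho : finrank F (P.orth W) = k + 2 := by
    have := finrank_orth P hnd W
    omega
  have o1 : x (k + 1) ≤ P.orth W := ts1.2.trans (orth_anti P hW1)
  have o2 : x' (k + 1) ≤ P.orth W := ts2.2.trans (orth_anti P hW2)
  have o3 : y (k + 1) ≤ P.orth W := ts3.2.trans (orth_anti P hW3)
  have hsup : x' (k + 1) ⊔ x (k + 1) = P.orth W :=
    sup_eq_of_finrank (k := k + 1) (hx'.finrank le_rfl) (hx.finrank le_rfl) ho o2 o1 hM12
  -- a vector of `y (k+1)` outside `W`
  obtain ⟨v, hv, hvW⟩ : ∃ v ∈ y (k + 1), v ∉ W := by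
    by_contra hcon
    push Not at hcon
    have h1 : y (k + 1) ≤ W := hcon
    have h2 := Submodule.finrank_mono h1
    rw [hy.finrank le_rfl, hWd] at h2
    omega
  have hyv : W ⊔ Submodule.span F {v} = y (k + 1) := by
    rw [← hyk]
    exact hy.sup_span (by omega) hv (by rw [hyk]; exact hvW)
  have hvS : v ∈ x' (k + 1) ⊔ x (k + 1) := by rw [hsup]; exact o3 hv
  obtain ⟨u₂, hu₂, u₁, hu₁, rfl⟩ := Submodule.mem_sup.1 hvS
  have hB : polar Q u₁ u₂ = 0 := by
    have q1 : Q u₁ = 0 := ts1.1 u₁ hu₁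
    have q2 : Q u₂ = 0 := ts2.1 u₂ hu₂
    have q3 : Q (u₂ + u₁) = 0 := ts3.1 _ hv
    rw [polar_comm]
    simp only [polar, q1, q2, q3, sub_zero]
  have key : u₁ ∈ W ∨ u₂ ∈ W := by
    by_contra hcon
    push Not at hcon
    obtain ⟨h1, h2⟩ := hcon
    have e1 : W ⊔ Submodule.span F {u₁} = x (k + 1) := hx.sup_span (by omega) hu₁ h1
    have e2 : W ⊔ Submodule.span F {u₂} = x' (k + 1) := by
      rw [← hx'k]
      exact hx'.sup_span (by omega) hu₂ (by rw [hx'k]; exact h2)
    have h3 : x' (k + 1) ≤ P.orth (x (k + 1)) := by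
      rw [← e1, orth_sup, orth_span_singleton]
      apply le_inf o2
      rw [← e2]
      apply sup_le
      · intro w hw
        exact (mem_orth P _ _).1 (ts1.2 (hW1 hw)) u₁ hu₁
      · rw [Submodule.span_singleton_le_iff_mem]
        exact hB
    have h4 := (ts1.sup ts2 h3).two_mul_finrank_le hnd
    rw [sup_comm, hsup, ho, hV] at h4
    omega
  rcases key with h | h
  · -- `v ∈ x' (k+1)`
    right
    have hle : y (k + 1) ≤ x' (k + 1) := by
      rw [← hyv]
      apply sup_le hW2
      rw [Submodule.span_singleton_le_iff_mem]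
      exact Submodule.add_mem _ hu₂ (hW2 h)
    have heq : y (k + 1) = x' (k + 1) :=
      Submodule.eq_of_le_of_finrank_le hle (by rw [hy.finrank le_rfl, hx'.finrank le_rfl])
    funext j
    by_cases hj : j = k + 1
    · rw [hj, heq]
    · rw [hyx j hj, hxx' j hj]
  · left
    have hle : y (k + 1) ≤ x (k + 1) := by
      rw [← hyv]
      apply sup_le hW1
      rw [Submodule.span_singleton_le_iff_mem]
      exact Submodule.add_mem _ (hW1 h) hu₁
    have heq : y (k + 1) = x (k + 1) :=
      Submodule.eq_of_le_of_finrank_le hle (by rw [hy.finrank le_rfl, hx.finrank le_rfl])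
    funext j
    by_cases hj : j = k + 1
    · rw [hj, heq]
    · exact hyx j hj

end Cfsg.Agent.Lib.Helper50.STB
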