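import Cfsg.Agent.Lib.Helper50.STBPlus1
import Cfsg.Agent.Lib.Helper49.Lagr

/-!
# STB ladder: plus type, transitivity properties of the commutator subgroup
-/

set_option autoImplicit false

namespace Cfsg.Agent.Lib.Helper50.STB

open QuadraticMap Module Cfsg.Agent.Lib.Helper49

variable {F V : Type*} [Field F] [Fintype F] [AddCommGroup V] [Module F V] [FiniteDimensional F V]
  (Q : QuadraticForm F V)

/-- an even product of reflections can be corrected into the commutator subgroup by an element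
stabilising the lines of a frame -/
theorem exists_comm_of_even (hQ : (polarBilin Q).Nondegenerate) {m : ℕ} (hm : 0 < m)
    (Φ : Frame (polQ Q) m) (vs : List V) (hvs : ∀ v ∈ vs, Q v ≠ 0) (he : Even vs.length) :
    ∃ k ∈ frameStab Q Φ, reflProd Q vs * k ∈ commutator (OG Q) := by
  by_cases hs : IsSquare (vs.map Q).prod
  · exact ⟨1, one_mem _, by
      rw [mul_one]
      exact reflProd_mem_commutator_of_even_of_isSquare Q hQ _ hvs he hs⟩
  have h20 : (2 : F) ≠ 0 := fun h20 => hs (isSquare_of_two_eq_zero h20 _)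
  obtain ⟨δ, hδ0, hδ⟩ := exists_nonsquare_or (F := F)
  have hδ' : ¬ IsSquare δ := by tauto
  set e := Φ.e ⟨0, hm⟩ with he'
  set f := Φ.f ⟨0, hm⟩ with hf'
  have heq : Q e = 0 := Φ.sing_e _
  have hfq : Q f = 0 := Φ.sing_f _
  have hef : polar Q e f ≠ 0 := Φ.ne _
  have hQc : ∀ c : F, Q (e + c • f) = c * polar Q e f := by
    intro c
    rw [Q_add_smul Q e f c hfq, heq, polar_comm]; simp
  have m2 : reflProd Q [e + (1 : F) • f, e + δ • f] ∈ frameStab Q Φ := by
    apply mem_frameStab_of
    intro i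
    have hap : ∀ x, (reflProd Q [e + (1 : F) • f, e + δ • f]).1 x =
        reflLin Q (e + (1 : F) • f) (reflLin Q (e + δ • f) x) := by
      intro x; simp
    by_cases hi : i = ⟨0, hm⟩
    · subst hi
      refine ⟨⟨δ, ?_⟩, ⟨δ⁻¹, ?_⟩⟩
      · rw [hap, refl_hyp_e Q heq hfq hef δ hδ0, map_smul, refl_hyp_f Q heq hfq hef 1 one_ne_zero,
          smul_smul]
        simp [he']
      · rw [hap, refl_hyp_f Q heq hfq hef δ hδ0, map_smul, refl_hyp_e Q heq hfq hef 1 one_ne_zero,
          smul_smul]
        simp [hf']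
    · have h1 : ∀ c : F, polar Q (e + c • f) (Φ.e i) = 0 := by
        intro c
        have a1 : polar Q e (Φ.e i) = 0 := Φ.ee _ _
        have a2 : polar Q f (Φ.e i) = 0 := by rw [polar_comm]; exact Φ.ef i _ hi
        rw [polar_add_left, polar_smul_left, a1, a2]; simp
      have h2 : ∀ c : F, polar Q (e + c • f) (Φ.f i) = 0 := by
        intro c
        have a1 : polar Q e (Φ.f i) = 0 := Φ.ef _ i (Ne.symm hi)
        have a2 : polar Q f (Φ.f i) = 0 := Φ.ff _ _
        rw [polar_add_left, polar_smul_left, a1, a2]; simp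
      refine ⟨⟨1, ?_⟩, ⟨1, ?_⟩⟩
      · rw [hap, reflLin_of_polar_eq_zero Q _ _ (h1 δ), reflLin_of_polar_eq_zero Q _ _ (h1 1),
          one_smul]
      · rw [hap, reflLin_of_polar_eq_zero Q _ _ (h2 δ), reflLin_of_polar_eq_zero Q _ _ (h2 1),
          one_smul]
  refine ⟨_, m2, ?_⟩
  rw [← reflProd_append]
  apply reflProd_mem_commutator_of_even_of_isSquare Q hQ
  · intro y hy
    rcases List.mem_append.1 hy with h | h
    · exact hvs y h
    · simp only [List.mem_cons, List.not_mem_nil, or_false] at h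
      rcases h with rfl | rfl
      · rw [hQc]; exact mul_ne_zero one_ne_zero hef
      · rw [hQc]; exact mul_ne_zero hδ0 hef
  · rw [List.length_append]
    exact he.add ⟨1, rfl⟩
  · rw [List.map_append, List.prod_append]
    apply isSquare_mul_of_not_isSquare h20 hs
    simp only [List.map_cons, List.map_nil, List.prod_cons, List.prod_nil, mul_one, hQc, one_mul]
    rintro ⟨t, ht⟩
    apply hδ'
    refine ⟨t / polar Q e f, ?_⟩
    field_simp
    linear_combination ht

/-- the parity of an isometry mapping a frame to a frame -/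
theorem even_length_of_frame (hQ : (polarBilin Q).Nondegenerate) {m : ℕ}
    (Φ Φ' : Frame (polQ Q) m) (hL : IsLagr Q (flagOf m Φ.e m)) (vs : List V)
    (hvs : ∀ v ∈ vs, Q v ≠ 0)
    (hg : ∀ i, (reflProd Q vs).1 (Φ.e i) ∈ Submodule.span F {Φ'.e i}) :
    Even (finrank F (flagOf m Φ.e m ⊓ flagOf m Φ'.e m : Submodule F V) + m + vs.length) := by
  have h1 := hL.even_finrank_inf_map_reflProd hQ hL vs hvs
  have h2 : (flagOf m Φ.e m).map ((reflProd Q vs).1 : V →ₗ[F] V) = flagOf m Φ'.e m :=
    flagOf_map m Φ.e Φ'.e (reflProd Q vs).1 Φ.e_ne hg m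
  have h3 : finrank F (flagOf m Φ.e m ⊓ flagOf m Φ.e m : Submodule F V) = m := by
    rw [inf_idem]
    have := (isCh_vec Φ (1, fun _ => false)).finrank (le_refl m)
    rwa [vec_false] at this
  rw [h2, h3] at h1
  exact h1

end Cfsg.Agent.Lib.Helper50.STB
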