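import Cfsg.Agent.Lib.Helper50.STBPlus2

/-!
# STB ladder: plus type, the Steinberg character
-/

set_option autoImplicit false

namespace Cfsg.Agent.Lib.Helper50.STB

open QuadraticMap Module Cfsg.Agent.Lib.Helper49

section Abs

variable {F V : Type*} [Field F] [Fintype F] [AddCommGroup V] [Module F V] [FiniteDimensional F V]
  (Q : QuadraticForm F V)

theorem plus_T1 (hQ : (polarBilin Q).Nondegenerate)
    (hgen : ∀ g : OG Q, ∃ vs : List V, (∀ v ∈ vs, Q v ≠ 0) ∧ g = reflProd Q vs)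
    {m : ℕ} (hm : 0 < m) (Φ : Frame (polQ Q) m) (hL : IsLagr Q (flagOf m Φ.e m))
    (Φ' : Frame (polQ Q) m) (h : flagOf m Φ'.e = flagOf (F := F) m Φ.e) :
    ∃ g ∈ commutator (OG Q), ∀ i, g.1 (Φ.e i) ∈ Submodule.span F {Φ'.e i} ∧
      g.1 (Φ.f i) ∈ Submodule.span F {Φ'.f i} := by
  obtain ⟨g₀, hg₀⟩ := exists_OG_frame Q hQ Φ Φ'
  obtain ⟨vs, hvs, rfl⟩ := hgen g₀
  have hpar := even_length_of_frame Q hQ Φ Φ' hL vs hvs (fun i => (hg₀ i).1)
  have h3 : finrank F (flagOf m Φ.e m : Submodule F V) = m := by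
    have := (isCh_vec Φ (1, fun _ => false)).finrank (le_refl m)
    rwa [vec_false] at this
  rw [h, inf_idem, h3] at hpar
  have hlen : Even vs.length := by
    rw [Nat.even_add] at hpar
    exact hpar.1 ⟨m, rfl⟩
  obtain ⟨k, hk, hgk⟩ := exists_comm_of_even Q hQ hm Φ vs hvs hlen
  refine ⟨_, hgk, fun i => ?_⟩
  obtain ⟨h1, h2⟩ := frameStab_apply Q Φ k hk i
  obtain ⟨a, ha⟩ := Submodule.mem_span_singleton.1 h1
  obtain ⟨b, hb⟩ := Submodule.mem_span_singleton.1 h2
  constructor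
  · show (reflProd Q vs).1 (k.1 (Φ.e i)) ∈ _
    rw [← ha, map_smul]
    exact Submodule.smul_mem _ _ (hg₀ i).1
  · show (reflProd Q vs).1 (k.1 (Φ.f i)) ∈ _
    rw [← hb, map_smul]
    exact Submodule.smul_mem _ _ (hg₀ i).2

theorem plus_T2 (hQ : (polarBilin Q).Nondegenerate)
    (hgen : ∀ g : OG Q, ∃ vs : List V, (∀ v ∈ vs, Q v ≠ 0) ∧ g = reflProd Q vs)
    {m : ℕ} (hm : 0 < m) (Φ : Frame (polQ Q) m) (i₀ : Fin m) :
    (∃ g ∈ commutator (OG Q), ∀ i, g.1 (Φ.e i) ∈ Submodule.span F {Φ.f i}) ∨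
    (∃ g ∈ commutator (OG Q), (∀ i, i ≠ i₀ → g.1 (Φ.e i) ∈ Submodule.span F {Φ.f i}) ∧
      g.1 (Φ.e i₀) ∈ Submodule.span F {Φ.e i₀}) := by
  obtain ⟨g₀, hg₀⟩ := exists_OG_frame Q hQ Φ Φ.swap
  obtain ⟨vs, hvs, rfl⟩ := hgen g₀
  have hg₁ : ∀ i, (reflProd Q vs).1 (Φ.e i) ∈ Submodule.span F {Φ.f i} := fun i => (hg₀ i).1
  by_cases hlen : Even vs.length
  · left
    obtain ⟨k, hk, hgk⟩ := exists_comm_of_even Q hQ hm Φ vs hvs hlen
    refine ⟨_, hgk, fun i => ?_⟩
    obtain ⟨h1, -⟩ := frameStab_apply Q Φ k hk i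
    obtain ⟨a, ha⟩ := Submodule.mem_span_singleton.1 h1
    show (reflProd Q vs).1 (k.1 (Φ.e i)) ∈ _
    rw [← ha, map_smul]
    exact Submodule.smul_mem _ _ (hg₁ i)
  · right
    set e := Φ.e i₀ with he'
    set f := Φ.f i₀ with hf'
    have heq : Q e = 0 := Φ.sing_e _
    have hfq : Q f = 0 := Φ.sing_f _
    have hef : polar Q e f ≠ 0 := Φ.ne _
    have hQv : Q (e + (1 : F) • f) ≠ 0 := by
      rw [Q_add_smul Q e f 1 hfq, heq, polar_comm]
      simpa using hef
    obtain ⟨k, hk, hgk⟩ := exists_comm_of_even Q hQ hm Φ ((e + (1 : F) • f) :: vs)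
      (by
        intro v hv
        rcases List.mem_cons.1 hv with rfl | h
        · exact hQv
        · exact hvs v h)
      (by
        rw [List.length_cons, Nat.even_add_one]
        exact hlen)
    refine ⟨_, hgk, ?_, ?_⟩
    · intro i hi
      obtain ⟨h1, -⟩ := frameStab_apply Q Φ k hk i
      obtain ⟨a, ha⟩ := Submodule.mem_span_singleton.1 h1
      obtain ⟨b, hb⟩ := Submodule.mem_span_singleton.1 (hg₁ i)
      show (reflProd Q ((e + (1 : F) • f) :: vs)).1 (k.1 (Φ.e i)) ∈ _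
      rw [← ha, map_smul, reflProd_cons]
      show a • reflLin Q (e + (1 : F) • f) ((reflProd Q vs).1 (Φ.e i)) ∈ _
      rw [← hb, map_smul]
      have a1 : polar Q e (Φ.f i) = 0 := Φ.ef _ i (Ne.symm hi)
      have a2 : polar Q f (Φ.f i) = 0 := Φ.ff _ _
      rw [reflLin_of_polar_eq_zero Q _ _ (by
        rw [polar_add_left, polar_smul_left, a1, a2]; simp)]
      exact Submodule.smul_mem _ _ (Submodule.smul_mem _ _ (Submodule.mem_span_singleton_self _))
    · obtain ⟨h1, -⟩ := frameStab_apply Q Φ k hk i₀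
      obtain ⟨a, ha⟩ := Submodule.mem_span_singleton.1 h1
      obtain ⟨b, hb⟩ := Submodule.mem_span_singleton.1 (hg₁ i₀)
      show (reflProd Q ((e + (1 : F) • f) :: vs)).1 (k.1 (Φ.e i₀)) ∈ _
      rw [← ha, map_smul, reflProd_cons]
      show a • reflLin Q (e + (1 : F) • f) ((reflProd Q vs).1 (Φ.e i₀)) ∈ _
      rw [← hb, map_smul, refl_hyp_f Q heq hfq hef 1 one_ne_zero]
      exact Submodule.smul_mem _ _ (Submodule.smul_mem _ _ (Submodule.smul_mem _ _
        (Submodule.mem_span_singleton_self _)))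

end Abs

section Mat

variable {ι : Type} [Fintype ι] [DecidableEq ι] {F : Type*} [Field F] [Fintype F]
variable (Q : QuadraticForm F (ι → F))

/-- the Steinberg character of `PΩ(Q)` for a form of maximal Witt index -/
theorem steinberg_plus_gen (p : ℕ) [Fact p.Prime] [CharP F p] (hQ : (polarBilin Q).Nondegenerate)
    (hgen : ∀ g : OG Q, ∃ vs : List (ι → F), (∀ v ∈ vs, Q v ≠ 0) ∧ g = reflProd Q vs)
    (m : ℕ) (hm : 0 < m) (hcard : Fintype.card ι = 2 * m) (Φ : Frame (polQ Q) m)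
    (hcen : ∀ u, Q u = 0 → u ≠ 0 → ∃ w, polar Q u w = 0 ∧ Q w ≠ 0)
    (N r₀ : ℕ) (hN : N + m * (m + 1) = Fintype.card ι * m) (hr₀ : ¬ p ∣ r₀)
    (hord : Nat.card (Cfsg.POmega F ⇑Q) ∣ Fintype.card F ^ N * r₀) :
    ∃ χ : Cfsg.POmega F ⇑Q → ℂ, Cfsg.IsIrrCharacter (Cfsg.POmega F ⇑Q) χ ∧
      ∀ P : Sylow p (Cfsg.POmega F ⇑Q), χ 1 = Nat.card P ∧
        ∀ x : Cfsg.POmega F ⇑Q, x ∈ P → x ≠ 1 → χ x = 0 := by
  classical
  have hfr : finrank F (ι → F) = Fintype.card ι := by simp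
  have hcnt := polQ_count Q hQ
  have hb : ∀ X, (polQ Q).TS X → finrank F X ≤ m := by
    intro X hX
    have := hX.two_mul_finrank_le hcnt.nondeg
    omega
  have hche : IsCh (polQ Q) m (flagOf m Φ.e) := by
    have := isCh_vec Φ (1, fun _ => false)
    rwa [vec_false] at this
  have hchf : IsCh (polQ Q) m (flagOf m Φ.f) := by
    have := isCh_vec Φ (1, fun _ => true)
    rwa [vec_true] at this
  have hL : IsLagr Q (flagOf m Φ.e m) :=
    isLagr_of_finrank hQ (fun u hu => (hche.ts le_rfl).1 u hu)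
      (by rw [hche.finrank le_rfl, hfr, hcard])
  set i₀ : Fin m := ⟨m - 1, by omega⟩ with hi₀
  have toΩ : ∀ g ∈ commutator (OG Q), ∃ g' : ↥(Cfsg.Omega F ⇑Q), ∀ v, rhoOmega F ⇑Q g' v = g.1 v := by
    intro g hg
    refine ⟨⟨(isoEquiv Q).symm g, (mem_Omega_iff Q _).2 (by rwa [MulEquiv.apply_symm_apply])⟩,
      fun v => ?_⟩
    rw [rhoOmega_apply]
    simp only [MulEquiv.apply_symm_apply]
  obtain ⟨χ, hχ, D, h1, hD⟩ := main3 (polQ Q) m 1 hb hcnt Φ (rhoOmega F ⇑Q) (omega_pres Q)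
    (by
      intro Φ' h
      obtain ⟨g, hg, hg'⟩ := plus_T1 Q hQ hgen hm Φ hL Φ' h
      obtain ⟨g', hgg⟩ := toΩ g hg
      exact ⟨g', fun i => by rw [hgg, hgg]; exact hg' i⟩)
    (by
      rcases plus_T2 Q hQ hgen hm Φ i₀ with ⟨g, hg, hg'⟩ | ⟨g, hg, hg1, hg2⟩
      · left
        obtain ⟨g', hgg⟩ := toΩ g hg
        exact ⟨g', fun i => by rw [hgg]; exact hg' i⟩
      · right
        obtain ⟨g', hgg⟩ := toΩ g hg
        refine ⟨i₀, g', by simp only [hi₀]; omega, fun i hi => by rw [hgg]; exact hg1 i hi,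
          by rw [hgg]; exact hg2, ?_⟩
        intro y hy hyx
        have hvec : (fun i => if i = i₀ then Φ.e i else Φ.f i) =
            Φ.vec (1, fun i => decide (i ≠ i₀)) := by
          funext i
          by_cases hi : i = i₀ <;> simp [Frame.vec, hi]
        have hx' : IsCh (polQ Q) m (flagOf m (fun i => if i = i₀ then Φ.e i else Φ.f i)) := by
          rw [hvec]; exact isCh_vec Φ _
        apply thin_polQ Q hQ m hm (by rw [hfr, hcard]) _ _ y hchf hx' hy ?_ ?_ hyx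
        · intro j hj
          by_cases hjm : j ≤ m
          · rw [flagOf_of_le _ _ _ hjm, flagOf_of_le _ _ _ hjm]
            congr 1
            apply Set.image_congr
            intro i hi
            have hi' : i.val < j := hi
            have : i ≠ i₀ := by
              intro h
              rw [h] at hi'
              simp only [hi₀] at hi'
              omega
            simp [this]
          · unfold flagOf
            rw [if_neg hjm, if_neg hjm]
        · intro heq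
          have h2 : Φ.e i₀ ∈ flagOf (F := F) m (fun i => if i = i₀ then Φ.e i else Φ.f i) m := by
            rw [flagOf_of_le _ _ _ le_rfl]
            apply Submodule.subset_span
            exact ⟨i₀, i₀.2, by simp⟩
          rw [heq] at h2
          have h3 : Φ.f i₀ ∈ flagOf (F := F) m Φ.f m := by
            rw [flagOf_of_le _ _ _ le_rfl]
            exact Submodule.subset_span ⟨i₀, i₀.2, rfl⟩
          have h4 := (mem_orth _ _ _).1 ((hchf.ts le_rfl).2 h3) _ h2
          exact Φ.ne i₀ h4)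
    (Subgroup.center ↥(Cfsg.Omega F ⇑Q)) (fun z hz v hv => omega_center Q hQ hcen z hz v hv)
  have hq : 0 < Nat.card F := Nat.card_pos
  have hD' : D = Nat.card F ^ N := by
    apply Nat.eq_of_mul_eq_mul_right (pow_pos hq (m * (m + 1)))
    rw [hD, hfr, ← pow_add, hN]
    simp
  obtain ⟨a, -, ha⟩ := exists_pow_of_card F p
  rw [← Nat.card_eq_fintype_card] at hord
  exact ⟨χ, hχ, final_of_degree_dvd p (Nat.card F ^ N) r₀ ⟨a * N, by rw [ha, pow_mul]⟩ hord hr₀
    χ hχ (by rw [h1, hD'])⟩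

end Mat

end Cfsg.Agent.Lib.Helper50.STB
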