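import Cfsg.Agent.Lib.Helper50.STBPlus3
import Cfsg.Agent.Lib.Helper50.STBOrth5
import Cfsg.Agent.Lib.Helper4.CharBasic
import Cfsg.Agent.S0287

/-!
# STB ladder: plus type, the standard form (generic case)
-/

set_option autoImplicit false

namespace Cfsg.Agent.Lib.Helper50.STB

open QuadraticMap Module Cfsg.Agent.Lib.Helper49

/-- the standard frame of the plus type form -/
def framePlus (m : ℕ) (F : Type*) [Field F] : Frame (polQ (plusQF m F)) m where
  e := fun i => Pi.single (Sum.inl i) 1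
  f := fun i => Pi.single (Sum.inr i) 1
  sing_e := fun i => by rw [sing_polQ, plusQF_coe]; simp [Cfsg.quadFormPlus]
  sing_f := fun i => by rw [sing_polQ, plusQF_coe]; simp [Cfsg.quadFormPlus]
  ee := fun i j => by
    rw [mem_perp_polQ, plusQF_coe, polar_quadFormPlus]
    simp [Pi.single_apply]
  ff := fun i j => by
    rw [mem_perp_polQ, plusQF_coe, polar_quadFormPlus]
    simp [Pi.single_apply]
  ef := fun i j h => by
    rw [mem_perp_polQ, plusQF_coe, polar_quadFormPlus]
    simp [Pi.single_apply, Ne.symm h]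
  ne := fun i => by
    rw [mem_perp_polQ, plusQF_coe, polar_quadFormPlus]
    simp [Pi.single_apply]

/-- a multiple of the order of `PΩ⁺_{2m}(q)` with the right `p`-part -/
theorem plus_order {F : Type*} [Field F] [Fintype F] (p : ℕ) [Fact p.Prime] [CharP F p] (m : ℕ)
    (hm : 1 ≤ m) (hex : Fintype.card F ≠ 2 ∨ m ≠ 2) :
    ∃ r₀ : ℕ, ¬ p ∣ r₀ ∧
      Nat.card (Cfsg.POmega F ⇑(plusQF m F)) ∣ Fintype.card F ^ (m * (m - 1)) * r₀ := by
  have hp : p.Prime := Fact.out
  have hO := Cfsg.Agent.S0287.result (F := F) rfl m hm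
  rw [← plusQF_coe m F] at hO
  have hQ := plusQF_nondegenerate m F
  have hcardeq := Cfsg.Agent.Lib.Helper18.OmegaCenter.card_isometryGroup_eq (plusQF m F)
  obtain ⟨e, he0, he⟩ := exists_pow_of_card F p
  rw [Nat.card_eq_fintype_card] at he
  have hpq : p ∣ Fintype.card F := by rw [he]; exact dvd_pow_self p he0.ne'
  have hq0 : 0 < Fintype.card F := Fintype.card_pos
  have hminus : ¬ p ∣ Fintype.card F ^ m - 1 :=
    not_dvd_pow_sub_one p _ hp hpq hq0 _ (by omega)
  have hprod : ¬ p ∣ ∏ i ∈ Finset.range (m - 1), (Fintype.card F ^ (2 * (i + 1)) - 1) := by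
    intro h
    obtain ⟨i, -, hi⟩ := (Prime.dvd_finsetProd_iff hp.prime _).1 h
    exact not_dvd_pow_sub_one p _ hp hpq hq0 _ (by omega) hi
  by_cases h2 : (2 : F) = 0
  · have : Nonempty (Fin m ⊕ Fin m) := ⟨Sum.inl ⟨0, by omega⟩⟩
    have hidx := index_Omega_char_two (plusQF m F) h2 hQ (by
      rcases hex with h | h
      · exact Or.inl h
      · right
        simp
        omega)
    refine ⟨(Fintype.card F ^ m - 1) *
      ∏ i ∈ Finset.range (m - 1), (Fintype.card F ^ (2 * (i + 1)) - 1), ?_, ?_⟩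
    · intro h
      rcases (Nat.Prime.dvd_mul hp).1 h with h | h
      · exact hminus h
      · exact hprod h
    · refine ⟨Nat.card (Subgroup.center ↥(Cfsg.Omega F ⇑(plusQF m F))), ?_⟩
      rw [hidx, hO] at hcardeq
      have : 2 * (Fintype.card F ^ (m * (m - 1)) * ((Fintype.card F ^ m - 1) *
          ∏ i ∈ Finset.range (m - 1), (Fintype.card F ^ (2 * (i + 1)) - 1))) =
          2 * (Nat.card (Cfsg.POmega F ⇑(plusQF m F)) *
            Nat.card (Subgroup.center ↥(Cfsg.Omega F ⇑(plusQF m F)))) := by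
        rw [mul_comm 2 (Nat.card (Cfsg.POmega F ⇑(plusQF m F)) * _), ← hcardeq]
        ring
      exact Nat.eq_of_mul_eq_mul_left (by norm_num) this
  · refine ⟨2 * ((Fintype.card F ^ m - 1) *
      ∏ i ∈ Finset.range (m - 1), (Fintype.card F ^ (2 * (i + 1)) - 1)), ?_, ?_⟩
    · intro h
      rcases (Nat.Prime.dvd_mul hp).1 h with h | h
      · have hp2 : p = 2 := (Nat.prime_dvd_prime_iff_eq hp Nat.prime_two).1 h
        apply h2
        have := CharP.cast_eq_zero F p
        rw [hp2] at this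
        exact_mod_cast this
      · rcases (Nat.Prime.dvd_mul hp).1 h with h | h
        · exact hminus h
        · exact hprod h
    · refine ⟨Nat.card (Subgroup.center ↥(Cfsg.Omega F ⇑(plusQF m F))) *
        (Cfsg.Omega F ⇑(plusQF m F)).index, ?_⟩
      rw [← mul_assoc (Nat.card (Cfsg.POmega F ⇑(plusQF m F))), ← hcardeq, hO]
      ring

/-- the Steinberg character of `PΩ⁺_{2m}(q)`, `(m, q) ≠ (2, 2)` -/
theorem steinberg_plus_std {F : Type*} [Field F] [Fintype F] (p : ℕ) [Fact p.Prime] [CharP F p]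
    (m : ℕ) (hm : 1 ≤ m) (hex : Fintype.card F ≠ 2 ∨ m ≠ 2) :
    ∃ χ : Cfsg.POmega F ⇑(plusQF m F) → ℂ, Cfsg.IsIrrCharacter (Cfsg.POmega F ⇑(plusQF m F)) χ ∧
      ∀ P : Sylow p (Cfsg.POmega F ⇑(plusQF m F)), χ 1 = Nat.card P ∧
        ∀ x : Cfsg.POmega F ⇑(plusQF m F), x ∈ P → x ≠ 1 → χ x = 0 := by
  obtain ⟨r₀, hr₀, hord⟩ := plus_order (F := F) p m hm hex
  have hQ := plusQF_nondegenerate m F
  have hfr : Module.finrank F (Fin m ⊕ Fin m → F) = 2 * m := by simp; ring
  rcases Nat.lt_or_ge 1 m with h1 | h1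
  · apply steinberg_plus_gen (plusQF m F) p hQ
      (exists_reflProd_eq_finite (plusQF m F) hQ (by
        rcases hex with h | h
        · exact Or.inl h
        · right
          omega)) m (by omega) (by simp; ring) (framePlus m F)
      (fun u _ _ => exists_nonsing_perp _ hQ (by omega) u) (m * (m - 1)) r₀ ?_ hr₀ hord
    obtain ⟨k, rfl⟩ : ∃ k, m = k + 1 := ⟨m - 1, by omega⟩
    simp
    ring
  · obtain rfl : m = 1 := by omega
    refine ⟨fun _ => 1, Cfsg.Agent.Lib.Helper4.isIrrCharacter_one, ?_⟩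
    exact final_of_degree_dvd p 1 r₀ ⟨0, by simp⟩ (by simpa using hord) hr₀ _
      Cfsg.Agent.Lib.Helper4.isIrrCharacter_one (by simp)

end Cfsg.Agent.Lib.Helper50.STB
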