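import Cfsg.Agent.Lib.Helper50.SUDet3

set_option autoImplicit false
open Matrix

/-! The isotropic case and the surjectivity of the determinant on unitary centralisers. -/

namespace Cfsg.Agent.Lib.Helper50.SUDet

open Cfsg.Agent.Lib.Helper50 Cfsg.Agent.Lib.Helper50.Herm Cfsg.Agent.Lib.Helper50.GUConj Polynomial

variable {K : Type*} [Field K] [Fintype K] {q n : ℕ}

theorem exists_trace_one (hK : Fintype.card K = q ^ 2) : ∃ l : K, l + l ^ q = 1 := by
  obtain ⟨θ, hθ⟩ := exists_theta hK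
  have h0 : θ - θ ^ q ≠ 0 := sub_ne_zero.2 (Ne.symm hθ)
  have h1 : θ ^ q - θ ≠ 0 := sub_ne_zero.2 hθ
  refine ⟨θ / (θ - θ ^ q), ?_⟩
  rw [div_pow, sub_pow_q hK, pow_q_sq hK]
  have h2 : θ ^ q - θ = -(θ - θ ^ q) := by ring
  rw [h2, div_neg, ← sub_eq_add_neg, ← sub_div, div_self h0]

theorem herm_eq_zero_of_isotropic (hK : Fintype.card K = q ^ 2) (W : Submodule K (Fin n → K))
    (h : ∀ w ∈ W, Cfsg.hermForm n K q w w = 0) : ∀ u ∈ W, ∀ w ∈ W, Cfsg.hermForm n K q u w = 0 := by
  intro u hu w hw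
  have H := isHerm_std hK n
  obtain ⟨θ, hθ⟩ := exists_theta hK
  have key : ∀ c : K, c ^ q * Cfsg.hermForm n K q u w + c * Cfsg.hermForm n K q u w ^ q = 0 := by
    intro c
    have h1 := h (u + c • w) (W.add_mem hu (W.smul_mem c hw))
    rw [H.add_left, H.add_right, H.add_right, H.smul_left, H.smul_left, H.smul_right, H.smul_right, h u hu,
      h w hw, H.symm u w] at h1
    linear_combination h1
  have k1 := key 1
  have k2 := key θ
  rw [one_pow, one_mul, one_mul] at k1
  have k3 : (θ ^ q - θ) * Cfsg.hermForm n K q u w = 0 := by linear_combination k2 - θ * k1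
  rcases mul_eq_zero.1 k3 with h4 | h4
  · exact absurd (sub_eq_zero.1 h4) hθ
  · exact h4

theorem case2 (hK : Fintype.card K = q ^ 2) (g : Matrix (Fin n) (Fin n) K) (hg : dag hK g * g = 1)
    (hss : Module.End.IsSemisimple (Matrix.toLin' g)) (v : Fin n → K) (P : K[X])
    (hPv : aeval g P *ᵥ v = 0) (hiso : ∀ u, aeval g P *ᵥ u = 0 → Cfsg.hermForm n K q u u = 0) :
    ∃ p, p * g = g * p ∧ p * dag hK p = dag hK p * p ∧ (∀ x, p *ᵥ x ∈ Wm g v) ∧ (∀ w ∈ Wm g v, p *ᵥ w = w) := by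
  have hWiso : ∀ w ∈ Wm g v, Cfsg.hermForm n K q w w = 0 := by
    intro w hw
    obtain ⟨k, rfl⟩ := (mem_Wm g v w).1 hw
    apply hiso
    rw [mulVec_mulVec, ← map_mul, mul_comm, map_mul, ← mulVec_mulVec, hPv, mulVec_zero]
  have hpol := herm_eq_zero_of_isotropic hK (Wm g v) hWiso
  have hWinv : Wm g v ∈ Module.End.invtSubmodule (Matrix.toLin' g) := SemiConj.range_ev_invt _ _
  obtain ⟨q', hq', hc⟩ := (Module.End.isSemisimple_iff.1 hss) _ hWinv
  rw [Module.End.mem_invtSubmodule_iff_forall_mem_of_mem] at hWinv hq'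
  obtain ⟨π, hπdef⟩ : ∃ π : Matrix (Fin n) (Fin n) K,
      π = LinearMap.toMatrix' ((Wm g v).subtype ∘ₗ (Wm g v).projectionOnto q' hc) := ⟨_, rfl⟩
  have hπx : ∀ x, π *ᵥ x = ((Wm g v).projectionOnto q' hc x : Fin n → K) := by
    intro x
    rw [hπdef, LinearMap.toMatrix'_mulVec]
    rfl
  have hπW : ∀ x, π *ᵥ x ∈ Wm g v := fun x => by rw [hπx]; exact Subtype.property _
  have hπfix : ∀ w ∈ Wm g v, π *ᵥ w = w := by
    intro w hw
    rw [hπx]
    exact congrArg Subtype.val (Submodule.projectionOnto_apply_left hc ⟨w, hw⟩)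
  have hπq : ∀ u ∈ q', π *ᵥ u = 0 := by
    intro u hu
    rw [hπx]
    exact congrArg Subtype.val (Submodule.projectionOnto_apply_right hc ⟨u, hu⟩)
  have hππ : π * π = π := by
    apply ext_mulVec'
    intro x
    rw [← mulVec_mulVec, hπfix _ (hπW x)]
  have hπg : π * g = g * π := by
    apply ext_mulVec'
    intro x
    obtain ⟨w, hw, u, hu, rfl⟩ : ∃ w ∈ Wm g v, ∃ u ∈ q', w + u = x := by
      have : x ∈ Wm g v ⊔ q' := by rw [hc.sup_eq_top]; trivial
      exact Submodule.mem_sup.1 this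
    have h1 : g *ᵥ w ∈ Wm g v := by have := hWinv w hw; rwa [Matrix.toLin'_apply] at this
    have h2 : g *ᵥ u ∈ q' := by have := hq' u hu; rwa [Matrix.toLin'_apply] at this
    rw [← mulVec_mulVec, ← mulVec_mulVec, mulVec_add, mulVec_add, mulVec_add, hπfix _ h1, hπq _ h2, hπfix _ hw,
      hπq _ hu, add_zero, add_zero]
  have hZ : dag hK π * π = 0 := by
    ext i j
    have := hpol (π *ᵥ Pi.single j 1) (hπW _) (π *ᵥ Pi.single i 1) (hπW _)
    rw [mulVec_single_one, mulVec_single_one] at this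
    rw [mul_apply, Matrix.zero_apply, ← this]
    apply Finset.sum_congr rfl
    intro k _
    rw [dag_apply, mul_comm]
    rfl
  have hg' : g * dag hK g = 1 := mul_eq_one_comm.1 hg
  have hπgi : π * dag hK g = dag hK g * π := by
    calc π * dag hK g = dag hK g * (g * π) * dag hK g := by rw [← mul_assoc, hg, one_mul]
      _ = dag hK g * (π * g) * dag hK g := by rw [hπg]
      _ = dag hK g * π := by rw [mul_assoc, mul_assoc, hg', mul_one]
  have hdπg : dag hK π * g = g * dag hK π := by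
    have := congrArg (dag hK) hπgi
    rw [dag_mul, dag_mul, dag_dag] at this
    exact this.symm
  have hdd : dag hK π * dag hK π = dag hK π := by rw [← dag_mul, hππ]
  obtain ⟨l, hl⟩ := exists_trace_one hK
  obtain ⟨N, hN⟩ : ∃ N, N = π * dag hK π := ⟨_, rfl⟩
  have hdN : dag hK N = N := by rw [hN, dag_mul, dag_dag]
  have hπN : π * N = N := by rw [hN, ← mul_assoc, hππ]
  have hNπ : N * π = 0 := by rw [hN, mul_assoc, hZ, mul_zero]
  have hNN : N * N = 0 := by rw [hN, mul_assoc, ← mul_assoc (dag hK π), hZ, zero_mul, mul_zero]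
  have hNd : N * dag hK π = N := by rw [hN, mul_assoc, hdd]
  have hdN' : dag hK π * N = 0 := by rw [hN, ← mul_assoc, hZ, zero_mul]
  have hdp : dag hK (π - l • N) = dag hK π - l ^ q • N := by rw [dag_sub, dag_smul, hdN]
  have e1 : (π - l • N) * dag hK (π - l • N) = 0 := by
    rw [hdp]
    simp only [sub_mul, mul_sub, smul_mul_assoc, mul_smul_comm, hπN, hNN, hNd, smul_zero, sub_zero]
    rw [← hN]
    have : N - l • N - l ^ q • N = (1 - (l + l ^ q)) • N := by module
    rw [this, hl, sub_self, zero_smul]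
  have e2 : dag hK (π - l • N) * (π - l • N) = 0 := by
    rw [hdp]
    simp only [sub_mul, mul_sub, smul_mul_assoc, mul_smul_comm, hZ, hNN, hNπ, hdN', smul_zero, sub_zero]
  refine ⟨π - l • N, ?_, by rw [e1, e2], ?_, ?_⟩
  · have hNg : N * g = g * N := by rw [hN, mul_assoc, hdπg, ← mul_assoc, hπg, mul_assoc]
    rw [sub_mul, mul_sub, smul_mul_assoc, mul_smul_comm, hπg, hNg]
  · intro x
    rw [sub_mulVec, smul_mulVec, hN, ← mulVec_mulVec]
    exact (Wm g v).sub_mem (hπW _) ((Wm g v).smul_mem _ (hπW _))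
  · intro w hw
    have h1 : N *ᵥ w = 0 := by
      rw [← hπfix w hw, mulVec_mulVec, hNπ, zero_mulVec]
    rw [sub_mulVec, smul_mulVec, h1, smul_zero, sub_zero, hπfix w hw]

/-- the determinant maps the centraliser in `GU_n(q)` of a semisimple element onto the norm-one group -/
theorem exists_centralizer_det (hK : Fintype.card K = q ^ 2) (hn : 0 < n) (g : Matrix (Fin n) (Fin n) K)
    (hg : dag hK g * g = 1) (e : ℕ) (he : (e : K) ≠ 0) (hge : g ^ e = 1) (δ : K) (hδ : δ ^ (q + 1) = 1) :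
    ∃ c, dag hK c * c = 1 ∧ c * g = g * c ∧ c.det = δ := by
  have hss := SemiConj.isSemisimple_toLin' g e he hge
  have hnu : ¬ IsUnit (Matrix.toLin' g).charpoly := by
    intro hu
    have := natDegree_eq_zero_of_isUnit hu
    rw [LinearMap.charpoly_natDegree, Module.finrank_fintype_fun_eq_card, Fintype.card_fin] at this
    omega
  obtain ⟨P, -, hP, hPd⟩ := exists_monic_irreducible_factor _ hnu
  obtain ⟨v, hv, hPv⟩ := SemiConj.exists_ne_zero_aeval (Matrix.toLin' g) P hP hPd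
  rw [bridge] at hPv
  by_cases hcase : ∃ u, aeval g P *ᵥ u = 0 ∧ Cfsg.hermForm n K q u u ≠ 0
  · obtain ⟨u, hu1, hu2⟩ := hcase
    have hu0 : u ≠ 0 := by
      rintro rfl
      exact hu2 ((isHerm_std hK n).zero_left 0)
    obtain ⟨p, h1, h2, h3, h4⟩ := case1 hK g hg e he hge u P hP hu1 hu2
    exact exists_unitary_det hK g p hg h1 (by rw [h2]) (hD_of_idem g p u hu0 P hP hu1 h3 h4) δ hδ
  · push Not at hcase
    obtain ⟨p, h1, h2, h3, h4⟩ := case2 hK g hg hss v P hPv hcase
    exact exists_unitary_det hK g p hg h1 h2 (hD_of_idem g p v hv P hP hPv h3 h4) δ hδ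

end Cfsg.Agent.Lib.Helper50.SUDet
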