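import Cfsg.Agent.Lib.Helper50.STBSp
import Cfsg.Agent.Lib.Helper50.SUCenter
import Cfsg.Agent.Lib.Helper50.SUDet4
import Cfsg.Agent.S0280

/-!
# STB ladder: the unitary family (counting, preservation, centre, order)
-/

set_option autoImplicit false

namespace Cfsg.Agent.Lib.Helper50.STB

open Matrix Cfsg.Agent.Lib.Helper50 Cfsg.Agent.Lib.Helper50.Herm

variable {K : Type*} [Field K] [Fintype K] {q : ℕ}

theorem card_fixed (hK : Fintype.card K = q ^ 2) : Nat.card {c : K // c ^ q = c} = q := by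
  have h2 := two_le_q hK
  have h1 := card_split (fun c : K => c ^ q = c) (fun c => c ≠ 0)
  have h3 : Nat.card {c : K // c ^ q = c ∧ c ≠ 0} = q - 1 := by
    rw [← card_fixed_ne_zero hK]
    exact Nat.card_congr (Equiv.subtypeEquivRight fun c => And.comm)
  have h4 : Nat.card {c : K // c ^ q = c ∧ ¬ c ≠ 0} = 1 := by
    rw [Nat.card_eq_one_iff_unique]
    refine ⟨⟨?_⟩, ⟨⟨0, by simp [show q ≠ 0 by omega]⟩⟩⟩
    rintro ⟨a, -, ha⟩ ⟨b, -, hb⟩
    apply Subtype.ext
    simp only [ne_eq, not_not] at ha hb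
    exact ha.trans hb.symm
  omega

theorem card_trace_zero (hK : Fintype.card K = q ^ 2) : Nat.card {t : K // t + t ^ q = 0} = q := by
  have h2 := two_le_q hK
  obtain ⟨θ, hθ⟩ := SUDet.exists_trace_one hK
  have e : K ≃ {c : K // c ^ q = c} × {t : K // t + t ^ q = 0} :=
    { toFun := fun t => (⟨t + t ^ q, by rw [add_pow_q hK, pow_q_sq hK, add_comm]⟩,
        ⟨t - θ * (t + t ^ q), by
          rw [sub_pow_q hK, mul_pow, add_pow_q hK, pow_q_sq hK]
          have : θ ^ q = 1 - θ := by rw [← hθ]; ring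
          rw [this]; ring⟩)
      invFun := fun x => x.2.1 + θ * x.1.1
      left_inv := fun t => by simp
      right_inv := by
        rintro ⟨⟨d, hd⟩, ⟨k, hk⟩⟩
        have h1 : k + θ * d + (k + θ * d) ^ q = d := by
          rw [add_pow_q hK, mul_pow, hd]
          calc k + θ * d + (k ^ q + θ ^ q * d) = (k + k ^ q) + (θ + θ ^ q) * d := by ring
            _ = d := by rw [hk, hθ]; ring
        apply Prod.ext
        · apply Subtype.ext; exact h1
        · apply Subtype.ext
          simp only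
          rw [h1]; ring }
  have h1 := Nat.card_congr e
  rw [Nat.card_prod, card_fixed hK, Nat.card_eq_fintype_card, hK, sq] at h1
  exact (Nat.eq_of_mul_eq_mul_left (by omega) h1).symm

theorem card_trace (hK : Fintype.card K = q ^ 2) (d : K) (hd : d ^ q = d) :
    Nat.card {t : K // t + t ^ q = d} = q := by
  obtain ⟨θ, hθ⟩ := SUDet.exists_trace_one hK
  refine Eq.trans (Nat.card_congr ?_) (card_trace_zero hK)
  refine
    { toFun := fun t => ⟨t.1 - θ * d, ?_⟩
      invFun := fun t => ⟨t.1 + θ * d, ?_⟩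
      left_inv := fun t => by simp
      right_inv := fun t => by simp }
  · rw [sub_pow_q hK, mul_pow, hd]
    calc t.1 - θ * d + (t.1 ^ q - θ ^ q * d) = (t.1 + t.1 ^ q) - (θ + θ ^ q) * d := by ring
      _ = 0 := by rw [t.2, hθ]; ring
  · rw [add_pow_q hK, mul_pow, hd]
    calc t.1 + θ * d + (t.1 ^ q + θ ^ q * d) = (t.1 + t.1 ^ q) + (θ + θ ^ q) * d := by ring
      _ = d := by rw [t.2, hθ]; ring

theorem mem_perp_su {n : ℕ} (hF : Fintype.card K = q ^ 2) (x y : Fin n → K) :
    y ∈ (polSU n K q hF).perp x ↔ Cfsg.hermForm n K q y x = 0 := Iff.rfl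

theorem sing_su {n : ℕ} (hF : Fintype.card K = q ^ 2) (x : Fin n → K) :
    (polSU n K q hF).sing x ↔ Cfsg.hermForm n K q x x = 0 := Iff.rfl

theorem su_count (n : ℕ) (F : Type*) [Field F] [Fintype F] (q : ℕ) (hF : Fintype.card F = q ^ 2) :
    PolarCount (polSU n F q hF) q := by
  have hh := isHerm_std hF n
  have h2 := two_le_q hF
  constructor
  · intro x hx
    funext i
    have h := (mem_perp_su hF x _).1 (hx (Pi.single i 1))
    unfold Cfsg.hermForm at h
    rw [Finset.sum_eq_single i (by intro j _ hj; simp [hj]) (by simp)] at h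
    simp at h
    exact h.1
  · intro y v hy hv
    rw [sing_su] at hy
    rw [mem_perp_su] at hv
    set c := Cfsg.hermForm n F q v y with hc
    have hyv : Cfsg.hermForm n F q y v = c ^ q := hh.symm v y
    have hvv : (Cfsg.hermForm n F q v v) ^ q = Cfsg.hermForm n F q v v := (hh.symm v v).symm
    have hcq : c ^ q ≠ 0 := pow_ne_zero _ hv
    refine Eq.trans (Nat.card_congr ?_) (card_trace hF (- Cfsg.hermForm n F q v v) (by
      rw [show -Cfsg.hermForm n F q v v = 0 - Cfsg.hermForm n F q v v by ring, sub_pow_q hF, hvv,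
        zero_pow (by omega)]))
    have key : ∀ a : F, Cfsg.hermForm n F q (v + a • y) (v + a • y)
        = Cfsg.hermForm n F q v v + (a * c ^ q + (a * c ^ q) ^ q) := by
      intro a
      rw [hh.add_left, hh.add_right, hh.add_right, hh.smul_left, hh.smul_left, hh.smul_right,
        hh.smul_right, hy, hyv, ← hc, mul_pow, pow_q_sq hF]
      ring
    refine
      { toFun := fun a => ⟨a.1 * c ^ q, ?_⟩
        invFun := fun t => ⟨t.1 / c ^ q, ?_⟩
        left_inv := fun a => by simp [hcq]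
        right_inv := fun t => by simp [hcq] }
    · have := (sing_su hF _).1 a.2
      rw [key] at this
      exact eq_neg_of_add_eq_zero_right this
    · rw [sing_su, key, div_mul_cancel₀ _ hcq, t.2]; ring

theorem rhoSU_apply {n : ℕ} (g : ↥(Cfsg.SU n K q)) (v : Fin n → K) :
    rhoSU n K q g v = (g.1 : Matrix (Fin n) (Fin n) K) *ᵥ v := linRep_apply _ g v

theorem su_pres (n : ℕ) (F : Type*) [Field F] [Fintype F] (q : ℕ) (hF : Fintype.card F = q ^ 2) :
    Pres (polSU n F q hF) (rhoSU n F q) := by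
  have key : ∀ (g : ↥(Cfsg.SU n F q)) (u v : Fin n → F),
      Cfsg.hermForm n F q ((g.1 : Matrix (Fin n) (Fin n) F) *ᵥ u)
        ((g.1 : Matrix (Fin n) (Fin n) F) *ᵥ v) = Cfsg.hermForm n F q u v := fun g u v => g.2 u v
  constructor
  · intro g x y h
    rw [mem_perp_su] at h ⊢
    rw [rhoSU_apply, rhoSU_apply, key, h]
  · intro g x h
    rw [sing_su] at h ⊢
    rw [rhoSU_apply, key, h]

theorem su_center (n : ℕ) (F : Type*) [Field F] [Fintype F] (q : ℕ) (hF : Fintype.card F = q ^ 2)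
    (z : ↥(Cfsg.SU n F q)) (hz : z ∈ Subgroup.center ↥(Cfsg.SU n F q)) :
    ∃ a : F, ∀ v, rhoSU n F q z v = a • v := by
  rcases Nat.eq_zero_or_pos n with rfl | hn
  · exact ⟨1, fun v => Subsingleton.elim _ _⟩
  · refine ⟨(z.1 : Matrix (Fin n) (Fin n) F) ⟨0, hn⟩ ⟨0, hn⟩, fun v => ?_⟩
    rw [rhoSU_apply]
    funext i
    rw [Matrix.mulVec, dotProduct, Finset.sum_eq_single i
      (by intro j _ hj; rw [center_offdiag hF n z hz i j (Ne.symm hj), zero_mul]) (by simp),
      center_diag hF n z hz i ⟨0, hn⟩]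
    rfl

theorem su_order (n : ℕ) (hn : 2 ≤ n) (F : Type*) [Field F] [Fintype F] (q : ℕ)
    (hF : Fintype.card F = q ^ 2) (p : ℕ) [Fact p.Prime] [CharP F p] :
    ∃ r, Nat.card (Cfsg.PSU n F q) = q ^ (n * (n - 1) / 2) * r ∧ ¬ p ∣ r := by
  have hp : p.Prime := Fact.out
  have h2 := two_le_q hF
  obtain ⟨b, hb0, hb⟩ := exists_pow_of_card F p
  rw [Nat.card_eq_fintype_card, hF] at hb
  obtain ⟨a, ha⟩ : ∃ a, q = p ^ a := by
    have : q ∣ p ^ b := by rw [← hb]; exact dvd_pow_self q (by norm_num)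
    obtain ⟨a, -, ha⟩ := (Nat.dvd_prime_pow hp).1 this
    exact ⟨a, ha⟩
  have ha0 : a ≠ 0 := by
    rintro rfl
    rw [pow_zero] at ha; omega
  have hpq : p ∣ q := by rw [ha]; exact dvd_pow_self p ha0
  have hplus : ∀ k, 0 < k → ¬ p ∣ q ^ k + 1 := by
    intro k hk h
    have h1 : p ∣ q ^ k := dvd_pow hpq hk.ne'
    have h3 : p ∣ 1 := (Nat.dvd_add_right h1).1 h
    exact hp.one_lt.ne' (Nat.dvd_one.1 h3)
  have h1 := Cfsg.Agent.S0280.result hF n hn
  apply order_split p _ (Nat.gcd n (q + 1) * (q + 1)) _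
    (∏ i ∈ Finset.range n, (if Even i then q ^ (i + 1) + 1 else q ^ (i + 1) - 1))
    ⟨a * (n * (n - 1) / 2), by rw [ha, pow_mul]⟩
  · rw [mul_assoc, h1]
  · intro h
    have hq1 : ¬ p ∣ q + 1 := by simpa using hplus 1 one_pos
    rcases (Nat.Prime.dvd_mul hp).1 h with h | h
    · exact hq1 (h.trans (Nat.gcd_dvd_right _ _))
    · exact hq1 h
  · intro h
    obtain ⟨i, -, hi⟩ := (Prime.dvd_finsetProd_iff hp.prime _).1 h
    split_ifs at hi
    · exact hplus _ (by omega) hi
    · exact not_dvd_pow_sub_one p q hp hpq (by omega) _ (by omega) hi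

end Cfsg.Agent.Lib.Helper50.STB
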