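import Cfsg.Agent.Lib.Helper50.SUConj
import Cfsg.Agent.Lib.Helper50.GUConj2
import Cfsg.Agent.Lib.Helper50.SemiClass

set_option autoImplicit false
open Matrix

/-! Fixed points of semilinear involutions; characteristic polynomials of unitary matrices. -/

namespace Cfsg.Agent.Lib.Helper50.SUClass

open Cfsg.Agent.Lib.Helper50 Cfsg.Agent.Lib.Helper50.Herm Cfsg.Agent.Lib.Helper50.GUConj Polynomial

variable {K : Type*} [Field K] [Fintype K] {q : ℕ}

/-- a semilinear involution has `√|A|` fixed points -/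
theorem card_fix_sq (hK : Fintype.card K = q ^ 2) {A : Type*} [AddCommGroup A] [Module K A] (T : A →+ A)
    (hsmul : ∀ (c : K) (x : A), T (c • x) = c ^ q • T x) (hinv : ∀ x, T (T x) = x) :
    Nat.card A = Nat.card {x : A // T x = x} ^ 2 := by
  obtain ⟨θ, hθ⟩ := exists_theta hK
  set d : K := θ - θ ^ q with hd
  have hd0 : d ≠ 0 := sub_ne_zero.2 (Ne.symm hθ)
  have hdq : d ^ q = -d := by
    rw [hd, sub_pow_q hK, pow_q_sq hK]; ring
  have hdiq : (d⁻¹) ^ q = -d⁻¹ := by
    rw [inv_pow, hdq, inv_neg]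
  rw [sq, ← Nat.card_prod]
  symm
  apply Nat.card_eq_of_bijective (fun x : {x : A // T x = x} × {x : A // T x = x} => x.1.1 + θ • x.2.1)
  constructor
  · rintro ⟨⟨c, hc⟩, ⟨e, he⟩⟩ ⟨⟨c', hc'⟩, ⟨e', he'⟩⟩ h
    simp only at h
    have h2 := congrArg T h
    rw [map_add, map_add, hsmul, hsmul, hc, hc', he, he'] at h2
    have h3 : d • e = d • e' := by
      rw [hd, sub_smul, sub_smul]
      have : θ • e - θ ^ q • e = (c + θ • e) - (c + θ ^ q • e) := by abel
      rw [this, h, h2]; abel
    have h4 : e = e' := smul_right_injective A hd0 h3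
    subst h4
    have h5 : c = c' := add_right_cancel h
    subst h5
    rfl
  · intro b
    have he : T (d⁻¹ • (b - T b)) = d⁻¹ • (b - T b) := by
      rw [hsmul, map_sub, hinv, hdiq, neg_smul, ← smul_neg, neg_sub]
    have hc : T (b - θ • (d⁻¹ • (b - T b))) = b - θ • (d⁻¹ • (b - T b)) := by
      rw [map_sub, hsmul, he]
      have h1 : b - T b = d • (d⁻¹ • (b - T b)) := by rw [smul_smul, mul_inv_cancel₀ hd0, one_smul]
      have h2 : d • (d⁻¹ • (b - T b)) = θ • (d⁻¹ • (b - T b)) - θ ^ q • (d⁻¹ • (b - T b)) := by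
        rw [hd, sub_smul]
      rw [h2] at h1
      rw [sub_eq_sub_iff_add_eq_add]
      have := sub_eq_sub_iff_add_eq_add.1 h1
      rw [add_comm (T b), ← this, add_comm]
    refine ⟨(⟨_, hc⟩, ⟨_, he⟩), ?_⟩
    simp only [sub_add_cancel]

/-- the twisted reversal on coefficient vectors -/
def Tvec (hK : Fintype.card K = q ^ 2) (ε : K) (m : ℕ) : (Fin m → K) →+ (Fin m → K) where
  toFun b := fun i => ε * (b (Fin.rev i)) ^ q
  map_zero' := by
    have h2 := two_le_q hK
    ext i
    simp only [Pi.zero_apply]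
    rw [zero_pow (by omega), mul_zero]
  map_add' x y := by
    ext i
    simp only [Pi.add_apply]
    rw [add_pow_q hK, mul_add]

theorem Tvec_apply (hK : Fintype.card K = q ^ 2) (ε : K) (m : ℕ) (b : Fin m → K) (i : Fin m) :
    Tvec hK ε m b i = ε * (b (Fin.rev i)) ^ q := rfl

theorem card_fix_Tvec (hK : Fintype.card K = q ^ 2) (ε : K) (h1 : ε * ε ^ q = 1) (m : ℕ) :
    Nat.card {b : Fin m → K // Tvec hK ε m b = b} = q ^ m := by
  have h := card_fix_sq hK (Tvec hK ε m)
    (by
      intro c x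
      ext i
      simp only [Tvec_apply, Pi.smul_apply, smul_eq_mul]
      rw [mul_pow]; ring)
    (by
      intro x
      ext i
      simp only [Tvec_apply, Fin.rev_rev]
      rw [mul_pow, pow_q_sq hK, ← mul_assoc, h1, one_mul])
  rw [Nat.card_eq_fintype_card, Fintype.card_fun, Fintype.card_fin, hK, ← pow_mul, mul_comm, pow_mul] at h
  exact (Nat.pow_left_injective (n := 2) (by norm_num) h).symm

variable {n : ℕ}

theorem charpoly_dag (hK : Fintype.card K = q ^ 2) (x : Matrix (Fin n) (Fin n) K) :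
    (dag hK x).charpoly = x.charpoly.map (frobQ hK) := by
  rw [dag, Matrix.charpoly_transpose, Matrix.charpoly_map]

/-- the characteristic polynomial of the inverse of a matrix of determinant one -/
theorem coeff_charpoly_of_mul_eq_one (A B : Matrix (Fin n) (Fin n) K) (hBA : B * A = 1) (hdet : A.det = 1)
    (i : ℕ) (hi : i ≤ n) : B.charpoly.coeff i = (-1) ^ n * A.charpoly.coeff (n - i) := by
  have hu : IsUnit A := (Matrix.isUnit_iff_isUnit_det _).2 (by rw [hdet]; exact isUnit_one)
  have h1 := Matrix.charpoly_inv A hu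
  rw [hdet, Ring.inverse_one, map_one, mul_one, Fintype.card_fin, ← Matrix.reverse_charpoly,
    Matrix.inv_eq_left_inv hBA] at h1
  have h2 : ((-1 : K[X])) ^ n = C ((-1 : K) ^ n) := by
    rw [C_pow, C_neg, C_1]
  rw [h1, h2, coeff_C_mul, coeff_reverse, Matrix.charpoly_natDegree_eq_dim, Fintype.card_fin, revAt_le hi]

end Cfsg.Agent.Lib.Helper50.SUClass
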