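import Cfsg.Agent.Lib.Helper50.SUClass1

set_option autoImplicit false
open Matrix

/-! The number of classes of `p'`-elements of `SU_n(q)`. -/

namespace Cfsg.Agent.Lib.Helper50.SUClass

open Cfsg.Agent.Lib.Helper50 Cfsg.Agent.Lib.Helper50.Herm Cfsg.Agent.Lib.Helper50.GUConj Polynomial

variable {K : Type*} [Field K] [Fintype K] {q n : ℕ}

theorem eps_mul_self (n : ℕ) : ((-1 : K) ^ n) * ((-1) ^ n) = 1 := by
  rw [← mul_pow, neg_mul_neg, one_mul, one_pow]

theorem eps_pow_q (hK : Fintype.card K = q ^ 2) (n : ℕ) : ((-1 : K) ^ n) ^ q = (-1) ^ n := by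
  have h2 := two_le_q hK
  have h1 : (-1 : K) ^ q = -1 := by
    have := sub_pow_q hK 0 1
    rw [zero_pow (by omega), one_pow] at this
    simpa using this
  rw [← pow_mul, mul_comm, pow_mul, h1]

/-- coefficient symmetry for unitary matrices of determinant one -/
theorem coeff_symm (hK : Fintype.card K = q ^ 2) (g : Matrix (Fin n) (Fin n) K) (hg : dag hK g * g = 1)
    (hdet : g.det = 1) (i : ℕ) (hi : i ≤ n) :
    (g.charpoly.coeff i) ^ q = (-1) ^ n * g.charpoly.coeff (n - i) := by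
  have := coeff_charpoly_of_mul_eq_one g (dag hK g) hg hdet i hi
  rw [charpoly_dag, coeff_map, frobQ_apply] at this
  exact this

theorem exists_SU_coprime (hK : Fintype.card K = q ^ 2) (p : ℕ) [hp : Fact p.Prime] [CharP K p] (f : K[X])
    (hf : f.Monic) (hn : f.natDegree = n)
    (hsym : ∀ i ≤ n, (f.coeff i) ^ q = (-1) ^ n * f.coeff (n - i)) :
    ∃ s : ↥(Cfsg.SU n K q), (orderOf s).Coprime p ∧ (s.1.1 : Matrix (Fin n) (Fin n) K).charpoly = f := by
  have hp1 : p ≠ 1 := hp.out.ne_one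
  have h0 : f.coeff 0 = (-1) ^ n := by
    have h := hsym n le_rfl
    have h1 : f.coeff n = 1 := by rw [← hn]; exact hf.coeff_natDegree
    rw [h1, one_pow, Nat.sub_self] at h
    calc f.coeff 0 = ((-1) ^ n * (-1) ^ n) * f.coeff 0 := by rw [eps_mul_self, one_mul]
      _ = (-1) ^ n := by rw [mul_assoc, ← h, mul_one]
  obtain ⟨A, hA, hAc⟩ := SemiConj.exists_GL_coprime p f hf hn
    (by rw [h0]; exact pow_ne_zero _ (neg_ne_zero.2 one_ne_zero))
  have hdet : (A : Matrix (Fin n) (Fin n) K).det = 1 := by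
    rw [Matrix.det_eq_sign_charpoly_coeff, hAc, h0, Fintype.card_fin, eps_mul_self]
  set Am : Matrix (Fin n) (Fin n) K := (A : Matrix (Fin n) (Fin n) K) with hAm
  set Ai : Matrix (Fin n) (Fin n) K := ((A⁻¹ : Matrix.GeneralLinearGroup (Fin n) K) : Matrix (Fin n) (Fin n) K)
    with hAi
  have a1 : Am * Ai = 1 := A.mul_inv
  have a2 : Ai * Am = 1 := A.inv_mul
  have hc' : (dag hK Ai).charpoly = f := by
    ext i
    rw [charpoly_dag, coeff_map, frobQ_apply]
    by_cases hi : i ≤ n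
    · rw [coeff_charpoly_of_mul_eq_one Am Ai a2 hdet i hi, hAc, mul_pow, eps_pow_q hK, hsym _ (Nat.sub_le n i),
        ← mul_assoc, eps_mul_self, one_mul, Nat.sub_sub_self hi]
    · have h2 := two_le_q hK
      rw [coeff_eq_zero_of_natDegree_lt (by rw [Matrix.charpoly_natDegree_eq_dim, Fintype.card_fin]; omega),
        coeff_eq_zero_of_natDegree_lt (by rw [hn]; omega), zero_pow (by omega)]
  have hpA : Am ^ orderOf A = 1 := by
    rw [hAm, ← Units.val_pow_eq_pow_val, pow_orderOf_eq_one, Units.val_one]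
  have hpAi : Ai ^ orderOf A = 1 := by
    rw [hAi, ← Units.val_pow_eq_pow_val, inv_pow, pow_orderOf_eq_one, inv_one, Units.val_one]
  have he := SemiConj.cast_ne_zero_of_coprime (F := K) p hA hp1
  obtain ⟨x, hx⟩ := SemiConj.exists_conj_of_pow Am (dag hK Ai) (orderOf A) (orderOf A) he he hpA
    (by rw [← SUDet.dag_pow, hpAi, dag_one]) (hAc.trans hc'.symm)
  obtain ⟨z, hz⟩ := exists_conj_mem_GU hK A x (by
    show dag hK Am * (x : Matrix (Fin n) (Fin n) K) * Am = (x : Matrix (Fin n) (Fin n) K)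
    rw [mul_assoc, hx, ← mul_assoc, ← dag_mul, a2, dag_one, one_mul])
  have hB : ((z * A * z⁻¹ : Matrix.GeneralLinearGroup (Fin n) K) : Matrix (Fin n) (Fin n) K) =
      (z : Matrix (Fin n) (Fin n) K) * Am * ((z⁻¹ : (Matrix (Fin n) (Fin n) K)ˣ) : Matrix (Fin n) (Fin n) K) := rfl
  have hdetB : ((z * A * z⁻¹ : Matrix.GeneralLinearGroup (Fin n) K) : Matrix (Fin n) (Fin n) K).det = 1 := by
    rw [hB, Matrix.det_units_conj, hdet]
  refine ⟨⟨⟨_, hdetB⟩, fun u v => hz u v⟩, ?_, ?_⟩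
  · apply Nat.Coprime.coprime_dvd_left _ hA
    apply orderOf_dvd_of_pow_eq_one
    apply Subtype.ext
    apply Subtype.ext
    rw [Subgroup.coe_pow, Matrix.SpecialLinearGroup.coe_pow]
    show ((z * A * z⁻¹ : Matrix.GeneralLinearGroup (Fin n) K) : Matrix (Fin n) (Fin n) K) ^ orderOf A = 1
    rw [← Units.val_pow_eq_pow_val, conj_pow, pow_orderOf_eq_one, mul_one, mul_inv_cancel, Units.val_one]
  · show ((z * A * z⁻¹ : Matrix.GeneralLinearGroup (Fin n) K) : Matrix (Fin n) (Fin n) K).charpoly = f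
    rw [hB]
    have := Matrix.charpoly_units_conj z Am
    rw [← Matrix.coe_units_inv] at this
    rw [← hAc, ← this]

theorem exists_poly (ε : K) (m : ℕ) (b : Fin m → K) :
    ∃ f : K[X], f.Monic ∧ f.natDegree = m + 1 ∧ f.coeff 0 = ε ∧ ∀ i : Fin m, f.coeff (i + 1) = b i := by
  let e : {f : K[X] // f.Monic ∧ f.natDegree = m + 1} ≃ (Fin (m + 1) → K) :=
    (monicEquivDegreeLT (m + 1)).trans (degreeLTEquiv K (m + 1)).toEquiv
  have he : ∀ f (i : Fin (m + 1)), e f i = f.1.coeff i := by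
    intro f i
    show f.1.eraseLead.coeff i = f.1.coeff i
    rw [eraseLead_coeff_of_ne]
    rw [f.2.2]
    have := i.2
    omega
  refine ⟨(e.symm (Fin.cons ε b)).1, (e.symm (Fin.cons ε b)).2.1, (e.symm (Fin.cons ε b)).2.2, ?_, ?_⟩
  · have := he (e.symm (Fin.cons ε b)) 0
    rw [Equiv.apply_symm_apply] at this
    simpa using this.symm
  · intro i
    have := he (e.symm (Fin.cons ε b)) i.succ
    rw [Equiv.apply_symm_apply, Fin.cons_succ] at this
    simpa using this.symm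

theorem charpoly_eq_of_isConj (g h : ↥(Cfsg.SU n K q)) (hgh : IsConj g h) :
    (g.1.1 : Matrix (Fin n) (Fin n) K).charpoly = (h.1.1 : Matrix (Fin n) (Fin n) K).charpoly := by
  obtain ⟨x, hx⟩ := isConj_iff.1 hgh
  have e1 : (x.1.1 : Matrix (Fin n) (Fin n) K) * (x⁻¹).1.1 = 1 :=
    congrArg (fun y : ↥(Cfsg.SU n K q) => (y.1.1 : Matrix (Fin n) (Fin n) K)) (mul_inv_cancel x)
  have e2 : ((x⁻¹).1.1 : Matrix (Fin n) (Fin n) K) * x.1.1 = 1 :=
    congrArg (fun y : ↥(Cfsg.SU n K q) => (y.1.1 : Matrix (Fin n) (Fin n) K)) (inv_mul_cancel x)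
  have h3 := Matrix.charpoly_units_conj (⟨x.1.1, (x⁻¹).1.1, e1, e2⟩ : (Matrix (Fin n) (Fin n) K)ˣ) g.1.1
  rw [← Matrix.coe_units_inv] at h3
  rw [← h3, ← hx]
  rfl

end Cfsg.Agent.Lib.Helper50.SUClass
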