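import Cfsg.Agent.Lib.Helper50.SUClass2

set_option autoImplicit false
open Matrix

/-! The number of classes of `p'`-elements of `SU_n(q)`. -/

namespace Cfsg.Agent.Lib.Helper50.SUClass

open Cfsg.Agent.Lib.Helper50 Cfsg.Agent.Lib.Helper50.Herm Cfsg.Agent.Lib.Helper50.GUConj Polynomial

variable {K : Type*} [Field K] [Fintype K] {q : ℕ}

theorem SU_dag (hK : Fintype.card K = q ^ 2) {n : ℕ} (g : ↥(Cfsg.SU n K q)) :
    dag hK (g.1.1 : Matrix (Fin n) (Fin n) K) * g.1.1 = 1 := by
  have hG : Matrix.SpecialLinearGroup.toGL g.1 ∈ Cfsg.GU n K q := fun u v => g.2 u v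
  exact (mem_GU_iff_dag hK _).1 hG

theorem card_classes (hK : Fintype.card K = q ^ 2) (p : ℕ) [hp : Fact p.Prime] [CharP K p] (m : ℕ) :
    Nat.card {c : ConjClasses ↥(Cfsg.SU (m + 1) K q) //
      ∃ g : ↥(Cfsg.SU (m + 1) K q), ConjClasses.mk g = c ∧ (orderOf g).Coprime p} = q ^ m := by
  set ε : K := (-1) ^ (m + 1) with hε
  have hεε : ε * ε = 1 := eps_mul_self (m + 1)
  have hεq : ε ^ q = ε := eps_pow_q hK (m + 1)
  rw [← card_fix_Tvec hK ε (by rw [hεq, hεε]) m]
  have hsymm : ∀ (g : ↥(Cfsg.SU (m + 1) K q)) (i : ℕ), i ≤ m + 1 →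
      ((g.1.1 : Matrix (Fin (m + 1)) (Fin (m + 1)) K).charpoly.coeff i) ^ q =
        ε * (g.1.1 : Matrix (Fin (m + 1)) (Fin (m + 1)) K).charpoly.coeff (m + 1 - i) :=
    fun g i hi => coeff_symm hK g.1.1 (SU_dag hK g) g.1.2 i hi
  apply le_antisymm
  · have hfix : ∀ g : ↥(Cfsg.SU (m + 1) K q), Tvec hK ε m
        (fun i : Fin m => (g.1.1 : Matrix (Fin (m + 1)) (Fin (m + 1)) K).charpoly.coeff (i + 1)) =
        (fun i : Fin m => (g.1.1 : Matrix (Fin (m + 1)) (Fin (m + 1)) K).charpoly.coeff (i + 1)) := by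
      intro g
      ext i
      rw [Tvec_apply, hsymm g _ (by have := (Fin.rev i).2; omega), ← mul_assoc, hεε, one_mul, Fin.val_rev]
      congr 1
      have := i.2
      omega
    let φ : {c : ConjClasses ↥(Cfsg.SU (m + 1) K q) //
      ∃ g : ↥(Cfsg.SU (m + 1) K q), ConjClasses.mk g = c ∧ (orderOf g).Coprime p} →
        {b : Fin m → K // Tvec hK ε m b = b} :=
      fun c => ⟨_, hfix c.2.choose⟩
    have hφ : Function.Injective φ := by
      intro c c' hcc
      have h1 := c.2.choose_spec
      have h2 := c'.2.choose_spec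
      apply Subtype.ext
      rw [← h1.1, ← h2.1, ConjClasses.mk_eq_mk_iff_isConj]
      apply SUDet.conj_SU hK p (m + 1) _ _ h1.2 h2.2
      have hcc' := congrArg Subtype.val hcc
      have hdeg : ∀ x : ↥(Cfsg.SU (m + 1) K q),
          (x.1.1 : Matrix (Fin (m + 1)) (Fin (m + 1)) K).charpoly.natDegree = m + 1 := by
        intro x
        rw [Matrix.charpoly_natDegree_eq_dim, Fintype.card_fin]
      have htop : ∀ x : ↥(Cfsg.SU (m + 1) K q),
          (x.1.1 : Matrix (Fin (m + 1)) (Fin (m + 1)) K).charpoly.coeff (m + 1) = 1 := by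
        intro x
        have := (Matrix.charpoly_monic (x.1.1 : Matrix (Fin (m + 1)) (Fin (m + 1)) K)).coeff_natDegree
        rwa [hdeg] at this
      have hbot : ∀ x : ↥(Cfsg.SU (m + 1) K q),
          (x.1.1 : Matrix (Fin (m + 1)) (Fin (m + 1)) K).charpoly.coeff 0 = ε := by
        intro x
        have := hsymm x (m + 1) le_rfl
        rw [htop, one_pow, Nat.sub_self] at this
        calc _ = (ε * ε) * (x.1.1 : Matrix (Fin (m + 1)) (Fin (m + 1)) K).charpoly.coeff 0 := by
              rw [hεε, one_mul]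
          _ = ε := by rw [mul_assoc, ← this, mul_one]
      ext j
      rcases Nat.eq_zero_or_pos j with rfl | hj
      · exact (hbot _).trans (hbot _).symm
      · by_cases h3 : j ≤ m
        · have := congrFun hcc' ⟨j - 1, by omega⟩
          have e : j - 1 + 1 = j := by omega
          simpa [φ, e] using this
        · by_cases h4 : j = m + 1
          · subst h4
            exact (htop _).trans (htop _).symm
          · exact (coeff_eq_zero_of_natDegree_lt (by rw [hdeg]; omega)).trans
              (coeff_eq_zero_of_natDegree_lt (by rw [hdeg]; omega)).symm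
    exact Nat.card_le_card_of_injective φ hφ
  · have hex : ∀ b : {b : Fin m → K // Tvec hK ε m b = b}, ∃ s : ↥(Cfsg.SU (m + 1) K q),
        (orderOf s).Coprime p ∧
          ∀ i : Fin m, (s.1.1 : Matrix (Fin (m + 1)) (Fin (m + 1)) K).charpoly.coeff (i + 1) = b.1 i := by
      rintro ⟨b, hb⟩
      obtain ⟨f, hf, hd, hf0, hfb⟩ := exists_poly ε m b
      have htop : f.coeff (m + 1) = 1 := by rw [← hd]; exact hf.coeff_natDegree
      obtain ⟨s, hs, hsc⟩ := exists_SU_coprime hK p f hf hd (by
        intro i hi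
        rw [← hε]
        rcases Nat.eq_zero_or_pos i with rfl | hpos
        · rw [hf0, hεq, Nat.sub_zero, htop, mul_one]
        · by_cases h3 : i ≤ m
          · have e1 : f.coeff i = b ⟨i - 1, by omega⟩ := by
              rw [← hfb]
              congr 1
              show i = i - 1 + 1
              omega
            have e2 : f.coeff (m + 1 - i) = b (Fin.rev ⟨i - 1, by omega⟩) := by
              rw [← hfb, Fin.val_rev]
              congr 1
              show m + 1 - i = m - (i - 1 + 1) + 1
              omega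
            have h5 := congrFun hb (Fin.rev ⟨i - 1, by omega⟩)
            rw [Tvec_apply, Fin.rev_rev] at h5
            rw [e1, e2, ← h5, ← mul_assoc, hεε, one_mul]
          · have h4 : i = m + 1 := by omega
            subst h4
            rw [htop, one_pow, Nat.sub_self, hf0, hεε])
      exact ⟨s, hs, fun i => by rw [hsc, hfb]⟩
    choose s hs1 hs2 using hex
    let ψ : {b : Fin m → K // Tvec hK ε m b = b} → {c : ConjClasses ↥(Cfsg.SU (m + 1) K q) //
      ∃ g : ↥(Cfsg.SU (m + 1) K q), ConjClasses.mk g = c ∧ (orderOf g).Coprime p} :=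
      fun b => ⟨ConjClasses.mk (s b), s b, rfl, hs1 b⟩
    have hψ : Function.Injective ψ := by
      intro b b' hbb
      have h1 : IsConj (s b) (s b') := ConjClasses.mk_eq_mk_iff_isConj.1 (congrArg Subtype.val hbb)
      have h2 := charpoly_eq_of_isConj _ _ h1
      apply Subtype.ext
      ext i
      rw [← hs2, ← hs2, h2]
    exact Nat.card_le_card_of_injective ψ hψ

end Cfsg.Agent.Lib.Helper50.SUClass
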