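import Cfsg.Agent.Lib.Helper50.SemiDet
import Cfsg.Agent.Lib.Helper48.SemisimpleDet

set_option autoImplicit false

/-! Determinants of `1 + (f(g) - 1) ε` for a projection `ε` onto a simple cyclic submodule. -/

namespace Cfsg.Agent.Lib.Helper50.SemiConj

open Polynomial Module

universe u v

variable {F : Type v} [Field F]

/-- a nonzero vector of the simple module `F[g] v` generates it -/
theorem exists_aeval_eq {V : Type u} [AddCommGroup V] [Module F V] (g : End F V) (v : V) (P : F[X])
    (hP : Irreducible P) (hPv : aeval g P v = 0) (w : V) (hw : w ∈ LinearMap.range (ev g v)) (hw0 : w ≠ 0) :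
    ∃ a : F[X], aeval g a w = v := by
  obtain ⟨k, rfl⟩ := hw
  rw [ev_apply] at hw0 ⊢
  have hnd : ¬ P ∣ k := by
    rintro ⟨m, rfl⟩
    apply hw0
    rw [mul_comm, map_mul, Module.End.mul_apply, hPv, map_zero]
  obtain ⟨a, b, hab⟩ := hP.coprime_iff_not_dvd.2 hnd
  refine ⟨b, ?_⟩
  have h1 := congrArg (fun f => aeval g f v) hab
  simp only [map_add, map_mul, map_one, LinearMap.add_apply, Module.End.mul_apply, hPv, map_zero, zero_add,
    Module.End.one_apply] at h1
  exact h1

theorem aeval_mem_range_ev {V : Type u} [AddCommGroup V] [Module F V] (g : End F V) (v : V) (f : F[X]) (w : V)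
    (hw : w ∈ LinearMap.range (ev g v)) : aeval g f w ∈ LinearMap.range (ev g v) := by
  obtain ⟨k, rfl⟩ := hw
  exact ⟨f * k, by rw [ev_apply, ev_apply, map_mul]; rfl⟩

/-- the determinant of `1 + (f(g) - 1) ε`, `ε` a projection onto the simple module `F[g] v`, is arbitrary -/
theorem exists_det_idem [Finite F] {V : Type u} [AddCommGroup V] [Module F V] [FiniteDimensional F V]
    (g : End F V) (v : V) (hv : v ≠ 0) (P : F[X]) (hP : Irreducible P) (hPv : aeval g P v = 0)
    (ε : End F V) (hεW : ∀ x, ε x ∈ LinearMap.range (ev g v))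
    (hεfix : ∀ w ∈ LinearMap.range (ev g v), ε w = w) (δ : F) :
    ∃ f : F[X], LinearMap.det (1 + (aeval g f - 1) * ε) = δ := by
  obtain ⟨ψ, hψ⟩ := exists_equiv_adjoinRoot g v hv P hP hPv
  have : Fact (Irreducible P) := ⟨hP⟩
  have : Module.Finite F (AdjoinRoot P) := Module.Finite.equiv ψ.symm
  have : Finite (AdjoinRoot P) := Module.finite_of_finite F
  obtain ⟨y, hy⟩ := FiniteField.norm_surjective F (AdjoinRoot P) δ
  obtain ⟨f, rfl⟩ := AdjoinRoot.mk_surjective y
  let cp : End F (LinearMap.range (ev g v)) := LinearMap.restrict (aeval g f) (fun w hw => aeval_mem_range_ev g v f w hw)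
  have hcp : cp = ψ.conj (Algebra.lmul F (AdjoinRoot P) (AdjoinRoot.mk P f)) := by
    apply LinearMap.ext
    intro x
    obtain ⟨y, rfl⟩ := ψ.surjective x
    obtain ⟨k, rfl⟩ := AdjoinRoot.mk_surjective y
    rw [LinearEquiv.conj_apply_apply, ψ.symm_apply_apply]
    apply Subtype.ext
    have e0 : (Algebra.lmul F (AdjoinRoot P) (AdjoinRoot.mk P f)) (AdjoinRoot.mk P k) =
        AdjoinRoot.mk P (f * k) := by rw [map_mul]; rfl
    rw [e0, hψ]
    show aeval g f (ψ (AdjoinRoot.mk P k) : V) = _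
    rw [hψ, ev_apply, ev_apply, map_mul]
    rfl
  have hdet : LinearMap.det cp = δ := by
    rw [hcp, LinearEquiv.conj_apply, LinearMap.comp_assoc, LinearMap.det_conj, ← Algebra.norm_apply, hy]
  refine ⟨f, ?_⟩
  let ρ : V →ₗ[F] (LinearMap.range (ev g v)) := LinearMap.codRestrict (LinearMap.range (ev g v)) ε hεW
  have h1 : (aeval g f - 1) * ε = (LinearMap.range (ev g v)).subtype ∘ₗ ((cp - 1) ∘ₗ ρ) := by
    apply LinearMap.ext
    intro x
    rfl
  have h2 : ((cp - 1) ∘ₗ ρ) ∘ₗ (LinearMap.range (ev g v)).subtype = cp - 1 := by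
    apply LinearMap.ext
    intro w
    have : ρ ((LinearMap.range (ev g v)).subtype w) = w := Subtype.ext (hεfix w w.2)
    rw [LinearMap.comp_apply, LinearMap.comp_apply, this]
  rw [h1, Cfsg.Agent.Lib.Helper48.det_one_add_comp_comm, h2, add_sub_cancel, hdet]

end Cfsg.Agent.Lib.Helper50.SemiConj
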