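import Cfsg.Agent.Lib.Helper50.SUDet2

set_option autoImplicit false
open Matrix

/-! Self-adjoint / isotropic projections onto simple submodules of a semisimple unitary matrix. -/

namespace Cfsg.Agent.Lib.Helper50.SUDet

open Cfsg.Agent.Lib.Helper50 Cfsg.Agent.Lib.Helper50.Herm Cfsg.Agent.Lib.Helper50.GUConj Polynomial

variable {K : Type*} [Field K] {n : ℕ}

theorem bridge (g : Matrix (Fin n) (Fin n) K) (k : K[X]) (x : Fin n → K) :
    aeval (Matrix.toLin' g) k x = (aeval g k) *ᵥ x := by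
  have h := Polynomial.aeval_algHom_apply (Matrix.toLinAlgEquiv' (R := K) (n := Fin n)).toAlgHom g k
  have h2 : aeval (Matrix.toLin' g) k = Matrix.toLin' (aeval g k) := h
  rw [h2, Matrix.toLin'_apply]

/-- the cyclic submodule generated by `v` -/
noncomputable def Wm (g : Matrix (Fin n) (Fin n) K) (v : Fin n → K) : Submodule K (Fin n → K) :=
  LinearMap.range (SemiConj.ev (Matrix.toLin' g) v)

theorem mem_Wm (g : Matrix (Fin n) (Fin n) K) (v w : Fin n → K) :
    w ∈ Wm g v ↔ ∃ k : K[X], aeval g k *ᵥ v = w := by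
  constructor
  · rintro ⟨k, rfl⟩
    exact ⟨k, by rw [SemiConj.ev_apply, bridge]⟩
  · rintro ⟨k, rfl⟩
    exact ⟨k, by rw [SemiConj.ev_apply, bridge]⟩

theorem ext_mulVec' {M N : Matrix (Fin n) (Fin n) K} (h : ∀ x, M *ᵥ x = N *ᵥ x) : M = N :=
  Matrix.toLin'.injective (LinearMap.ext fun x => by simpa [Matrix.toLin'_apply] using h x)

theorem hD_of_idem [Finite K] (g p : Matrix (Fin n) (Fin n) K) (v : Fin n → K) (hv : v ≠ 0) (P : K[X])
    (hP : Irreducible P) (hPv : aeval g P *ᵥ v = 0) (hpW : ∀ x, p *ᵥ x ∈ Wm g v)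
    (hpfix : ∀ w ∈ Wm g v, p *ᵥ w = w) (d : K) :
    ∃ f : K[X], (1 + (aeval g f - 1) * p).det = d := by
  obtain ⟨f, hf⟩ := SemiConj.exists_det_idem (Matrix.toLin' g) v hv P hP (by rw [bridge]; exact hPv)
    (Matrix.toLin' p) (fun x => by rw [Matrix.toLin'_apply]; exact hpW x)
    (fun w hw => by rw [Matrix.toLin'_apply]; exact hpfix w hw) d
  refine ⟨f, ?_⟩
  rw [← hf, ← LinearMap.det_toLin']
  congr 1
  apply LinearMap.ext
  intro x
  simp only [Matrix.toLin'_apply, add_mulVec, one_mulVec, ← mulVec_mulVec, sub_mulVec, LinearMap.add_apply,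
    Module.End.one_apply, Module.End.mul_apply, LinearMap.sub_apply, bridge]

variable [Fintype K] {q : ℕ}

/-- a projection commuting with `g`, with image in the simple module `Wm g v` and nonzero, fixes `Wm g v` -/
theorem fix_of_ne_zero (g p : Matrix (Fin n) (Fin n) K) (v : Fin n → K) (P : K[X])
    (hP : Irreducible P) (hPv : aeval g P *ᵥ v = 0) (hpp : p * p = p) (hpg : p * g = g * p) (hp0 : p ≠ 0)
    (hpW : ∀ x, p *ᵥ x ∈ Wm g v) : ∀ w ∈ Wm g v, p *ᵥ w = w := by
  obtain ⟨x, hx⟩ : ∃ x, p *ᵥ x ≠ 0 := by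
    by_contra hcon
    push Not at hcon
    exact hp0 (ext_mulVec' (fun x => by rw [hcon, zero_mulVec]))
  obtain ⟨a, ha⟩ := SemiConj.exists_aeval_eq (Matrix.toLin' g) v P hP (by rw [bridge]; exact hPv) _ (hpW x) hx
  rw [bridge] at ha
  have hcomm : ∀ k : K[X], aeval g k * p = p * aeval g k := fun k => aeval_commute g p hpg.symm k
  have hpv : p *ᵥ v = v := by
    have h1 : v = p *ᵥ (aeval g a *ᵥ x) := by rw [← ha, mulVec_mulVec, mulVec_mulVec, hcomm]
    rw [h1, mulVec_mulVec, hpp]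
  intro w hw
  obtain ⟨k, rfl⟩ := (mem_Wm g v w).1 hw
  rw [mulVec_mulVec, ← hcomm, ← mulVec_mulVec, hpv]

theorem case1 (hK : Fintype.card K = q ^ 2) (g : Matrix (Fin n) (Fin n) K) (hg : dag hK g * g = 1) (e : ℕ)
    (he : (e : K) ≠ 0) (hge : g ^ e = 1) (v : Fin n → K) (P : K[X]) (hP : Irreducible P)
    (hPv : aeval g P *ᵥ v = 0) (hvv : ∑ i, v i * v i ^ q ≠ 0) :
    ∃ p, p * g = g * p ∧ dag hK p = p ∧ (∀ x, p *ᵥ x ∈ Wm g v) ∧ (∀ w ∈ Wm g v, p *ᵥ w = w) := by
  obtain ⟨gi, hgi⟩ : ∃ gi, gi = dag hK g := ⟨_, rfl⟩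
  rw [← hgi] at hg
  have hg' : g * gi = 1 := mul_eq_one_comm.1 hg
  have hdgi : dag hK gi = g := by rw [hgi, dag_dag]
  obtain ⟨T, hTdef⟩ : ∃ T, T = vecMulVec v (fun i => v i ^ q) := ⟨_, rfl⟩
  have hT : dag hK T = T := by
    ext i j
    rw [dag_apply, hTdef, vecMulVec_apply, vecMulVec_apply, mul_pow, pow_q_sq hK, mul_comm]
  have hTx : ∀ x, ∃ c : K, T *ᵥ x = c • v := by
    intro x
    refine ⟨(fun i => v i ^ q) ⬝ᵥ x, ?_⟩
    rw [hTdef, vecMulVec_mulVec]
    ext i
    simp [mul_comm]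
  have hgie : gi ^ e = 1 := by rw [hgi, ← dag_pow, hge, dag_one]
  have hgig : ∀ i : ℕ, gi ^ i * g ^ i = 1 := by
    intro i
    induction i with
    | zero => simp
    | succ i ih =>
      calc gi ^ (i + 1) * g ^ (i + 1) = gi ^ i * (gi * g) * g ^ i := by
            rw [pow_succ, pow_succ']; simp only [mul_assoc]
        _ = 1 := by rw [hg, mul_one, ih]
  obtain ⟨S, hS⟩ : ∃ S, S = ∑ i ∈ Finset.range e, g ^ i * T * gi ^ i := ⟨_, rfl⟩
  have hSd : dag hK S = S := by
    rw [hS, dag_sum]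
    apply Finset.sum_congr rfl
    intro i _
    rw [dag_mul, dag_mul, dag_pow, dag_pow, hT, hdgi, ← hgi, mul_assoc]
  have hshift : g * S * gi = S := by
    have h1 : g * S * gi = ∑ i ∈ Finset.range e, g ^ (i + 1) * T * gi ^ (i + 1) := by
      rw [hS, Finset.mul_sum, Finset.sum_mul]
      apply Finset.sum_congr rfl
      intro i _
      rw [pow_succ' g, pow_succ gi]
      simp only [mul_assoc]
    have h2 := Finset.sum_range_succ (fun i => g ^ i * T * gi ^ i) e
    have h3 := Finset.sum_range_succ' (fun i => g ^ i * T * gi ^ i) e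
    rw [h2] at h3
    simp only [hge, hgie, pow_zero, one_mul, mul_one] at h3
    rw [h1, hS]
    exact (add_right_cancel h3).symm
  have hSg : S * g = g * S := by
    calc S * g = g * S * gi * g := by rw [hshift]
      _ = g * S := by rw [mul_assoc, hg, mul_one]
  have htr : S.trace = e * ∑ i, v i * v i ^ q := by
    rw [hS, trace_sum]
    have : ∀ i ∈ Finset.range e, (g ^ i * T * gi ^ i).trace = ∑ i, v i * v i ^ q := by
      intro i _
      rw [trace_mul_comm, ← mul_assoc, hgig, one_mul, hTdef, trace_vecMulVec]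
      rfl
    rw [Finset.sum_congr rfl this, Finset.sum_const, Finset.card_range, nsmul_eq_mul]
  have hSW : ∀ x, S *ᵥ x ∈ Wm g v := by
    intro x
    rw [hS, sum_mulVec]
    apply Submodule.sum_mem
    intro i _
    obtain ⟨c, hc⟩ := hTx (gi ^ i *ᵥ x)
    rw [← mulVec_mulVec, ← mulVec_mulVec, hc, mulVec_smul]
    apply Submodule.smul_mem
    rw [mem_Wm]
    exact ⟨X ^ i, by rw [map_pow, aeval_X]⟩
  obtain ⟨j, hj⟩ := InvCorner.exists_idem_pow S
  have hp0 : S ^ (j + 1) ≠ 0 := by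
    intro h0
    have h1 : IsNilpotent S := ⟨j + 1, h0⟩
    have h2 := Matrix.isNilpotent_trace_of_isNilpotent h1
    rw [htr] at h2
    exact (mul_ne_zero he hvv) h2.eq_zero
  have hpg : S ^ (j + 1) * g = g * S ^ (j + 1) := (Commute.pow_left (show Commute S g from hSg) _).eq
  have hpW : ∀ x, S ^ (j + 1) *ᵥ x ∈ Wm g v := by
    intro x
    rw [pow_succ', ← mulVec_mulVec]
    exact hSW _
  exact ⟨S ^ (j + 1), hpg, by rw [dag_pow, hSd], hpW, fix_of_ne_zero g _ v P hP hPv hj hpg hp0 hpW⟩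

end Cfsg.Agent.Lib.Helper50.SUDet
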