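import Cfsg.Agent.Lib.Helper50.SemiClass

set_option autoImplicit false

/-! The determinant is surjective on the centraliser of a semisimple element (finite fields). -/

namespace Cfsg.Agent.Lib.Helper50.SemiConj

open Polynomial Module

universe u v

variable {F : Type v} [Field F]

/-- the cyclic module generated by a vector killed by the irreducible `P` is `F[X]/(P)` -/
theorem exists_equiv_adjoinRoot {V : Type u} [AddCommGroup V] [Module F V] (g : End F V) (v : V) (hv : v ≠ 0)
    (P : F[X]) (hP : Irreducible P) (hPv : aeval g P v = 0) :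
    ∃ ψ : AdjoinRoot P ≃ₗ[F] LinearMap.range (ev g v), ∀ f : F[X], ((ψ (AdjoinRoot.mk P f) : _) : V) = ev g v f := by
  let π : F[X] →ₗ[F] AdjoinRoot P := (AdjoinRoot.mkₐ P).toLinearMap
  have hπ : Function.Surjective π := AdjoinRoot.mk_surjective
  let ε : F[X] →ₗ[F] LinearMap.range (ev g v) := (ev g v).rangeRestrict
  have hε : Function.Surjective ε := LinearMap.surjective_rangeRestrict _
  have hker : LinearMap.ker π = LinearMap.ker ε := by
    ext f
    rw [LinearMap.ker_rangeRestrict, ker_ev g v hv P hP hPv, LinearMap.mem_ker]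
    exact AdjoinRoot.mk_eq_zero
  refine ⟨((π.quotKerEquivOfSurjective hπ).symm.trans (Submodule.quotEquivOfEq _ _ hker)).trans
    (ε.quotKerEquivOfSurjective hε), fun f => ?_⟩
  have e1 : (π.quotKerEquivOfSurjective hπ).symm (AdjoinRoot.mk P f) = Submodule.Quotient.mk f := by
    rw [LinearEquiv.symm_apply_eq]
    rfl
  simp only [LinearEquiv.trans_apply, e1]
  rfl

theorem exists_commute_det [Finite F] {V : Type u} [AddCommGroup V] [Module F V] [FiniteDimensional F V]
    [Nontrivial V] (g : End F V) (hg : g.IsSemisimple) (δ : F) :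
    ∃ c : End F V, c * g = g * c ∧ LinearMap.det c = δ := by
  have hnu : ¬ IsUnit g.charpoly := by
    intro hu
    have := natDegree_eq_zero_of_isUnit hu
    rw [LinearMap.charpoly_natDegree] at this
    have h2 : 0 < finrank F V := Module.finrank_pos
    omega
  obtain ⟨P, -, hP, hPd⟩ := exists_monic_irreducible_factor _ hnu
  obtain ⟨v, hv, hPv⟩ := exists_ne_zero_aeval g P hP hPd
  obtain ⟨q, hq, hpq⟩ := (Module.End.isSemisimple_iff.1 hg) _ (range_ev_invt g v)
  obtain ⟨ψ, hψ⟩ := exists_equiv_adjoinRoot g v hv P hP hPv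
  have : Fact (Irreducible P) := ⟨hP⟩
  have : Module.Finite F (AdjoinRoot P) := Module.Finite.equiv ψ.symm
  have : Finite (AdjoinRoot P) := Module.finite_of_finite F
  obtain ⟨y, hy⟩ := FiniteField.norm_surjective F (AdjoinRoot P) δ
  obtain ⟨f, rfl⟩ := AdjoinRoot.mk_surjective y
  set gp : End F (LinearMap.range (ev g v)) := LinearMap.restrict g (range_ev_invt g v) with hgp
  set gq : End F q := LinearMap.restrict g hq with hgq
  let cp : End F (LinearMap.range (ev g v)) := aeval gp f
  have hcoe : ∀ (k : F[X]) (x : LinearMap.range (ev g v)), ((aeval gp k x : _) : V) = aeval g k (x : V) := by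
    intro k x
    induction k using Polynomial.induction_on' with
    | add a b ha hb => simp only [map_add, LinearMap.add_apply, Submodule.coe_add, ha, hb]
    | monomial n a =>
      simp only [aeval_monomial, Module.End.mul_apply, Module.algebraMap_end_apply, Submodule.coe_smul]
      congr 1
      induction n generalizing x with
      | zero => simp
      | succ n ih =>
        rw [pow_succ, pow_succ, Module.End.mul_apply, Module.End.mul_apply, ih]
        rfl
  have hcp : cp = ψ.conj (Algebra.lmul F (AdjoinRoot P) (AdjoinRoot.mk P f)) := by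
    apply LinearMap.ext
    intro x
    obtain ⟨y, rfl⟩ := ψ.surjective x
    obtain ⟨k, rfl⟩ := AdjoinRoot.mk_surjective y
    rw [LinearEquiv.conj_apply_apply, ψ.symm_apply_apply]
    apply Subtype.ext
    have e0 : (Algebra.lmul F (AdjoinRoot P) (AdjoinRoot.mk P f)) (AdjoinRoot.mk P k) =
        AdjoinRoot.mk P (f * k) := by rw [map_mul]; rfl
    rw [hcoe, hψ, e0, hψ, ev_apply, ev_apply, map_mul]
    rfl
  have hdet : LinearMap.det cp = δ := by
    rw [hcp, LinearEquiv.conj_apply, LinearMap.comp_assoc, LinearMap.det_conj, ← Algebra.norm_apply, hy]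
  let E := Submodule.prodEquivOfIsCompl _ q hpq
  have hgE : g = E.conj (gp.prodMap gq) := by
    apply LinearMap.ext
    intro x
    obtain ⟨⟨a, b⟩, rfl⟩ := E.surjective x
    rw [LinearEquiv.conj_apply_apply, E.symm_apply_apply]
    simp only [E, LinearMap.prodMap_apply, Submodule.coe_prodEquivOfIsCompl', map_add]
    rfl
  refine ⟨E.conj (cp.prodMap LinearMap.id), ?_, ?_⟩
  · have key : E.conj (cp.prodMap LinearMap.id) * E.conj (gp.prodMap gq) =
        E.conj (gp.prodMap gq) * E.conj (cp.prodMap LinearMap.id) := ?_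
    · rwa [← hgE] at key
    rw [Module.End.mul_eq_comp, Module.End.mul_eq_comp, ← LinearEquiv.conj_comp, ← LinearEquiv.conj_comp]
    congr 1
    show cp.prodMap LinearMap.id * gp.prodMap gq = gp.prodMap gq * cp.prodMap LinearMap.id
    apply LinearMap.ext
    rintro ⟨a, b⟩
    simp only [Module.End.mul_apply, LinearMap.prodMap_apply, LinearMap.id_apply, Prod.mk.injEq, and_true]
    have : cp * gp = gp * cp := by
      have h1 : cp * gp = aeval gp (f * X) := by rw [map_mul, aeval_X]
      have h2 : gp * cp = aeval gp (X * f) := by rw [map_mul, aeval_X]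
      rw [h1, h2, mul_comm]
    exact LinearMap.congr_fun this a
  · rw [LinearEquiv.conj_apply, LinearMap.comp_assoc, LinearMap.det_conj, LinearMap.det_prodMap, hdet,
      LinearMap.det_id, mul_one]

/-- matrix version -/
theorem exists_commute_det_matrix [Finite F] {n : Type} [Fintype n] [DecidableEq n] [Nonempty n]
    (g : Matrix n n F) (hg : Module.End.IsSemisimple (Matrix.toLin' g)) (δ : F) :
    ∃ c : Matrix n n F, c * g = g * c ∧ c.det = δ := by
  obtain ⟨c, hc, hd⟩ := exists_commute_det (Matrix.toLin' g) hg δ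
  refine ⟨LinearMap.toMatrix' c, ?_, ?_⟩
  · apply Matrix.toLin'.injective
    rw [Matrix.toLin'_mul, Matrix.toLin'_mul, Matrix.toLin'_toMatrix']
    exact hc
  · rw [← hd, LinearMap.det_toMatrix']

theorem isSemisimple_toLin' {n : Type} [Fintype n] [DecidableEq n] (g : Matrix n n F) (e : ℕ)
    (he : (e : F) ≠ 0) (hg : g ^ e = 1) : Module.End.IsSemisimple (Matrix.toLin' g) := by
  apply isSemisimple_of_pow_eq_one _ e he
  have := congrArg Matrix.toLinAlgEquiv' hg
  rw [map_pow, map_one] at this
  exact this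

/-- `p'`-elements of `SL_n(q)` with the same characteristic polynomial are conjugate in `SL_n(q)` -/
theorem conj_SL [Finite F] (p : ℕ) [hp : Fact p.Prime] [CharP F p] (n : ℕ)
    (g h : Matrix.SpecialLinearGroup (Fin n) F) (hg : (orderOf g).Coprime p) (hh : (orderOf h).Coprime p)
    (hc : (g : Matrix (Fin n) (Fin n) F).charpoly = (h : Matrix (Fin n) (Fin n) F).charpoly) : IsConj g h := by
  rcases Nat.eq_zero_or_pos n with rfl | hn
  · have : g = h := by
      ext i
      exact i.elim0
    rw [this]
  have : Nonempty (Fin n) := ⟨⟨0, hn⟩⟩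
  have hge : (g : Matrix (Fin n) (Fin n) F) ^ orderOf g = 1 := by
    rw [← Matrix.SpecialLinearGroup.coe_pow, pow_orderOf_eq_one, Matrix.SpecialLinearGroup.coe_one]
  have hhe : (h : Matrix (Fin n) (Fin n) F) ^ orderOf h = 1 := by
    rw [← Matrix.SpecialLinearGroup.coe_pow, pow_orderOf_eq_one, Matrix.SpecialLinearGroup.coe_one]
  obtain ⟨x, hx⟩ := exists_conj_of_pow (g : Matrix (Fin n) (Fin n) F) (h : Matrix (Fin n) (Fin n) F)
    (orderOf g) (orderOf h) (cast_ne_zero_of_coprime p hg hp.out.ne_one)
    (cast_ne_zero_of_coprime p hh hp.out.ne_one) hge hhe hc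
  obtain ⟨c, hcg, hcd⟩ := exists_commute_det_matrix (g : Matrix (Fin n) (Fin n) F)
    (isSemisimple_toLin' _ _ (cast_ne_zero_of_coprime p hg hp.out.ne_one) hge)
    ((x : Matrix (Fin n) (Fin n) F).det)⁻¹
  have hxd : (x : Matrix (Fin n) (Fin n) F).det ≠ 0 :=
    ((Matrix.isUnit_iff_isUnit_det _).1 x.isUnit).ne_zero
  let z : Matrix.SpecialLinearGroup (Fin n) F := ⟨(x : Matrix (Fin n) (Fin n) F) * c, by
    rw [Matrix.det_mul, hcd, mul_inv_cancel₀ hxd]⟩
  rw [isConj_iff]
  refine ⟨z, ?_⟩
  rw [mul_inv_eq_iff_eq_mul]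
  apply Subtype.ext
  show (x : Matrix (Fin n) (Fin n) F) * c * (g : Matrix (Fin n) (Fin n) F) =
    (h : Matrix (Fin n) (Fin n) F) * ((x : Matrix (Fin n) (Fin n) F) * c)
  rw [mul_assoc, hcg, ← mul_assoc, hx, mul_assoc]

end Cfsg.Agent.Lib.Helper50.SemiConj
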